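/-
Counting congruence classes modulo two in an even lattice of rank 24 without roots.
-/
import Cfsg.Agent.S1587

set_option autoImplicit false

namespace CfsgLib.AbsLeech

open Matrix

variable {B : Matrix (Fin 24) (Fin 24) ℤ}

/-- Reduction modulo two. -/
def red2 (x : Fin 24 → ℤ) : Fin 24 → ZMod 2 := fun i => (x i : ZMod 2)

theorem red2_eq_iff {x y : Fin 24 → ℤ} : red2 x = red2 y ↔ ∀ i, (2 : ℤ) ∣ (x - y) i := by
  constructor
  · intro h i
    have h1 := congrFun h i
    simp only [red2] at h1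
    have h2 : ((x i - y i : ℤ) : ZMod 2) = 0 := by
      rw [Int.cast_sub, h1, sub_self]
    exact (ZMod.intCast_zmod_eq_zero_iff_dvd _ 2).mp h2
  · intro h
    funext i
    have h2 := (ZMod.intCast_zmod_eq_zero_iff_dvd _ 2).mpr (h i)
    simp only [Pi.sub_apply, Int.cast_sub] at h2
    exact sub_eq_zero.mp h2

/-- The form. -/
def NN (B : Matrix (Fin 24) (Fin 24) ℤ) (x : Fin 24 → ℤ) : ℤ := x ⬝ᵥ (B *ᵥ x)

theorem NN_par (w z : Fin 24 → ℤ) : NN B (w + z) + NN B (w - z) = 2 * NN B w + 2 * NN B z := by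
  simp only [NN, mulVec_add, mulVec_sub, dotProduct_add, add_dotProduct, dotProduct_sub, sub_dotProduct]
  ring

theorem NN_neg (x : Fin 24 → ℤ) : NN B (-x) = NN B x := by
  simp [NN, mulVec_neg]

/-- The midpoints of two congruent vectors. -/
theorem exists_mid {u v : Fin 24 → ℤ} (h : ∀ i, (2 : ℤ) ∣ (u - v) i) :
    ∃ w z : Fin 24 → ℤ, u = w + z ∧ v = w - z := by
  choose z hz using h
  refine ⟨z + v, z, ?_, ?_⟩
  · funext i
    have := hz i
    simp only [Pi.sub_apply] at this
    simp only [Pi.add_apply]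
    linarith
  · funext i
    simp

section
variable (hpos : ∀ x : Fin 24 → ℤ, x ≠ 0 → 0 < x ⬝ᵥ (B *ᵥ x)) (heven : ∀ x : Fin 24 → ℤ, (2 : ℤ) ∣ x ⬝ᵥ (B *ᵥ x))
  (h2 : ∀ x : Fin 24 → ℤ, x ⬝ᵥ (B *ᵥ x) ≠ 2)
include hpos heven h2

theorem four_le {x : Fin 24 → ℤ} (hx : x ≠ 0) : 4 ≤ NN B x := by
  have h1 := hpos x hx
  obtain ⟨k, hk⟩ := heven x
  have h3 := h2 x
  unfold NN
  omega

theorem NN_zero_iff {x : Fin 24 → ℤ} (hx : NN B x = 0) : x = 0 := by
  by_contra h
  have := four_le hpos heven h2 h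
  omega

/-- Congruent vectors of small norm agree up to sign. -/
theorem small_cases {u v : Fin 24 → ℤ} (h : ∀ i, (2 : ℤ) ∣ (u - v) i) (hs : NN B u + NN B v < 16) :
    u = v ∨ u = -v := by
  obtain ⟨w, z, rfl, rfl⟩ := exists_mid h
  have hp := NN_par (B := B) w z
  by_cases hz : z = 0
  · left
    simp [hz]
  by_cases hw : w = 0
  · right
    simp [hw]
  exfalso
  have h3 := four_le hpos heven h2 hz
  have h4 := four_le hpos heven h2 hw
  omega

/-- Different small norms are never congruent. -/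
theorem norm_eq_of_red {u v : Fin 24 → ℤ} (h : ∀ i, (2 : ℤ) ∣ (u - v) i) (hu : NN B u = 4 ∨ NN B u = 6 ∨ NN B u = 8)
    (hv : NN B v = 4 ∨ NN B v = 6 ∨ NN B v = 8) : NN B u = NN B v := by
  by_cases hs : NN B u = 8 ∧ NN B v = 8
  · rw [hs.1, hs.2]
  have h3 : NN B u + NN B v < 16 := by omega
  by_cases hodd : (NN B u = 4 ∧ NN B v = 6) ∨ (NN B u = 6 ∧ NN B v = 4) ∨ (NN B u = 6 ∧ NN B v = 8) ∨ (NN B u = 8 ∧ NN B v = 6)
  · exfalso
    obtain ⟨w, z, e1, e2⟩ := exists_mid h
    have hp := NN_par (B := B) w z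
    rw [← e1, ← e2] at hp
    obtain ⟨a, ha⟩ := heven w
    obtain ⟨b, hb⟩ := heven z
    have h5 : NN B w = 2 * a := ha
    have h6 : NN B z = 2 * b := hb
    omega
  rcases small_cases hpos heven h2 h h3 with h4 | h4
  · rw [h4]
  · rw [h4, NN_neg]

/-- Nonzero vectors congruent to zero have large norm. -/
theorem not_red_zero {v : Fin 24 → ℤ} (h : ∀ i, (2 : ℤ) ∣ v i) (hv : NN B v = 4 ∨ NN B v = 6 ∨ NN B v = 8) : False := by
  choose z hz using h
  have e : v = z + z := by
    funext i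
    have := hz i
    simp only [Pi.add_apply]
    linarith
  have hN : NN B v = 4 * NN B z := by
    rw [e]
    simp only [NN, mulVec_add, dotProduct_add, add_dotProduct]
    have hsym : z ⬝ᵥ (B *ᵥ z) = z ⬝ᵥ (B *ᵥ z) := rfl
    ring
  obtain ⟨b, hb⟩ := heven z
  have h5 : NN B z = 2 * b := hb
  have h6 := h2 z
  have h7 : NN B z ≠ 2 := h6
  omega

end

/-- An orthogonal family of vectors of positive norm has at most 24 members. -/
theorem card_le_of_orth (A : Finset (Fin 24 → ℤ)) (hA : ∀ a ∈ A, NN B a ≠ 0)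
    (ho : ∀ a ∈ A, ∀ b ∈ A, a ≠ b → a ⬝ᵥ (B *ᵥ b) = 0) : A.card ≤ 24 := by
  classical
  have hli : LinearIndependent ℤ (fun a : A => (a : Fin 24 → ℤ)) := by
    rw [Fintype.linearIndependent_iff]
    intro g hg a0
    have h1 := congrArg (fun y => (a0 : Fin 24 → ℤ) ⬝ᵥ (B *ᵥ y)) hg
    simp only [mulVec_zero, dotProduct_zero] at h1
    rw [mulVec_sum, dotProduct_sum, Finset.sum_eq_single a0] at h1
    · rw [mulVec_smul, dotProduct_smul, smul_eq_mul] at h1
      rcases mul_eq_zero.mp h1 with h3 | h3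
      · exact h3
      · exact absurd h3 (hA _ a0.2)
    · intro b _ hb
      rw [mulVec_smul, dotProduct_smul, ho _ a0.2 _ b.2 (fun h => hb (Subtype.ext h.symm))]
      simp
    · simp
  have h3 := hli.fintype_card_le_finrank
  simp only [Module.finrank_fin_fun, Fintype.card_coe] at h3
  exact h3

/-- The abstract count. -/
theorem classes_count (hsymm : B.IsSymm) (hpos : ∀ x : Fin 24 → ℤ, x ≠ 0 → 0 < x ⬝ᵥ (B *ᵥ x))
    (heven : ∀ x : Fin 24 → ℤ, (2 : ℤ) ∣ x ⬝ᵥ (B *ᵥ x)) (h2 : ∀ x : Fin 24 → ℤ, x ⬝ᵥ (B *ᵥ x) ≠ 2)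
    (h4 : {x : Fin 24 → ℤ | x ⬝ᵥ (B *ᵥ x) = 4}.ncard = 196560)
    (h6 : {x : Fin 24 → ℤ | x ⬝ᵥ (B *ᵥ x) = 6}.ncard = 16773120)
    (h8 : {x : Fin 24 → ℤ | x ⬝ᵥ (B *ᵥ x) = 8}.ncard = 398034000)
    (x : Fin 24 → ℤ) (hx : x ⬝ᵥ (B *ᵥ x) = 8) :
    {y : Fin 24 → ℤ | y ⬝ᵥ (B *ᵥ y) = 8 ∧ ∀ i, (2 : ℤ) ∣ (x - y) i}.ncard = 48 := by
  classical
  have fin4 : {x : Fin 24 → ℤ | x ⬝ᵥ (B *ᵥ x) = 4}.Finite := Set.finite_of_ncard_ne_zero (by rw [h4]; norm_num)
  have fin6 : {x : Fin 24 → ℤ | x ⬝ᵥ (B *ᵥ x) = 6}.Finite := Set.finite_of_ncard_ne_zero (by rw [h6]; norm_num)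
  have fin8 : {x : Fin 24 → ℤ | x ⬝ᵥ (B *ᵥ x) = 8}.Finite := Set.finite_of_ncard_ne_zero (by rw [h8]; norm_num)
  let S4 := fin4.toFinset
  let S6 := fin6.toFinset
  let S8 := fin8.toFinset
  have mS4 : ∀ {y}, y ∈ S4 ↔ NN B y = 4 := by intro y; simp [S4, NN]
  have mS6 : ∀ {y}, y ∈ S6 ↔ NN B y = 6 := by intro y; simp [S6, NN]
  have mS8 : ∀ {y}, y ∈ S8 ↔ NN B y = 8 := by intro y; simp [S8, NN]
  have c4 : S4.card = 196560 := by rw [← h4, Set.ncard_eq_toFinset_card _ fin4]
  have c6 : S6.card = 16773120 := by rw [← h6, Set.ncard_eq_toFinset_card _ fin6]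
  have c8 : S8.card = 398034000 := by rw [← h8, Set.ncard_eq_toFinset_card _ fin8]
  -- images
  have i4 : S4.card ≤ 2 * (S4.image red2).card := by
    apply Finset.card_le_mul_card_image
    intro q hq
    obtain ⟨v, hv, rfl⟩ := Finset.mem_image.mp hq
    have : S4.filter (fun y => red2 y = red2 v) ⊆ {v, -v} := by
      intro w hw
      obtain ⟨h3, h5⟩ := Finset.mem_filter.mp hw
      rw [mS4] at h3 hv
      rcases small_cases hpos heven h2 (red2_eq_iff.mp h5) (by omega) with h6 | h6 <;> simp [h6]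
    exact (Finset.card_le_card this).trans Finset.card_le_two
  have i6 : S6.card ≤ 2 * (S6.image red2).card := by
    apply Finset.card_le_mul_card_image
    intro q hq
    obtain ⟨v, hv, rfl⟩ := Finset.mem_image.mp hq
    have : S6.filter (fun y => red2 y = red2 v) ⊆ {v, -v} := by
      intro w hw
      obtain ⟨h3, h5⟩ := Finset.mem_filter.mp hw
      rw [mS6] at h3 hv
      rcases small_cases hpos heven h2 (red2_eq_iff.mp h5) (by omega) with h6 | h6 <;> simp [h6]
    exact (Finset.card_le_card this).trans Finset.card_le_two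
  -- fibers of norm 8
  have fib : ∀ v ∈ S8, (S8.filter (fun y => red2 y = red2 v)).card ≤ 48 := by
    intro v hv
    set F := S8.filter (fun y => red2 y = red2 v) with hF
    -- a maximal orthogonal subset
    let P : Finset (Fin 24 → ℤ) → Prop := fun A => ∀ a ∈ A, ∀ b ∈ A, a ≠ b → a ⬝ᵥ (B *ᵥ b) = 0
    let T := F.powerset.filter P
    have hTne : T.Nonempty := ⟨∅, Finset.mem_filter.mpr ⟨Finset.empty_mem_powerset _, by intro a ha; simp at ha⟩⟩
    obtain ⟨A, hAT, hmax⟩ := Finset.exists_max_image T Finset.card hTne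
    obtain ⟨hAsub, hAo⟩ := Finset.mem_filter.mp hAT
    rw [Finset.mem_powerset] at hAsub
    have hrel : ∀ a ∈ F, ∀ b ∈ F, b = a ∨ b = -a ∨ a ⬝ᵥ (B *ᵥ b) = 0 := by
      intro a ha b hb
      obtain ⟨h3, h5⟩ := Finset.mem_filter.mp ha
      obtain ⟨h7, h9⟩ := Finset.mem_filter.mp hb
      rw [mS8] at h3 h7
      refine Cfsg.Agent.S1587.result B hsymm hpos heven h2 a b h3 h7 (red2_eq_iff.mp (h5.trans h9.symm))
    have hcov : F ⊆ A ∪ A.image (fun a => -a) := by
      intro y hy
      by_contra hcon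
      simp only [Finset.mem_union, Finset.mem_image, not_or, not_exists, not_and] at hcon
      obtain ⟨h3, h5⟩ := hcon
      have hins : insert y A ∈ T := by
        refine Finset.mem_filter.mpr ⟨Finset.mem_powerset.mpr (Finset.insert_subset hy hAsub), ?_⟩
        intro a ha b hb hab
        have hsym : ∀ p q : Fin 24 → ℤ, p ⬝ᵥ (B *ᵥ q) = q ⬝ᵥ (B *ᵥ p) := by
          intro p q
          rw [Matrix.dotProduct_mulVec, dotProduct_comm]
          congr 1
          conv_lhs => rw [← hsymm.eq]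
          rw [Matrix.vecMul_transpose]
        rcases Finset.mem_insert.mp ha with rfl | ha' <;> rcases Finset.mem_insert.mp hb with rfl | hb'
        · exact absurd rfl hab
        · rcases hrel _ (hAsub hb') _ hy with h7 | h7 | h7
          · rw [h7] at h3
            exact absurd hb' h3
          · exact absurd h7.symm (h5 b hb')
          · rw [hsym]; exact h7
        · rcases hrel _ (hAsub ha') _ hy with h7 | h7 | h7
          · rw [h7] at h3
            exact absurd ha' h3
          · exact absurd h7.symm (h5 a ha')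
          · exact h7
        · exact hAo a ha' b hb' hab
      have h7 := hmax _ hins
      rw [Finset.card_insert_of_notMem h3] at h7
      omega
    have hA24 : A.card ≤ 24 := by
      apply card_le_of_orth (B := B) A _ hAo
      intro a ha
      have := (Finset.mem_filter.mp (hAsub ha)).1
      rw [mS8] at this
      omega
    calc F.card ≤ (A ∪ A.image (fun a => -a)).card := Finset.card_le_card hcov
      _ ≤ A.card + (A.image (fun a => -a)).card := Finset.card_union_le _ _
      _ ≤ A.card + A.card := by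
          have := Finset.card_image_le (s := A) (f := fun a : Fin 24 → ℤ => -a)
          omega
      _ ≤ 48 := by omega
  have hdis46 : Disjoint (S4.image red2) (S6.image red2) := by
    rw [Finset.disjoint_left]
    intro q h3 h5
    obtain ⟨a, ha, rfl⟩ := Finset.mem_image.mp h3
    obtain ⟨b, hb, he⟩ := Finset.mem_image.mp h5
    rw [mS4] at ha
    rw [mS6] at hb
    have := norm_eq_of_red hpos heven h2 (red2_eq_iff.mp he) (by omega) (by omega)
    omega
  have hdis48 : Disjoint (S4.image red2) (S8.image red2) := by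
    rw [Finset.disjoint_left]
    intro q h3 h5
    obtain ⟨a, ha, rfl⟩ := Finset.mem_image.mp h3
    obtain ⟨b, hb, he⟩ := Finset.mem_image.mp h5
    rw [mS4] at ha
    rw [mS8] at hb
    have := norm_eq_of_red hpos heven h2 (red2_eq_iff.mp he) (by omega) (by omega)
    omega
  have hdis68 : Disjoint (S6.image red2) (S8.image red2) := by
    rw [Finset.disjoint_left]
    intro q h3 h5
    obtain ⟨a, ha, rfl⟩ := Finset.mem_image.mp h3
    obtain ⟨b, hb, he⟩ := Finset.mem_image.mp h5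
    rw [mS6] at ha
    rw [mS8] at hb
    have := norm_eq_of_red hpos heven h2 (red2_eq_iff.mp he) (by omega) (by omega)
    omega
  have hzero : ∀ S : Finset (Fin 24 → ℤ), (∀ y ∈ S, NN B y = 4 ∨ NN B y = 6 ∨ NN B y = 8) → (0 : Fin 24 → ZMod 2) ∉ S.image red2 := by
    intro S hS h3
    obtain ⟨b, hb, he⟩ := Finset.mem_image.mp h3
    refine not_red_zero hpos heven h2 (v := b) ?_ (hS b hb)
    intro i
    have h5 := congrFun he i
    exact (ZMod.intCast_zmod_eq_zero_iff_dvd _ 2).mp h5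
  -- total count
  have htot : 1 + ((S4.image red2).card + ((S6.image red2).card + (S8.image red2).card)) ≤ 2 ^ 24 := by
    have h3 : ({0} ∪ (S4.image red2 ∪ (S6.image red2 ∪ S8.image red2))).card ≤ Fintype.card (Fin 24 → ZMod 2) := Finset.card_le_univ _
    have hc : Fintype.card (Fin 24 → ZMod 2) = 2 ^ 24 := by simp [ZMod.card]
    rw [hc, Finset.card_union_of_disjoint, Finset.card_union_of_disjoint, Finset.card_union_of_disjoint hdis68] at h3
    · simpa using h3
    · rw [Finset.disjoint_union_right]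
      exact ⟨hdis46, hdis48⟩
    · rw [Finset.disjoint_singleton_left]
      simp only [Finset.mem_union, not_or]
      refine ⟨hzero S4 fun y hy => Or.inl (mS4.mp hy), hzero S6 fun y hy => Or.inr (Or.inl (mS6.mp hy)), hzero S8 fun y hy => Or.inr (Or.inr (mS8.mp hy))⟩
  -- the fibre through x is full
  have hx8 : x ∈ S8 := mS8.mpr hx
  have hset : {y : Fin 24 → ℤ | y ⬝ᵥ (B *ᵥ y) = 8 ∧ ∀ i, (2 : ℤ) ∣ (x - y) i} = ↑(S8.filter (fun y => red2 y = red2 x)) := by
    ext y
    simp only [Set.mem_setOf_eq, Finset.coe_filter, Set.mem_ofPred_eq]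
    constructor
    · rintro ⟨h3, h5⟩
      exact ⟨mS8.mpr h3, (red2_eq_iff.mpr h5).symm⟩
    · rintro ⟨h3, h5⟩
      exact ⟨mS8.mp h3, red2_eq_iff.mp h5.symm⟩
  rw [hset, Set.ncard_coe_finset]
  apply le_antisymm (fib x hx8)
  by_contra hlt
  push Not at hlt
  have hsum : S8.card = ∑ q ∈ S8.image red2, (S8.filter (fun y => red2 y = q)).card :=
    Finset.card_eq_sum_card_image red2 S8
  have hq : red2 x ∈ S8.image red2 := Finset.mem_image_of_mem _ hx8
  have hbound : ∑ q ∈ (S8.image red2).erase (red2 x), (S8.filter (fun y => red2 y = q)).card ≤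
      ∑ q ∈ (S8.image red2).erase (red2 x), 48 := by
    apply Finset.sum_le_sum
    intro q hq2
    obtain ⟨v, hv, rfl⟩ := Finset.mem_image.mp (Finset.mem_of_mem_erase hq2)
    exact fib v hv
  simp only [Finset.sum_const, smul_eq_mul] at hbound
  rw [← Finset.add_sum_erase _ _ hq, c8] at hsum
  rw [Finset.card_erase_of_mem hq] at hbound
  have hpos2 : 0 < (S8.image red2).card := Finset.card_pos.mpr ⟨_, hq⟩
  rw [c4] at i4
  rw [c6] at i6
  obtain ⟨m, hm⟩ : ∃ m, (S8.image red2).card = m + 1 := ⟨_, (Nat.succ_pred_eq_of_pos hpos2).symm⟩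
  rw [hm] at hbound htot
  simp only [Nat.add_sub_cancel] at hbound
  omega

end CfsgLib.AbsLeech
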