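/-
Structure of the rank-24 lattice: the set `leechSet` is a subgroup, described through a parity and a codeword.
-/
import Cfsg.Agent.Lib.Golay.Leader
import Cfsg.Agent.Lib.Golay.Class
import Cfsg.Prelude.Def_Spor_Conway

set_option autoImplicit false

namespace CfsgLib.Leech

open Cfsg CfsgLib.Golay
open scoped Pointwise

/-- The supports of the words of the length-24 code. -/
abbrev Sup : Set (Finset GolayPt) := supports (golayCode : Set (GolayPt → ZMod 2))

theorem sup_empty : (∅ : Finset GolayPt) ∈ Sup := Spor.empty_mem_supports_golayCode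

theorem sup_univ : (Finset.univ : Finset GolayPt) ∈ Sup := Spor.univ_mem_supports_golayCode

theorem sup_symmDiff {s t : Finset GolayPt} (hs : s ∈ Sup) (ht : t ∈ Sup) : symmDiff s t ∈ Sup := by
  obtain ⟨a, ha, rfl⟩ := (mem_supports_iff s).mp hs
  obtain ⟨b, hb, rfl⟩ := (mem_supports_iff t).mp ht
  rw [← fs_xor]
  exact fs_mem_supports (xor_mem_allCode ha hb)

theorem sup_compl {s : Finset GolayPt} (hs : s ∈ Sup) : sᶜ ∈ Sup := by
  have : sᶜ = symmDiff s Finset.univ := by
    ext p
    simp [Finset.mem_symmDiff]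
  rw [this]
  exact sup_symmDiff hs sup_univ

theorem sup_card {s : Finset GolayPt} (hs : s ∈ Sup) : s.card = 0 ∨ s.card = 8 ∨ s.card = 12 ∨ s.card = 16 ∨ s.card = 24 := by
  obtain ⟨a, ha, rfl⟩ := (mem_supports_iff s).mp hs
  rw [card_fs]
  exact weight_cases a ha

theorem four_dvd_card {s : Finset GolayPt} (hs : s ∈ Sup) : 4 ∣ s.card := by
  rcases sup_card hs with h | h | h | h | h <;> rw [h] <;> norm_num

theorem two_dvd_inter {s t : Finset GolayPt} (hs : s ∈ Sup) (ht : t ∈ Sup) : 2 ∣ (s ∩ t).card := by
  obtain ⟨a, ha, rfl⟩ := (mem_supports_iff s).mp hs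
  obtain ⟨b, hb, rfl⟩ := (mem_supports_iff t).mp ht
  rw [← fs_land, card_fs]
  have h1 := pop_xor_add a b
  have h2 := four_dvd_card (fs_mem_supports ha)
  have h3 := four_dvd_card (fs_mem_supports hb)
  have h4 := four_dvd_card (fs_mem_supports (xor_mem_allCode ha hb))
  rw [card_fs] at h2 h3 h4
  omega

/-- The indicator function of a set of points. -/
def ind (c : Finset GolayPt) (i : GolayPt) : ℤ := if i ∈ c then 1 else 0

theorem ind_cases (c : Finset GolayPt) (i : GolayPt) : ind c i = 0 ∨ ind c i = 1 := by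
  unfold ind
  split_ifs <;> simp

theorem sum_ind (c : Finset GolayPt) : ∑ i, ind c i = c.card := by
  simp [ind, Finset.sum_ite_mem]

/-- The description of a lattice vector by its parity and its codeword. -/
structure LeechData (x : GolayPt → ℤ) (m : ℤ) (c : Finset GolayPt) : Prop where
  hm : m = 0 ∨ m = 1
  hc : c ∈ Sup
  h4 : ∀ i, x i ≡ m + 2 * ind c i [ZMOD 4]
  h8 : ∑ i, x i ≡ 4 * m [ZMOD 8]

theorem mem_leechSet_iff {x : GolayPt → ℤ} : x ∈ leechSet ↔ ∃ m c, LeechData x m c := by
  constructor
  · rintro ⟨m0, h1, h2, h3⟩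
    have hm : m0 % 2 = 0 ∨ m0 % 2 = 1 := by omega
    have hc := h3 (m0 % 2 + 2)
    refine ⟨m0 % 2, _, hm, hc, fun i => ?_, ?_⟩
    · have h5 := h1 i
      have hind : ind (Finset.univ.filter fun i => x i ≡ m0 % 2 + 2 [ZMOD 4]) i = if x i ≡ m0 % 2 + 2 [ZMOD 4] then 1 else 0 := by
        simp [ind]
      rw [hind]
      split_ifs with h6 <;> unfold Int.ModEq at h5 h6 ⊢ <;> omega
    · unfold Int.ModEq at h2 ⊢
      omega
  · rintro ⟨m, c, hm, hc, h4, h8⟩
    refine ⟨m, fun i => ?_, h8, fun k => ?_⟩
    · have h5 := h4 i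
      have h6 := ind_cases c i
      unfold Int.ModEq at h5 ⊢
      rcases h6 with h6 | h6 <;> rw [h6] at h5 <;> omega
    · by_cases h5 : k ≡ m [ZMOD 4]
      · have : (Finset.univ.filter fun i => x i ≡ k [ZMOD 4]) = cᶜ := by
          ext i
          have h6 := h4 i
          simp only [Finset.mem_filter, Finset.mem_univ, true_and, Finset.mem_compl]
          unfold ind at h6
          unfold Int.ModEq at h5 h6 ⊢
          by_cases h7 : i ∈ c
          · simp only [h7, if_true] at h6
            simp only [h7, not_true_eq_false, iff_false]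
            omega
          · simp only [h7, if_false] at h6
            simp only [h7, not_false_eq_true, iff_true]
            omega
        rw [this]
        exact sup_compl hc
      · by_cases h6 : k ≡ m + 2 [ZMOD 4]
        · have : (Finset.univ.filter fun i => x i ≡ k [ZMOD 4]) = c := by
            ext i
            have h7 := h4 i
            simp only [Finset.mem_filter, Finset.mem_univ, true_and]
            unfold ind at h7
            unfold Int.ModEq at h6 h7 ⊢
            by_cases h8 : i ∈ c
            · simp only [h8, if_true] at h7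
              simp only [h8, iff_true]
              omega
            · simp only [h8, if_false] at h7
              simp only [h8, iff_false]
              omega
          rw [this]
          exact hc
        · have : (Finset.univ.filter fun i => x i ≡ k [ZMOD 4]) = ∅ := by
            apply Finset.filter_false_of_mem
            intro i _ h7
            have h8 := h4 i
            have h9 := ind_cases c i
            unfold Int.ModEq at h5 h6 h7 h8
            rcases h9 with h9 | h9 <;> rw [h9] at h8
            · apply h5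
              omega
            · apply h6
              omega
          rw [this]
          exact sup_empty

theorem ind_symmDiff (a b : Finset GolayPt) (i : GolayPt) :
    (ind (symmDiff a b) i = ind a i + ind b i ∧ ¬ (i ∈ a ∧ i ∈ b)) ∨ (ind (symmDiff a b) i = 0 ∧ i ∈ a ∧ i ∈ b) := by
  unfold ind
  by_cases h1 : i ∈ a <;> by_cases h2 : i ∈ b <;> simp [Finset.mem_symmDiff, h1, h2]

theorem ind_compl (a : Finset GolayPt) (i : GolayPt) : ind aᶜ i = 1 - ind a i := by
  unfold ind
  by_cases h1 : i ∈ a <;> simp [h1]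

/-- Additive structure of the data. -/
theorem LeechData.add {x y : GolayPt → ℤ} {m n : ℤ} {c d : Finset GolayPt} (h1 : LeechData x m c) (h2 : LeechData y n d) :
    ∃ p e, LeechData (x + y) p e := by
  have key : ∀ (p : ℤ) (e : Finset GolayPt), p = 0 ∨ p = 1 → e ∈ Sup →
      (∀ i, (x i + y i - (p + 2 * ind e i)) % 4 = (x i - (m + 2 * ind c i) + (y i - (n + 2 * ind d i))) % 4) →
      (4 * p) % 8 = (4 * m + 4 * n) % 8 → LeechData (x + y) p e := by
    intro p e hp he h3 h4
    refine ⟨hp, he, fun i => ?_, ?_⟩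
    · have h5 := h1.h4 i
      have h6 := h2.h4 i
      have h7 := h3 i
      unfold Int.ModEq at h5 h6 ⊢
      simp only [Pi.add_apply]
      omega
    · have h5 := h1.h8
      have h6 := h2.h8
      simp only [Pi.add_apply, Finset.sum_add_distrib]
      unfold Int.ModEq at h5 h6 ⊢
      omega
  rcases h1.hm with rfl | rfl <;> rcases h2.hm with rfl | rfl
  · refine ⟨0, symmDiff c d, key 0 _ (Or.inl rfl) (sup_symmDiff h1.hc h2.hc) ?_ (by norm_num)⟩
    intro i
    rcases ind_symmDiff c d i with ⟨h3, -⟩ | ⟨h3, h4, h5⟩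
    · rw [h3]
      congr 1
      ring
    · simp only [ind, h4, h5, if_true] at h3 ⊢
      rw [if_neg (by simp [Finset.mem_symmDiff, h4, h5])]
      omega
  · refine ⟨1, symmDiff c d, key 1 _ (Or.inr rfl) (sup_symmDiff h1.hc h2.hc) ?_ (by norm_num)⟩
    intro i
    rcases ind_symmDiff c d i with ⟨h3, -⟩ | ⟨h3, h4, h5⟩
    · rw [h3]
      congr 1
      ring
    · simp only [ind, h4, h5, if_true] at h3 ⊢
      rw [if_neg (by simp [Finset.mem_symmDiff, h4, h5])]
      omega
  · refine ⟨1, symmDiff c d, key 1 _ (Or.inr rfl) (sup_symmDiff h1.hc h2.hc) ?_ (by norm_num)⟩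
    intro i
    rcases ind_symmDiff c d i with ⟨h3, -⟩ | ⟨h3, h4, h5⟩
    · rw [h3]
      congr 1
      ring
    · simp only [ind, h4, h5, if_true] at h3 ⊢
      rw [if_neg (by simp [Finset.mem_symmDiff, h4, h5])]
      omega
  · refine ⟨0, (symmDiff c d)ᶜ, key 0 _ (Or.inl rfl) (sup_compl (sup_symmDiff h1.hc h2.hc)) ?_ (by norm_num)⟩
    intro i
    rw [ind_compl]
    rcases ind_symmDiff c d i with ⟨h3, -⟩ | ⟨h3, h4, h5⟩
    · rw [h3]
      omega
    · simp only [ind, h4, h5, if_true] at h3 ⊢
      rw [if_neg (by simp [Finset.mem_symmDiff, h4, h5])]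
      omega

theorem LeechData.neg {x : GolayPt → ℤ} {m : ℤ} {c : Finset GolayPt} (h1 : LeechData x m c) :
    ∃ p e, LeechData (-x) p e := by
  have h8 := h1.h8
  have hs : ∑ i, (-x) i = - ∑ i, x i := by simp [Finset.sum_neg_distrib]
  rcases h1.hm with rfl | rfl
  · refine ⟨0, c, Or.inl rfl, h1.hc, fun i => ?_, ?_⟩
    · have h5 := h1.h4 i
      have h6 := ind_cases c i
      unfold Int.ModEq at h5 ⊢
      simp only [Pi.neg_apply]
      omega
    · rw [hs]
      unfold Int.ModEq at h8 ⊢
      omega
  · refine ⟨1, cᶜ, Or.inr rfl, sup_compl h1.hc, fun i => ?_, ?_⟩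
    · have h5 := h1.h4 i
      have h6 := ind_cases c i
      rw [ind_compl]
      unfold Int.ModEq at h5 ⊢
      simp only [Pi.neg_apply]
      omega
    · rw [hs]
      unfold Int.ModEq at h8 ⊢
      omega

/-- The lattice as a subgroup with carrier `leechSet`. -/
def leechSub : AddSubgroup (GolayPt → ℤ) where
  carrier := leechSet
  zero_mem' := mem_leechSet_iff.mpr ⟨0, ∅, Or.inl rfl, sup_empty, fun i => by simp [ind, Int.ModEq], by simp [Int.ModEq]⟩
  add_mem' := by
    intro x y hx hy
    obtain ⟨m, c, h1⟩ := mem_leechSet_iff.mp hx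
    obtain ⟨n, d, h2⟩ := mem_leechSet_iff.mp hy
    exact mem_leechSet_iff.mpr (h1.add h2)
  neg_mem' := by
    intro x hx
    obtain ⟨m, c, h1⟩ := mem_leechSet_iff.mp hx
    exact mem_leechSet_iff.mpr h1.neg

theorem leechLattice_eq : leechLattice = leechSub := by
  unfold leechLattice
  apply le_antisymm
  · rw [AddSubgroup.closure_le]
    exact fun x hx => hx
  · intro x hx
    exact AddSubgroup.subset_closure hx

theorem mem_leech_iff {x : GolayPt → ℤ} : x ∈ leechLattice ↔ ∃ m c, LeechData x m c := by
  rw [leechLattice_eq]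
  exact mem_leechSet_iff

/-- Uniqueness of the data. -/
theorem LeechData.unique {x : GolayPt → ℤ} {m n : ℤ} {c d : Finset GolayPt} (h1 : LeechData x m c) (h2 : LeechData x n d) :
    m = n ∧ c = d := by
  have hmn : m = n := by
    have h3 := h1.h4 (pt 0)
    have h4 := h2.h4 (pt 0)
    have h5 := ind_cases c (pt 0)
    have h6 := ind_cases d (pt 0)
    unfold Int.ModEq at h3 h4
    rcases h1.hm with rfl | rfl <;> rcases h2.hm with rfl | rfl <;>
      rcases h5 with h5 | h5 <;> rcases h6 with h6 | h6 <;> rw [h5] at h3 <;> rw [h6] at h4 <;> omega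
  refine ⟨hmn, ?_⟩
  subst hmn
  ext i
  have h3 := h1.h4 i
  have h4 := h2.h4 i
  unfold ind at h3 h4
  unfold Int.ModEq at h3 h4
  by_cases h5 : i ∈ c <;> by_cases h6 : i ∈ d <;> simp only [h5, h6, if_true, if_false] at h3 h4 ⊢ <;> omega

end CfsgLib.Leech
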