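/-
The lattice is preserved by the monomial group; norms of lattice vectors.
-/
import Cfsg.Agent.Lib.Leech.Basic

set_option autoImplicit false

namespace CfsgLib.Leech

open Cfsg CfsgLib.Golay
open scoped Pointwise

/-- Coordinate permutations from the code's group preserve the lattice. -/
theorem comp_mem {σ : Equiv.Perm GolayPt} (hσ : σ ∈ M24) {x : GolayPt → ℤ} (hx : x ∈ leechLattice) :
    (fun i => x (σ i)) ∈ leechLattice := by
  obtain ⟨m, c, h⟩ := mem_leech_iff.mp hx
  refine mem_leech_iff.mpr ⟨m, σ⁻¹ • c, h.hm, M24_smul_mem (M24.inv_mem hσ) h.hc, fun i => ?_, ?_⟩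
  · have h1 : ind (σ⁻¹ • c) i = ind c (σ i) := by
      unfold ind
      have : i ∈ σ⁻¹ • c ↔ σ i ∈ c := by
        rw [Finset.mem_inv_smul_finset_iff]
        rfl
      simp [this]
    rw [h1]
    exact h.h4 (σ i)
  · rw [Equiv.sum_comp σ x]
    exact h.h8

/-- Sign changes on the support of a codeword preserve the lattice. -/
theorem sign_mem {c : Finset GolayPt} (hc : c ∈ Sup) {x : GolayPt → ℤ} (hx : x ∈ leechLattice) :
    (fun i => if i ∈ c then -x i else x i) ∈ leechLattice := by
  obtain ⟨m, w, h⟩ := mem_leech_iff.mp hx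
  -- the sum over the codeword
  have h1 : (4 : ℤ) ∣ ∑ i ∈ c, x i := by
    have h2 : (4 : ℤ) ∣ ∑ i ∈ c, (x i - (m + 2 * ind w i)) :=
      Finset.dvd_sum fun i _ => (Int.ModEq.symm (h.h4 i)).dvd
    have h3 : ∑ i ∈ c, (x i - (m + 2 * ind w i)) = ∑ i ∈ c, x i - (m * c.card + 2 * (c ∩ w).card) := by
      rw [Finset.sum_sub_distrib, Finset.sum_add_distrib, ← Finset.mul_sum]
      have h4 : ∑ i ∈ c, ind w i = ((c ∩ w).card : ℤ) := by
        simp only [ind]
        rw [Finset.sum_ite_mem]
        simp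
      rw [h4]
      simp [mul_comm]
    rw [h3] at h2
    obtain ⟨a, ha⟩ := four_dvd_card hc
    obtain ⟨b, hb⟩ := two_dvd_inter hc h.hc
    rw [ha, hb] at h2
    push_cast at h2
    have h5 : (4 : ℤ) ∣ m * (4 * a) + 2 * (2 * b) := ⟨m * a + b, by ring⟩
    have := (dvd_add h2 h5)
    simpa using this
  have h2 : ∑ i, (if i ∈ c then -x i else x i) = ∑ i, x i - 2 * ∑ i ∈ c, x i := by
    have h3 : ∀ i, (if i ∈ c then -x i else x i) = x i - 2 * (if i ∈ c then x i else 0) := by
      intro i
      split_ifs <;> ring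
    simp only [h3, Finset.sum_sub_distrib, ← Finset.mul_sum]
    rw [Finset.sum_ite_mem]
    simp
  have h3 : ∑ i, (if i ∈ c then -x i else x i) ≡ 4 * m [ZMOD 8] := by
    rw [h2]
    obtain ⟨a, ha⟩ := h1
    have h4 := h.h8
    rw [ha]
    unfold Int.ModEq at h4 ⊢
    omega
  rcases h.hm with h0 | h0
  · refine mem_leech_iff.mpr ⟨m, w, h.hm, h.hc, fun i => ?_, h3⟩
    have h4 := h.h4 i
    have h5 := ind_cases w i
    subst h0
    unfold Int.ModEq at h4 ⊢
    split_ifs <;> omega
  · refine mem_leech_iff.mpr ⟨m, symmDiff w c, h.hm, sup_symmDiff h.hc hc, fun i => ?_, h3⟩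
    have h4 := h.h4 i
    subst h0
    unfold Int.ModEq at h4 ⊢
    unfold ind at h4 ⊢
    by_cases h5 : i ∈ w <;> by_cases h6 : i ∈ c <;>
      simp only [Finset.mem_symmDiff, h5, h6, if_true, if_false, not_true_eq_false, not_false_eq_true, and_true,
        and_false, or_false, false_or] at h4 ⊢ <;> omega

/-- Norms in terms of the data. -/
theorem square_mod {x m a : ℤ} (hm : m = 0 ∨ m = 1) (ha : a = 0 ∨ a = 1) (h : x ≡ m + 2 * a [ZMOD 4]) :
    x ^ 2 ≡ 2 * m * x - m + 4 * a [ZMOD 16] := by
  obtain ⟨y, hy⟩ : (4 : ℤ) ∣ x - (m + 2 * a) := (Int.ModEq.symm h).dvd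
  have hx : x = m + 2 * a + 4 * y := by linarith
  subst hx
  apply Int.ModEq.symm
  apply Int.modEq_of_dvd
  rcases hm with rfl | rfl <;> rcases ha with rfl | rfl
  · exact ⟨y ^ 2, by ring⟩
  · exact ⟨(y + y ^ 2), by ring⟩
  · exact ⟨y ^ 2, by ring⟩
  · exact ⟨(y + y ^ 2), by ring⟩

/-- The norm modulo sixteen. -/
theorem sqNorm_mod {x : GolayPt → ℤ} {m : ℤ} {c : Finset GolayPt} (h : LeechData x m c) :
    sqNorm x ≡ 2 * m * ∑ i, x i - 24 * m + 4 * c.card [ZMOD 16] := by
  have h1 : ∀ i, x i ^ 2 ≡ 2 * m * x i - m + 4 * ind c i [ZMOD 16] := fun i =>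
    square_mod h.hm (ind_cases c i) (h.h4 i)
  have h2 : sqNorm x ≡ ∑ i, (2 * m * x i - m + 4 * ind c i) [ZMOD 16] := by
    unfold sqNorm
    have h3 : ((16 : ℤ)) ∣ ∑ i, (2 * m * x i - m + 4 * ind c i - x i ^ 2) :=
      Finset.dvd_sum fun i _ => (h1 i).dvd
    rw [Finset.sum_sub_distrib] at h3
    exact (Int.modEq_iff_dvd.mpr h3)
  have h3 : ∑ i, (2 * m * x i - m + 4 * ind c i) = 2 * m * ∑ i, x i - 24 * m + 4 * c.card := by
    rw [Finset.sum_add_distrib, Finset.sum_sub_distrib, ← Finset.mul_sum, ← Finset.mul_sum, sum_ind]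
    simp only [Finset.sum_const, Finset.card_univ, nsmul_eq_mul]
    have : Fintype.card GolayPt = 24 := by simp [GolayPt, Fintype.card_option]
    rw [this]
    push_cast
    ring
  rw [h3] at h2
  exact h2

theorem sixteen_dvd_sqNorm {x : GolayPt → ℤ} (hx : x ∈ leechLattice) : (16 : ℤ) ∣ sqNorm x := by
  obtain ⟨m, c, h⟩ := mem_leech_iff.mp hx
  have h1 := sqNorm_mod h
  obtain ⟨a, ha⟩ := four_dvd_card h.hc
  rw [ha] at h1
  push_cast at h1
  have h2 := h.h8
  unfold Int.ModEq at h1 h2
  rcases h.hm with rfl | rfl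
  · simp only [mul_zero, zero_mul, sub_zero, zero_add] at h1
    omega
  · simp only [mul_one] at h1
    omega

theorem sqNorm_nonneg (x : GolayPt → ℤ) : 0 ≤ sqNorm x := Finset.sum_nonneg fun i _ => sq_nonneg _

theorem le_sqNorm (x : GolayPt → ℤ) (s : Finset GolayPt) : ∑ i ∈ s, x i ^ 2 ≤ sqNorm x :=
  Finset.sum_le_sum_of_subset_of_nonneg (Finset.subset_univ _) fun i _ _ => sq_nonneg _

theorem eq_zero_of_sqNorm {x : GolayPt → ℤ} (h : sqNorm x = 0) : x = 0 := by
  have h1 := (Finset.sum_eq_zero_iff_of_nonneg (fun i _ => sq_nonneg (x i))).mp h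
  funext i
  have := h1 i (Finset.mem_univ _)
  simpa using this

/-- Nonzero lattice vectors have norm at least 32. -/
theorem thirtytwo_le {x : GolayPt → ℤ} (hx : x ∈ leechLattice) (h0 : x ≠ 0) : 32 ≤ sqNorm x := by
  obtain ⟨a, ha⟩ := sixteen_dvd_sqNorm hx
  have hnn := sqNorm_nonneg x
  have hne : sqNorm x ≠ 0 := fun h => h0 (eq_zero_of_sqNorm h)
  by_contra hlt
  have h16 : sqNorm x = 16 := by omega
  obtain ⟨m, c, h⟩ := mem_leech_iff.mp hx
  rcases h.hm with hm | hm
  · -- even vector
    by_cases hc : c = ∅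
    · -- all coordinates divisible by four
      have h4 : ∀ i, x i % 4 = 0 := by
        intro i
        have := h.h4 i
        rw [hm, hc] at this
        simpa [ind, Int.ModEq] using this
      obtain ⟨i, hi⟩ : ∃ i, x i ≠ 0 := by
        by_contra hn
        simp only [not_exists, not_not] at hn
        exact h0 (funext hn)
      have h5 : 16 ≤ x i ^ 2 := by
        have h6 := h4 i
        have h7 : (4 : ℤ) ≤ |x i| := by
          by_contra h8
          have h9 : |x i| < 4 := by omega
          have h10 := abs_lt.mp h9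
          have : x i = 0 := by omega
          exact hi this
        nlinarith [sq_abs (x i), abs_nonneg (x i)]
      have h6 : ∑ j ∈ Finset.univ.erase i, x j ^ 2 = 16 - x i ^ 2 := by
        have := Finset.add_sum_erase Finset.univ (fun j => x j ^ 2) (Finset.mem_univ i)
        unfold sqNorm at h16
        omega
      have h7 : ∑ j ∈ Finset.univ.erase i, x j ^ 2 = 0 := by
        have : 0 ≤ ∑ j ∈ Finset.univ.erase i, x j ^ 2 := Finset.sum_nonneg fun j _ => sq_nonneg _
        omega
      have h8 := (Finset.sum_eq_zero_iff_of_nonneg (fun j _ => sq_nonneg (x j))).mp h7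
      have h9 : x i ^ 2 = 16 := by omega
      have h10 : ∑ j, x j = x i := by
        rw [← Finset.add_sum_erase Finset.univ x (Finset.mem_univ i)]
        have : ∑ j ∈ Finset.univ.erase i, x j = 0 :=
          Finset.sum_eq_zero fun j hj => by simpa using h8 j hj
        omega
      have h11 := h.h8
      rw [h10, hm] at h11
      have h12 : x i = 4 ∨ x i = -4 := by
        have : (x i - 4) * (x i + 4) = 0 := by nlinarith
        rcases mul_eq_zero.mp this with h | h
        · left; omega
        · right; omega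
      unfold Int.ModEq at h11
      rcases h12 with h12 | h12 <;> rw [h12] at h11 <;> norm_num at h11
    · -- a nonzero codeword has at least eight points
      have h5 : 8 ≤ c.card := by
        rcases sup_card h.hc with h6 | h6 | h6 | h6 | h6
        · exact absurd (Finset.card_eq_zero.mp h6) hc
        all_goals omega
      have h6 : ∑ i ∈ c, x i ^ 2 ≥ ∑ i ∈ c, 4 := by
        apply Finset.sum_le_sum
        intro i hi
        have h7 := h.h4 i
        have h8 : ind c i = 1 := by simp [ind, hi]
        rw [hm, h8] at h7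
        unfold Int.ModEq at h7
        have h9 : x i ≠ 0 := by omega
        have h10 : x i ≠ 1 := by omega
        have h11 : x i ≠ -1 := by omega
        have h12 : 2 ≤ |x i| := by
          by_contra h13
          have h14 : |x i| < 2 := by omega
          have h15 := abs_lt.mp h14
          omega
        nlinarith [sq_abs (x i), abs_nonneg (x i)]
      have h7 := le_sqNorm x c
      simp only [Finset.sum_const, nsmul_eq_mul] at h6
      have h8 : (8 : ℤ) ≤ c.card := by exact_mod_cast h5
      omega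
  · -- odd vector: every coordinate is odd
    have h5 : ∑ i : GolayPt, (1 : ℤ) ≤ sqNorm x := by
      apply Finset.sum_le_sum
      intro i _
      have h7 := h.h4 i
      have h8 := ind_cases c i
      rw [hm] at h7
      unfold Int.ModEq at h7
      have h9 : x i ≠ 0 := by
        rcases h8 with h8 | h8 <;> rw [h8] at h7 <;> omega
      have h12 : 1 ≤ |x i| := Int.one_le_abs h9
      nlinarith [sq_abs (x i), abs_nonneg (x i)]
    have h6 : ∑ i : GolayPt, (1 : ℤ) = 24 := by
      simp [Finset.card_univ, GolayPt, Fintype.card_option]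
    omega

end CfsgLib.Leech
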