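/-
Counting integer vectors with prescribed coordinate values, norm and sum modulo eight, by dynamic programming.
-/
import Cfsg.Agent.Lib.Leech.Norm

set_option autoImplicit false

namespace CfsgLib.Leech

open Cfsg CfsgLib.Golay

/-- Counting a disjoint union indexed by a list. -/
theorem ncard_list_union {α β : Type*} {l : List α} (hn : l.Nodup) {Y : α → Set β}
    (hf : ∀ a ∈ l, (Y a).Finite) (hd : ∀ a ∈ l, ∀ b ∈ l, a ≠ b → Disjoint (Y a) (Y b)) :
    ({y | ∃ a ∈ l, y ∈ Y a} : Set β).Finite ∧
      ({y | ∃ a ∈ l, y ∈ Y a} : Set β).ncard = (l.map fun a => (Y a).ncard).sum := by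
  induction l with
  | nil => simp
  | cons a r ih =>
    obtain ⟨hna, hnr⟩ := List.nodup_cons.mp hn
    obtain ⟨h1, h2⟩ := ih hnr (fun b hb => hf b (List.mem_cons_of_mem _ hb))
      (fun b hb c hc => hd b (List.mem_cons_of_mem _ hb) c (List.mem_cons_of_mem _ hc))
    have h3 : ({y | ∃ b ∈ a :: r, y ∈ Y b} : Set β) = Y a ∪ {y | ∃ b ∈ r, y ∈ Y b} := by
      ext y
      simp only [List.mem_cons, exists_eq_or_imp, Set.mem_ofPred_eq, Set.mem_union]
    have hdis : Disjoint (Y a) {y | ∃ b ∈ r, y ∈ Y b} := by
      rw [Set.disjoint_left]
      rintro y hy ⟨b, hb, hyb⟩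
      have hab : a ≠ b := fun h => hna (h ▸ hb)
      exact Set.disjoint_left.mp (hd a List.mem_cons_self b (List.mem_cons_of_mem _ hb) hab) hy hyb
    rw [h3]
    refine ⟨(hf a List.mem_cons_self).union h1, ?_⟩
    rw [Set.ncard_union_eq hdis (hf a List.mem_cons_self) h1, h2]
    simp

/-- Forcing the evaluation of a number. -/
def letN {α : Type} (x : ℕ) (f : ℕ → α) : α := Nat.casesOn x (f 0) (fun n => f (Nat.succ n))

theorem letN_eq {α : Type} (x : ℕ) (f : ℕ → α) : letN x f = f x := by
  cases x <;> rfl

/-- The sum of a function on a list. -/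
def sumV (f : ℕ × ℕ → ℕ) : List (ℕ × ℕ) → ℕ
  | [] => 0
  | a :: l => Nat.add (f a) (sumV f l)

theorem sumV_map {α : Type*} (f : ℕ × ℕ → ℕ) (g : α → ℕ × ℕ) (l : List α) :
    sumV f (l.map g) = (l.map fun a => f (g a)).sum := by
  induction l with
  | nil => rfl
  | cons a r ih =>
    simp only [List.map_cons, sumV, List.sum_cons, ih]
    rfl

/-- The number of ways to fill the classes with values, prescribed norm and sum modulo eight. -/
def T : List (List (ℕ × ℕ)) → ℕ → ℕ → ℕ
  | [], N, t => if N = 0 ∧ t = 0 then 1 else 0
  | cl :: rest, N, t =>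
    sumV (fun p => if p.1 ≤ N then letN (N - p.1) fun N' => letN ((t + 8 - p.2) % 8) fun t' => T rest N' t' else 0) cl

/-- The weight and the residue of a coordinate value. -/
def pr (v : ℤ) : ℕ × ℕ := (v.natAbs ^ 2, (v % 8).toNat)

/-- Vectors supported on the list `L` with coordinates in the allowed lists. -/
def XS (V : GolayPt → List ℤ) (L : List GolayPt) (N t : ℕ) : Set (GolayPt → ℤ) :=
  {x | (∀ i, i ∉ L → x i = 0) ∧ (∀ i ∈ L, x i ∈ V i) ∧ (L.map fun i => (x i).natAbs ^ 2).sum = N ∧
    ((L.map x).sum) % 8 = (t : ℤ)}

theorem pr_residue {v : ℤ} {t : ℕ} (ht : t < 8) (s : ℤ) :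
    (v + s) % 8 = (t : ℤ) ↔ s % 8 = (((t + 8 - (pr v).2) % 8 : ℕ) : ℤ) := by
  simp only [pr]
  have h1 : 0 ≤ v % 8 := Int.emod_nonneg _ (by norm_num)
  have h2 : v % 8 < 8 := Int.emod_lt_of_pos _ (by norm_num)
  obtain ⟨r, hr⟩ := Int.eq_ofNat_of_zero_le h1
  rw [hr, Int.toNat_natCast]
  have hr8 : r < 8 := by omega
  omega

theorem XS_spec (V : GolayPt → List ℤ) (hV : ∀ i, (V i).Nodup) (L : List GolayPt) (hL : L.Nodup) :
    ∀ N t, t < 8 → (XS V L N t).Finite ∧ (XS V L N t).ncard = T (L.map fun i => (V i).map pr) N t := by
  classical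
  induction L with
  | nil =>
    intro N t ht
    by_cases h : N = 0 ∧ t = 0
    · have : XS V [] N t = {0} := by
        ext x
        simp only [XS, List.not_mem_nil, not_false_eq_true, forall_const, false_imp_iff, List.map_nil,
          List.sum_nil, true_and, Set.mem_ofPred_eq, Set.mem_singleton_iff, EuclideanDomain.zero_mod]
        constructor
        · rintro ⟨h1, -, -⟩
          exact funext h1
        · rintro rfl
          simp [h.1, h.2]
      rw [this]
      simp [T, h]
    · have : XS V [] N t = ∅ := by
        ext x
        simp only [XS, List.not_mem_nil, not_false_eq_true, forall_const, false_imp_iff, List.map_nil,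
          List.sum_nil, true_and, Set.mem_ofPred_eq, Set.mem_empty_iff_false, iff_false, EuclideanDomain.zero_mod]
        rintro ⟨-, h1, h2⟩
        apply h
        refine ⟨h1.symm, ?_⟩
        have : (t : ℤ) = 0 := h2.symm
        exact_mod_cast this
      rw [this]
      simp [T, h]
  | cons a L ih =>
    intro N t ht
    obtain ⟨haL, hnL⟩ := List.nodup_cons.mp hL
    -- the pieces of the union
    let Y : ℤ → Set (GolayPt → ℤ) := fun v =>
      {y | y a = v ∧ v.natAbs ^ 2 ≤ N ∧
        Function.update y a 0 ∈ XS V L (N - v.natAbs ^ 2) ((t + 8 - (pr v).2) % 8)}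
    have hsum : ∀ (x : GolayPt → ℤ) (u : ℤ) (f : ℤ → ℤ), (L.map fun i => f (Function.update x a u i)) = L.map fun i => f (x i) := by
      intro x u f
      apply List.map_congr_left
      intro i hi
      have : i ≠ a := fun h => haL (h ▸ hi)
      simp [Function.update_of_ne this]
    have hsum' : ∀ (x : GolayPt → ℤ) (u : ℤ), L.map (Function.update x a u) = L.map x := by
      intro x u
      apply List.map_congr_left
      intro i hi
      have : i ≠ a := fun h => haL (h ▸ hi)
      simp [Function.update_of_ne this]
    have hset : XS V (a :: L) N t = {y | ∃ v ∈ V a, y ∈ Y v} := by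
      ext y
      simp only [XS, Set.mem_ofPred_eq, Y]
      constructor
      · rintro ⟨h1, h2, h3, h4⟩
        simp only [List.map_cons, List.sum_cons] at h3 h4
        have hle : (y a).natAbs ^ 2 ≤ N := by omega
        refine ⟨y a, h2 a List.mem_cons_self, rfl, hle, ?_, ?_, ?_, ?_⟩
        · intro i hi
          by_cases hia : i = a
          · subst hia; simp
          · simp only [Function.update_of_ne hia]
            exact h1 i (by simp [hi, hia])
        · intro i hi
          have hia : i ≠ a := fun h => haL (h ▸ hi)
          simp only [Function.update_of_ne hia]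
          exact h2 i (List.mem_cons_of_mem _ hi)
        · have := hsum y 0 (fun z => ((z.natAbs ^ 2 : ℕ) : ℤ))
          have h5 : (L.map fun i => (Function.update y a 0 i).natAbs ^ 2) = L.map fun i => (y i).natAbs ^ 2 := by
            apply List.map_congr_left
            intro i hi
            have hia : i ≠ a := fun h => haL (h ▸ hi)
            simp [Function.update_of_ne hia]
          rw [h5]
          omega
        · rw [hsum']
          exact (pr_residue ht _).mp h4
      · rintro ⟨v, hv, rfl, hle, h1, h2, h3, h4⟩
        rw [hsum'] at h4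
        have h5 : (L.map fun i => (Function.update y a 0 i).natAbs ^ 2) = L.map fun i => (y i).natAbs ^ 2 := by
          apply List.map_congr_left
          intro i hi
          have hia : i ≠ a := fun h => haL (h ▸ hi)
          simp [Function.update_of_ne hia]
        rw [h5] at h3
        refine ⟨?_, ?_, ?_, ?_⟩
        · intro i hi
          have hia : i ≠ a := fun h => hi (by simp [h])
          have h6 := h1 i (fun h => hi (List.mem_cons_of_mem _ h))
          simpa [Function.update_of_ne hia] using h6
        · intro i hi
          rcases List.mem_cons.mp hi with rfl | hi'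
          · exact hv
          · have hia : i ≠ a := fun h => haL (h ▸ hi')
            have h6 := h2 i hi'
            simpa [Function.update_of_ne hia] using h6
        · simp only [List.map_cons, List.sum_cons]
          omega
        · simp only [List.map_cons, List.sum_cons]
          exact (pr_residue ht _).mpr h4
    -- each piece
    have hY : ∀ v, (Y v).Finite ∧ (Y v).ncard = if (pr v).1 ≤ N then T (L.map fun i => (V i).map pr) (N - (pr v).1) ((t + 8 - (pr v).2) % 8) else 0 := by
      intro v
      by_cases hle : (pr v).1 ≤ N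
      · have hle' : v.natAbs ^ 2 ≤ N := hle
        have ht' : (t + 8 - (pr v).2) % 8 < 8 := Nat.mod_lt _ (by norm_num)
        obtain ⟨h1, h2⟩ := ih hnL (N - (pr v).1) _ ht'
        have h3 : Y v = (fun x => Function.update x a v) '' XS V L (N - (pr v).1) ((t + 8 - (pr v).2) % 8) := by
          ext y
          simp only [Y, Set.mem_ofPred_eq, Set.mem_image]
          constructor
          · rintro ⟨rfl, -, h4⟩
            exact ⟨_, h4, by simp⟩
          · rintro ⟨x, hx, rfl⟩
            have hxa : x a = 0 := hx.1 a haL
            refine ⟨by simp, hle', ?_⟩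
            have h5 : Function.update (Function.update x a v) a 0 = x := by
              rw [Function.update_idem, ← hxa, Function.update_eq_self]
            rw [h5]
            exact hx
        have hinj : Set.InjOn (fun x => Function.update x a v) (XS V L (N - (pr v).1) ((t + 8 - (pr v).2) % 8)) := by
          intro x hx x' hx' he
          funext i
          by_cases hia : i = a
          · subst hia
            rw [hx.1 i haL, hx'.1 i haL]
          · have := congrFun he i
            simpa [Function.update_of_ne hia] using this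
        rw [h3, hinj.ncard_image, h2, if_pos hle]
        exact ⟨h1.image _, rfl⟩
      · have h3 : Y v = ∅ := by
          ext y
          simp only [Y, Set.mem_ofPred_eq, Set.mem_empty_iff_false, iff_false]
          rintro ⟨-, h4, -⟩
          exact hle h4
        rw [h3, if_neg hle]
        simp
    have hdis : ∀ v ∈ V a, ∀ w ∈ V a, v ≠ w → Disjoint (Y v) (Y w) := by
      intro v _ w _ hvw
      rw [Set.disjoint_left]
      rintro y ⟨rfl, -⟩ ⟨h2, -⟩
      exact hvw h2
    obtain ⟨h5, h6⟩ := ncard_list_union (hV a) (fun v _ => (hY v).1) hdis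
    rw [hset]
    refine ⟨h5, ?_⟩
    rw [h6]
    simp only [List.map_cons, T]
    rw [sumV_map]
    congr 1
    apply List.map_congr_left
    intro v _
    rw [(hY v).2]
    simp only [letN_eq]

end CfsgLib.Leech
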