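/-
The census of lattice vectors of small norm.
-/
import Cfsg.Agent.Lib.Leech.Count

set_option autoImplicit false

namespace CfsgLib.Leech

open Cfsg CfsgLib.Golay

/-- All small coordinate values. -/
def valsAll : List ℤ := [-8, -7, -6, -5, -4, -3, -2, -1, 0, 1, 2, 3, 4, 5, 6, 7, 8]

theorem mem_valsAll {v : ℤ} : v ∈ valsAll ↔ -8 ≤ v ∧ v ≤ 8 := by
  constructor
  · intro h
    simp only [valsAll, List.mem_cons, List.not_mem_nil, or_false] at h
    omega
  · rintro ⟨h1, h2⟩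
    simp only [valsAll, List.mem_cons, List.not_mem_nil, or_false]
    omega

theorem valsAll_nodup : valsAll.Nodup := by decide

/-- The allowed coordinate values for a residue and a shape. -/
def vals (Q : ℤ → Bool) (m a : ℤ) : List ℤ :=
  valsAll.filter fun v => decide ((v - (m + 2 * a)) % 4 = 0) && Q v

theorem mem_vals {Q : ℤ → Bool} {m a v : ℤ} :
    v ∈ vals Q m a ↔ (-8 ≤ v ∧ v ≤ 8) ∧ (v - (m + 2 * a)) % 4 = 0 ∧ Q v = true := by
  simp [vals, mem_valsAll]

theorem vals_nodup (Q : ℤ → Bool) (m a : ℤ) : (vals Q m a).Nodup := valsAll_nodup.filter _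

/-- The list of all points, the complement of `c` first. -/
noncomputable def LL (c : Finset GolayPt) : List GolayPt := cᶜ.toList ++ c.toList

theorem LL_nodup (c : Finset GolayPt) : (LL c).Nodup := by
  unfold LL
  refine List.Nodup.append cᶜ.nodup_toList c.nodup_toList ?_
  intro i h1 h2
  have h3 := Finset.mem_toList.mp h1
  have h4 := Finset.mem_toList.mp h2
  exact (Finset.mem_compl.mp h3) h4

theorem mem_LL (c : Finset GolayPt) (i : GolayPt) : i ∈ LL c := by
  unfold LL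
  by_cases h : i ∈ c
  · exact List.mem_append_right _ (Finset.mem_toList.mpr h)
  · exact List.mem_append_left _ (Finset.mem_toList.mpr (Finset.mem_compl.mpr h))

theorem sum_LL {β : Type*} [AddCommMonoid β] (c : Finset GolayPt) (f : GolayPt → β) : ((LL c).map f).sum = ∑ i, f i := by
  classical
  rw [← List.sum_toFinset f (LL_nodup c)]
  congr 1
  ext i
  simp [mem_LL]

/-- The classes of the coordinates. -/
def cls (Q : ℤ → Bool) (m : ℤ) (k : ℕ) : List (List (ℕ × ℕ)) :=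
  List.replicate (24 - k) ((vals Q m 0).map pr) ++ List.replicate k ((vals Q m 1).map pr)

/-- The allowed values at each point. -/
def VV (Q : ℤ → Bool) (m : ℤ) (c : Finset GolayPt) (i : GolayPt) : List ℤ := vals Q m (ind c i)

theorem map_LL (Q : ℤ → Bool) (m : ℤ) (c : Finset GolayPt) :
    (LL c).map (fun i => (VV Q m c i).map pr) = cls Q m c.card := by
  have h1 : cᶜ.toList.map (fun i => (VV Q m c i).map pr) = List.replicate cᶜ.card ((vals Q m 0).map pr) := by
    rw [List.eq_replicate_iff]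
    refine ⟨by simp, ?_⟩
    intro b hb
    obtain ⟨i, hi, rfl⟩ := List.mem_map.mp hb
    have : i ∉ c := Finset.mem_compl.mp (Finset.mem_toList.mp hi)
    simp [VV, ind, this]
  have h2 : c.toList.map (fun i => (VV Q m c i).map pr) = List.replicate c.card ((vals Q m 1).map pr) := by
    rw [List.eq_replicate_iff]
    refine ⟨by simp, ?_⟩
    intro b hb
    obtain ⟨i, hi, rfl⟩ := List.mem_map.mp hb
    have : i ∈ c := Finset.mem_toList.mp hi
    simp [VV, ind, this]
  have h3 : cᶜ.card = 24 - c.card := by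
    rw [Finset.card_compl]
    simp [GolayPt, Fintype.card_option]
  unfold LL cls
  rw [List.map_append, h1, h2, h3]

/-- Vectors with given parity, codeword, norm and shape. -/
def YS (Q : ℤ → Bool) (m : ℤ) (c : Finset GolayPt) (N : ℕ) : Set (GolayPt → ℤ) :=
  {x | (∀ i, x i ≡ m + 2 * ind c i [ZMOD 4]) ∧ ∑ i, x i ≡ 4 * m [ZMOD 8] ∧ sqNorm x = N ∧ ∀ i, Q (x i) = true}

/-- The residue of the coordinate sum. -/
def tOf (m : ℤ) : ℕ := if m = 0 then 0 else 4

theorem sq_le_of_sum {x : GolayPt → ℤ} {N : ℕ} (hN : N ≤ 64) (h : sqNorm x = N) (i : GolayPt) :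
    -8 ≤ x i ∧ x i ≤ 8 := by
  have h1 : x i ^ 2 ≤ 64 := by
    have := Finset.single_le_sum (f := fun j => x j ^ 2) (fun j _ => sq_nonneg (x j)) (Finset.mem_univ i)
    have h2 : sqNorm x = ∑ j, x j ^ 2 := rfl
    have h3 : (N : ℤ) ≤ 64 := by exact_mod_cast hN
    omega
  constructor <;> nlinarith

theorem YS_eq (Q : ℤ → Bool) {m : ℤ} (hm : m = 0 ∨ m = 1) (c : Finset GolayPt) {N : ℕ} (hN : N ≤ 64) :
    YS Q m c N = XS (VV Q m c) (LL c) N (tOf m) := by
  ext x
  simp only [YS, XS, Set.mem_ofPred_eq]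
  have h1 : ((LL c).map x).sum = ∑ i, x i := sum_LL c x
  have h2 : ((LL c).map fun i => (x i).natAbs ^ 2).sum = ((sqNorm x).toNat) := by
    rw [sum_LL]
    have h3 : sqNorm x = ((∑ i, (x i).natAbs ^ 2 : ℕ) : ℤ) := by
      unfold sqNorm
      push_cast
      exact Finset.sum_congr rfl fun i _ => by rw [sq_abs]
    rw [h3, Int.toNat_natCast]
  rw [h1, h2]
  have hmod : (∑ i, x i ≡ 4 * m [ZMOD 8]) ↔ (∑ i, x i) % 8 = (tOf m : ℤ) := by
    unfold Int.ModEq tOf
    rcases hm with rfl | rfl <;> simp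
  rw [hmod]
  constructor
  · rintro ⟨h3, h4, h5, h6⟩
    refine ⟨fun i hi => absurd (mem_LL c i) hi, fun i _ => ?_, by rw [h5]; simp, h4⟩
    refine mem_vals.mpr ⟨sq_le_of_sum hN h5 i, ?_, h6 i⟩
    have h7 := h3 i
    unfold Int.ModEq at h7
    omega
  · rintro ⟨-, h3, h4, h5⟩
    have h6 : sqNorm x = N := by
      have h7 := sqNorm_nonneg x
      omega
    refine ⟨fun i => ?_, h5, h6, fun i => (mem_vals.mp (h3 i (mem_LL c i))).2.2⟩
    have h7 := (mem_vals.mp (h3 i (mem_LL c i))).2.1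
    unfold Int.ModEq
    omega

theorem YS_spec (Q : ℤ → Bool) {m : ℤ} (hm : m = 0 ∨ m = 1) (c : Finset GolayPt) {N : ℕ} (hN : N ≤ 64) :
    (YS Q m c N).Finite ∧ (YS Q m c N).ncard = T (cls Q m c.card) N (tOf m) := by
  rw [YS_eq Q hm c hN, ← map_LL]
  exact XS_spec _ (fun i => vals_nodup _ _ _) _ (LL_nodup c) N (tOf m) (by unfold tOf; split_ifs <;> norm_num)

/-- The index list: parities and codewords. -/
def PP : List (ℤ × ℕ) := ([0, 1] : List ℤ).flatMap fun m => allCode.map fun a => (m, a)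

theorem PP_nodup : PP.Nodup := by
  have h1 : ([0, 1] : List ℤ).Nodup := by decide
  have h2 := allCode_nodup
  unfold PP
  rw [List.nodup_flatMap]
  refine ⟨fun m _ => h2.map (fun a b h => (Prod.ext_iff.mp h).2), ?_⟩
  refine h1.imp_of_mem ?_
  intro m n hm hn hmn
  simp only [Function.onFun]
  rw [List.disjoint_left]
  intro p hp hq
  obtain ⟨a, -, rfl⟩ := List.mem_map.mp hp
  obtain ⟨b, -, hb⟩ := List.mem_map.mp hq
  exact hmn (congrArg Prod.fst hb).symm

/-- The master census theorem. -/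
theorem census (Q : ℤ → Bool) {N : ℕ} (hN : N ≤ 64) (tbl : ℤ → ℕ → ℕ) {R : ℕ}
    (htbl : ∀ m ∈ ([0, 1] : List ℤ), ∀ k ∈ ([0, 8, 12, 16, 24] : List ℕ), T (cls Q m k) N (tOf m) = tbl m k)
    (hsum : (PP.map fun p => tbl p.1 (pop p.2)).sum = R) :
    {x : GolayPt → ℤ | x ∈ leechLattice ∧ sqNorm x = N ∧ ∀ i, Q (x i) = true}.ncard = R := by
  have hp : ∀ p ∈ PP, (p.1 = 0 ∨ p.1 = 1) ∧ p.2 ∈ allCode := by
    intro p hp
    obtain ⟨m, hm, hq⟩ := List.mem_flatMap.mp hp
    obtain ⟨a, ha, rfl⟩ := List.mem_map.mp hq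
    simp only [List.mem_cons, List.not_mem_nil, or_false] at hm
    exact ⟨hm, ha⟩
  have h1 : {x : GolayPt → ℤ | x ∈ leechLattice ∧ sqNorm x = N ∧ ∀ i, Q (x i) = true} =
      {x | ∃ p ∈ PP, x ∈ YS Q p.1 (fs p.2) N} := by
    ext x
    simp only [Set.mem_ofPred_eq]
    constructor
    · rintro ⟨h2, h3, h4⟩
      obtain ⟨m, c, h5⟩ := mem_leech_iff.mp h2
      obtain ⟨a, ha, rfl⟩ := (mem_supports_iff c).mp h5.hc
      refine ⟨(m, a), ?_, h5.h4, h5.h8, h3, h4⟩
      refine List.mem_flatMap.mpr ⟨m, ?_, List.mem_map.mpr ⟨a, ha, rfl⟩⟩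
      simpa using h5.hm
    · rintro ⟨p, hpp, h2, h3, h4, h5⟩
      obtain ⟨h6, h7⟩ := hp p hpp
      exact ⟨mem_leech_iff.mpr ⟨p.1, fs p.2, h6, fs_mem_supports h7, h2, h3⟩, h4, h5⟩
  have hdis : ∀ p ∈ PP, ∀ q ∈ PP, p ≠ q → Disjoint (YS Q p.1 (fs p.2) N) (YS Q q.1 (fs q.2) N) := by
    intro p hpp q hqq hpq
    rw [Set.disjoint_left]
    rintro x ⟨h2, h3, -⟩ ⟨h4, h5, -⟩
    obtain ⟨h6, h7⟩ := hp p hpp
    obtain ⟨h8, h9⟩ := hp q hqq
    obtain ⟨h10, h11⟩ := LeechData.unique ⟨h6, fs_mem_supports h7, h2, h3⟩ ⟨h8, fs_mem_supports h9, h4, h5⟩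
    apply hpq
    exact Prod.ext h10 (eq_of_fs_eq (allCode_lt_aux _ h7) (allCode_lt_aux _ h9) h11)
  obtain ⟨-, h3⟩ := ncard_list_union PP_nodup (fun p hpp => (YS_spec Q (hp p hpp).1 _ hN).1) hdis
  rw [h1, h3, ← hsum]
  refine congrArg List.sum (List.map_congr_left ?_)
  intro p hpp
  obtain ⟨h4, h5⟩ := hp p hpp
  rw [(YS_spec Q h4 _ hN).2, card_fs]
  apply htbl
  · simpa using h4
  · have := weight_cases _ h5
    simpa using this

end CfsgLib.Leech
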