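/-
Conway transitivity: every lattice vector of norm 32, 48, 64 moves to a base vector.
-/
import Cfsg.Agent.Lib.Leech.NfChk

set_option autoImplicit false

namespace CfsgLib.Leech

open Cfsg CfsgLib.Golay
open scoped Pointwise

theorem MovesTo.flip {x : leechLattice} {R : List ℤ} (h : MovesTo x R) {w : ℕ} (hw : w ∈ allCode) :
    MovesTo x (sgnVec R w) := by
  obtain ⟨g, hg⟩ := h
  refine ⟨mono 1 (fs w) M24.one_mem (fs_mem_supports hw) * g, ?_⟩
  rw [mul_smul, mono_apply, hg, vecL_sgnVec]
  rfl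

theorem MovesTo.monoStep {x : leechLattice} {R : List ℤ} (h : MovesTo x R) {t : ℕ} (ht : isAut t = true) :
    MovesTo x (monoL t 0 R) := by
  obtain ⟨g, hg⟩ := h
  refine ⟨mono (CfsgLib.Golay.mk t) (fs 0) (mk_mem_M24 ht) (fs_mem_supports zero_mem_allCode) * g, ?_⟩
  rw [mul_smul, mono_apply, hg]
  exact signedPerm_vecL (isAut_valid ht) _ _

theorem signTo_moves {x : leechLattice} {L R : List ℤ} (h : MovesTo x L) (hs : signTo L R = true) : MovesTo x R := by
  have h1 := h.flip (w := wit E_R2 (negMask L ^^^ negMask R)) (wit_mem E_R2_mem _)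
  have h2 : sgnVec L (wit E_R2 (negMask L ^^^ negMask R)) = R := beq_iff_eq.mp hs
  rwa [h2] at h1

theorem even_step_R2 {x : leechLattice} {c : Finset GolayPt} (hd : LeechData (x : GolayPt → ℤ) 0 c)
    (hN : sqNorm (x : GolayPt → ℤ) ≤ 64) {σ : Equiv.Perm GolayPt} (hσ : σ ∈ M24)
    (h1 : σ • c = fs (octO ^^^ 0xffffff)) (h2 : σ • absS (x : GolayPt → ℤ) 4 = fs 0)
    (h3 : σ • absS (x : GolayPt → ℤ) 6 = fs 0) (h4 : σ • absS (x : GolayPt → ℤ) 8 = fs 0) :
    MovesTo x R2a ∨ MovesTo x R2b := by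
  have hx' : (fun i => (x : GolayPt → ℤ) (σ⁻¹ i)) ∈ leechLattice := comp_mem (M24.inv_mem hσ) x.2
  obtain ⟨w, hw, D, hD, hv, hl⟩ := sign_reduce hx' (even_abs hd hN h1 h2 h3 h4) red_R2
  have hm : MovesTo x (sgnVec (prof 0 0 0 (octO ^^^ 0xffffff)) D) := NEq.moves ⟨σ, hσ, w, hw, hv.symm⟩
  have hc := List.all_eq_true.mp r2Chk_ok D hD
  simp only [hl, Bool.not_true, Bool.false_or, Bool.or_eq_true, List.any_eq_true, Bool.and_eq_true] at hc
  rcases hc with hc | ⟨t, -, ht, hc⟩
  · exact Or.inl (signTo_moves hm hc)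
  · exact Or.inr (signTo_moves (hm.monoStep ht) hc)

theorem smul_singleton_fs {σ : Equiv.Perm GolayPt} {a : GolayPt} {k : ℕ} (hk : k < 24) (h : σ a = pt k) :
    σ • ({a} : Finset GolayPt) = fs (2 ^ k) := by
  ext q
  have h1 : σ • a = pt k := h
  rw [Finset.smul_finset_singleton, Finset.mem_singleton, mem_fs, Nat.testBit_two_pow, h1]
  constructor
  · rintro rfl
    rw [idx_pt hk]
    simp
  · intro h2
    have h3 : k = idx q := by simpa using h2
    rw [h3, pt_idx]

theorem smul_pair_fs {σ : Equiv.Perm GolayPt} {a b : GolayPt} {k l : ℕ} (hk : k < 24) (hl : l < 24) (hkl : k ≠ l)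
    (h1 : σ a = pt k) (h2 : σ b = pt l) : σ • ({a, b} : Finset GolayPt) = fs (2 ^ k + 2 ^ l) := by
  have e1 : ({a, b} : Finset GolayPt) = {a} ∪ {b} := by
    ext q
    simp
  have e2 : fs (2 ^ k + 2 ^ l) = fs (2 ^ k) ∪ fs (2 ^ l) := by
    have e3 : ∀ i < 24, ∀ j < 24, i ≠ j → (2 ^ i + 2 ^ j = 2 ^ i ||| 2 ^ j) := by decide +kernel
    rw [e3 k hk l hl hkl, fs_lor]
  rw [e1, Finset.smul_finset_union, smul_singleton_fs hk h1, smul_singleton_fs hl h2, e2]

/-- The norm 32 case. -/
theorem moves32 (x : leechLattice) (hN : sqNorm (x : GolayPt → ℤ) = 32) : MovesTo x Ra32 := by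
  obtain ⟨m, c, hd⟩ := mem_leech_iff.mp x.2
  rcases hd.hm with rfl | rfl
  · have hcount := even_count hd (by omega)
    have h6 := Finset.card_le_card (absS_six_subset hd (by omega))
    rcases sup_card hd.hc with h | h | h | h | h <;> rw [h] at h6 hcount
    · have e6 : (absS (x : GolayPt → ℤ) 6).card = 0 := by omega
      have e4 : (absS (x : GolayPt → ℤ) 4).card = 2 := by omega
      have e8 : (absS (x : GolayPt → ℤ) 8).card = 0 := by omega
      obtain ⟨σ, hσ, hs⟩ := M24_map_finset (s := absS (x : GolayPt → ℤ) 4) (t := fs 3)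
        (by rw [e4, card_fs]; rfl) (by omega)
      exact NEq.moves (even_step_red x.2 hd (by omega) hσ (smul_fs_zero σ h) hs (smul_fs_zero σ e6)
        (smul_fs_zero σ e8) red_Ra32 chk_Ra32)
    · have e6 : (absS (x : GolayPt → ℤ) 6).card = 0 := by omega
      have e4 : (absS (x : GolayPt → ℤ) 4).card = 0 := by omega
      have e8 : (absS (x : GolayPt → ℤ) 8).card = 0 := by omega
      have ho : c ∈ octads := ⟨hd.hc, h⟩
      obtain ⟨σ, hσ, hs⟩ := M24_octad_trans ho (O0_mem)
      have := NEq.moves (R := Rb32) (x := x) (even_step_red x.2 hd (by omega) hσ hs (smul_fs_zero σ e4) (smul_fs_zero σ e6)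
        (smul_fs_zero σ e8) red_Rb32 chk_Rb32)
      exact this.path path_ok_Rb32 path_eq_Rb32
    all_goals omega
  · have hcount := odd_count hd (by omega)
    have e3 : (valS (oddY (x : GolayPt → ℤ) c) (-3)).card = 1 := by omega
    have e5 : (valS (oddY (x : GolayPt → ℤ) c) 5).card = 0 := by omega
    have := odd_move (F3 := 1) (F5 := 0) hd (by omega) (by decide) (by rw [e3]; rfl) (by rw [e5]; rfl) (by decide)
    exact this.path path_ok_Rc32 path_eq_Rc32

/-- The norm 48 case. -/
theorem moves48 (x : leechLattice) (hN : sqNorm (x : GolayPt → ℤ) = 48) : MovesTo x (profOdd 0 1) := by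
  obtain ⟨m, c, hd⟩ := mem_leech_iff.mp x.2
  rcases hd.hm with rfl | rfl
  · have hcount := even_count hd (by omega)
    have h6 := Finset.card_le_card (absS_six_subset hd (by omega))
    rcases sup_card hd.hc with h | h | h | h | h <;> rw [h] at h6 hcount
    · have e6 : (absS (x : GolayPt → ℤ) 6).card = 0 := by omega
      have e4 : (absS (x : GolayPt → ℤ) 4).card = 3 := by omega
      have e8 : (absS (x : GolayPt → ℤ) 8).card = 0 := by omega
      obtain ⟨σ, hσ, hs⟩ := M24_map_finset (s := absS (x : GolayPt → ℤ) 4) (t := fs 7)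
        (by rw [e4, card_fs]; rfl) (by omega)
      exact (even_none x.2 hd (by omega) hσ (smul_fs_zero σ h) hs (smul_fs_zero σ e6)
        (smul_fs_zero σ e8) (by decide) (by decide +kernel) none_R444).elim
    · have e6 : (absS (x : GolayPt → ℤ) 6).card = 0 := by omega
      have e4 : (absS (x : GolayPt → ℤ) 4).card = 1 := by omega
      have e8 : (absS (x : GolayPt → ℤ) 8).card = 0 := by omega
      have ho : c ∈ octads := ⟨hd.hc, h⟩
      obtain ⟨a, ha⟩ := Finset.card_eq_one.mp e4
      have ha' : a ∉ c := absS_four_disj hd (by omega) (by rw [ha]; simp)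
      obtain ⟨u, hu, h1, h2⟩ := exists_conj_antiflag ho ha'
      have hσ : u⁻¹ ∈ M24 := M24.inv_mem hu
      have hs : u⁻¹ • c = fs octO := by rw [← h1, inv_smul_smul]
      have hs4 : u⁻¹ • absS (x : GolayPt → ℤ) 4 = fs 32 := by
        rw [ha]
        exact smul_singleton_fs (k := 5) (by norm_num) (by rw [← h2]; simp)
      have := NEq.moves (R := Rc48) (x := x) (even_step_red x.2 hd (by omega) hσ hs hs4 (smul_fs_zero _ e6)
        (smul_fs_zero _ e8) red_Rc48 chk_Rc48)
      exact this.path path_ok_Rc48 path_eq_Rc48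
    · have e6 : (absS (x : GolayPt → ℤ) 6).card = 0 := by omega
      have e4 : (absS (x : GolayPt → ℤ) 4).card = 0 := by omega
      have e8 : (absS (x : GolayPt → ℤ) 8).card = 0 := by omega
      have ho : c ∈ dodecads := ⟨hd.hc, h⟩
      obtain ⟨σ, hσ, hs⟩ := M24_dodecad_trans ho Dd0_mem
      have := NEq.moves (R := Ra48) (x := x) (even_step_red x.2 hd (by omega) hσ hs (smul_fs_zero σ e4) (smul_fs_zero σ e6)
        (smul_fs_zero σ e8) red_Ra48 chk_Ra48)
      exact this.path path_ok_Ra48 path_eq_Ra48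
    all_goals omega
  · have hcount := odd_count hd (by omega)
    have hcases : ((valS (oddY (x : GolayPt → ℤ) c) (-3)).card = 3 ∧ (valS (oddY (x : GolayPt → ℤ) c) 5).card = 0) ∨
        ((valS (oddY (x : GolayPt → ℤ) c) (-3)).card = 0 ∧ (valS (oddY (x : GolayPt → ℤ) c) 5).card = 1) := by omega
    rcases hcases with ⟨e3, e5⟩ | ⟨e3, e5⟩
    · have := odd_move (F3 := 7) (F5 := 0) hd (by omega) (by decide) (by rw [e3]; rfl) (by rw [e5]; rfl) (by decide)
      exact this.path path_ok_R348 path_eq_R348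
    · exact odd_move (F3 := 0) (F5 := 1) hd (by omega) (by decide) (by rw [e3]; rfl) (by rw [e5]; rfl) (by decide)

/-- The norm 64 case. -/
theorem moves64 (x : leechLattice) (hN : sqNorm (x : GolayPt → ℤ) = 64) : MovesTo x R8 := by
  obtain ⟨m, c, hd⟩ := mem_leech_iff.mp x.2
  rcases hd.hm with rfl | rfl
  · have hcount := even_count hd (by omega)
    have h6 := Finset.card_le_card (absS_six_subset hd (by omega))
    rcases sup_card hd.hc with h | h | h | h | h <;> rw [h] at h6 hcount
    · have e6 : (absS (x : GolayPt → ℤ) 6).card = 0 := by omega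
      have hcases : ((absS (x : GolayPt → ℤ) 4).card = 4 ∧ (absS (x : GolayPt → ℤ) 8).card = 0) ∨
          ((absS (x : GolayPt → ℤ) 4).card = 0 ∧ (absS (x : GolayPt → ℤ) 8).card = 1) := by omega
      rcases hcases with ⟨e4, e8⟩ | ⟨e4, e8⟩
      · obtain ⟨σ, hσ, hs⟩ := M24_map_finset (s := absS (x : GolayPt → ℤ) 4) (t := fs 15)
          (by rw [e4, card_fs]; rfl) (by omega)
        have := NEq.moves (R := R4444) (x := x) (even_step_red x.2 hd (by omega) hσ (smul_fs_zero σ h) hs
          (smul_fs_zero σ e6) (smul_fs_zero σ e8) red_R4444 chk_R4444)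
        exact this.path path_ok_R4444 path_eq_R4444
      · obtain ⟨σ, hσ, hs⟩ := M24_map_finset (s := absS (x : GolayPt → ℤ) 8) (t := fs 1)
          (by rw [e8, card_fs]; rfl) (by omega)
        exact NEq.moves (even_step_red x.2 hd (by omega) hσ (smul_fs_zero σ h) (smul_fs_zero σ e4)
          (smul_fs_zero σ e6) hs red_R8 chk_R8)
    · have ho : c ∈ octads := ⟨hd.hc, h⟩
      have e8 : (absS (x : GolayPt → ℤ) 8).card = 0 := by omega
      have hcases : ((absS (x : GolayPt → ℤ) 6).card = 1 ∧ (absS (x : GolayPt → ℤ) 4).card = 0) ∨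
          ((absS (x : GolayPt → ℤ) 6).card = 0 ∧ (absS (x : GolayPt → ℤ) 4).card = 2) := by omega
      rcases hcases with ⟨e6, e4⟩ | ⟨e6, e4⟩
      · obtain ⟨a, ha⟩ := Finset.card_eq_one.mp e6
        have ha' : a ∈ c := absS_six_subset hd (by omega) (by rw [ha]; simp)
        obtain ⟨u, hu, h1, h2⟩ := exists_conj_flag ho ha'
        have hσ : u⁻¹ ∈ M24 := M24.inv_mem hu
        have hs : u⁻¹ • c = fs octO := by rw [← h1, inv_smul_smul]
        have hs6 : u⁻¹ • absS (x : GolayPt → ℤ) 6 = fs 1 := by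
          rw [ha]
          exact smul_singleton_fs (k := 0) (by norm_num) (by rw [← h2]; simp)
        have := NEq.moves (R := R6222) (x := x) (even_step_red x.2 hd (by omega) hσ hs (smul_fs_zero _ e4)
          hs6 (smul_fs_zero _ e8) red_R6222 chk_R6222)
        exact this.path path_ok_R6222 path_eq_R6222
      · obtain ⟨a, b, hab, hA⟩ := Finset.card_eq_two.mp e4
        have ha' : a ∉ c := absS_four_disj hd (by omega) (by rw [hA]; simp)
        have hb' : b ∉ c := absS_four_disj hd (by omega) (by rw [hA]; simp)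
        obtain ⟨u, hu, h1, h2⟩ := exists_conj_antiflag ho ha'
        have hσ : u⁻¹ ∈ M24 := M24.inv_mem hu
        have hs : u⁻¹ • c = fs octO := by rw [← h1, inv_smul_smul]
        have h2' : u⁻¹ a = pt 5 := by rw [← h2]; simp
        have hi := idx_lt (u⁻¹ b)
        have hib : pt (idx (u⁻¹ b)) = u⁻¹ b := pt_idx _
        have hi5 : idx (u⁻¹ b) ≠ 5 := by
          intro h3
          rw [h3, ← h2'] at hib
          exact hab (u⁻¹.injective hib)
        have hiO : (octO).testBit (idx (u⁻¹ b)) = false := by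
          cases h3 : (octO).testBit (idx (u⁻¹ b))
          · rfl
          · exfalso
            have h4 : u⁻¹ b ∈ fs octO := mem_fs.mpr h3
            rw [← hs, mem_smul_iff_inv] at h4
            simp at h4
            exact hb' h4
        have hc := List.all_eq_true.mp pairChk_ok (idx (u⁻¹ b)) (List.mem_range.mpr hi)
        simp only [hiO, Bool.false_or, Bool.or_eq_true, beq_iff_eq, hi5, false_or, List.any_eq_true,
          Bool.and_eq_true] at hc
        obtain ⟨g, -, ⟨⟨hg1, hg2⟩, hg3⟩, hg4⟩ := hc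
        have hv := isAut_valid hg1
        have hτ := mk_mem_M24 hg1
        have hs' : (CfsgLib.Golay.mk g * u⁻¹) • c = fs octO := by
          rw [mul_smul, hs, ← fs_img hv, hg4]
        have hs4 : (CfsgLib.Golay.mk g * u⁻¹) • absS (x : GolayPt → ℤ) 4 = fs 96 := by
          rw [hA]
          refine smul_pair_fs (k := 5) (l := 6) (by norm_num) (by norm_num) (by norm_num) ?_ ?_
          · rw [Equiv.Perm.mul_apply, h2', mk_pt hv (by norm_num), hg2]
          · rw [Equiv.Perm.mul_apply, ← hib, mk_pt hv hi, hg3]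
        have := NEq.moves (R := R44222) (x := x) (even_step_red x.2 hd (by omega) (M24.mul_mem hτ hσ) hs' hs4
          (smul_fs_zero _ e6) (smul_fs_zero _ e8) red_R44222 chk_R44222)
        exact this.path path_ok_R44222 path_eq_R44222
    · have hcc : cᶜ ∈ dodecads := ⟨sup_compl hd.hc, by rw [Finset.card_compl, h]; decide⟩
      have e6 : (absS (x : GolayPt → ℤ) 6).card = 0 := by omega
      have e4 : (absS (x : GolayPt → ℤ) 4).card = 1 := by omega
      have e8 : (absS (x : GolayPt → ℤ) 8).card = 0 := by omega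
      obtain ⟨a, ha⟩ := Finset.card_eq_one.mp e4
      have ha' : a ∉ c := absS_four_disj hd (by omega) (by rw [ha]; simp)
      obtain ⟨u, hu, h1, h2⟩ := exists_conj_Dd0_pt hcc (Finset.mem_compl.mpr ha')
      have hσ : u⁻¹ ∈ M24 := M24.inv_mem hu
      have hs : u⁻¹ • c = fs (dod0 ^^^ 0xffffff) := by
        apply smul_compl_eq
        rw [← h1, inv_smul_smul]
      have hs4 : u⁻¹ • absS (x : GolayPt → ℤ) 4 = fs 1 := by
        rw [ha]
        exact smul_singleton_fs (k := 0) (by norm_num) (by rw [← h2]; simp)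
      have := NEq.moves (R := R4212) (x := x) (even_step_red x.2 hd (by omega) hσ hs hs4
        (smul_fs_zero _ e6) (smul_fs_zero _ e8) red_R4212 chk_R4212)
      exact this.path path_ok_R4212 path_eq_R4212
    · have hcc : cᶜ ∈ octads := ⟨sup_compl hd.hc, by rw [Finset.card_compl, h]; decide⟩
      have e6 : (absS (x : GolayPt → ℤ) 6).card = 0 := by omega
      have e4 : (absS (x : GolayPt → ℤ) 4).card = 0 := by omega
      have e8 : (absS (x : GolayPt → ℤ) 8).card = 0 := by omega
      obtain ⟨σ, hσ, hs⟩ := M24_octad_trans hcc (O0_mem)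
      rcases even_step_R2 hd (by omega) hσ (smul_compl_eq hs) (smul_fs_zero σ e4) (smul_fs_zero σ e6)
        (smul_fs_zero σ e8) with h1 | h1
      · exact h1.path path_ok_R2a path_eq_R2a
      · exact h1.path path_ok_R2b path_eq_R2b
    · omega
  · have hcount := odd_count hd (by omega)
    have hcases : ((valS (oddY (x : GolayPt → ℤ) c) (-3)).card = 5 ∧ (valS (oddY (x : GolayPt → ℤ) c) 5).card = 0) ∨
        ((valS (oddY (x : GolayPt → ℤ) c) (-3)).card = 2 ∧ (valS (oddY (x : GolayPt → ℤ) c) 5).card = 1) := by omega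
    rcases hcases with ⟨e3, e5⟩ | ⟨e3, e5⟩
    · have := odd_move (F3 := 31) (F5 := 0) hd (by omega) (by decide) (by rw [e3]; rfl) (by rw [e5]; rfl) (by decide)
      exact this.path path_ok_R35 path_eq_R35
    · have := odd_move (F3 := 6) (F5 := 1) hd (by omega) (by decide) (by rw [e3]; rfl) (by rw [e5]; rfl) (by decide)
      exact this.path path_ok_R533 path_eq_R533

theorem MovesTo.exists_smul_eq {v w : leechLattice} {R : List ℤ} (h1 : MovesTo v R) (h2 : MovesTo w R) :
    ∃ g : ↥Co0, g • v = w := by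
  obtain ⟨g1, hg1⟩ := h1
  obtain ⟨g2, hg2⟩ := h2
  refine ⟨g2⁻¹ * g1, ?_⟩
  have : g1 • v = g2 • w := Subtype.ext (hg1.trans hg2.symm)
  rw [mul_smul, this, inv_smul_smul]

theorem trans32 (v w : leechLattice) (hv : sqNorm (v : GolayPt → ℤ) = 32) (hw : sqNorm (w : GolayPt → ℤ) = 32) :
    ∃ g : ↥Co0, g • v = w := (moves32 v hv).exists_smul_eq (moves32 w hw)

theorem trans48 (v w : leechLattice) (hv : sqNorm (v : GolayPt → ℤ) = 48) (hw : sqNorm (w : GolayPt → ℤ) = 48) :
    ∃ g : ↥Co0, g • v = w := (moves48 v hv).exists_smul_eq (moves48 w hw)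

theorem trans64 (v w : leechLattice) (hv : sqNorm (v : GolayPt → ℤ) = 64) (hw : sqNorm (w : GolayPt → ℤ) = 64) :
    ∃ g : ↥Co0, g • v = w := (moves64 v hv).exists_smul_eq (moves64 w hw)

end CfsgLib.Leech
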