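/-
The standard cross, the monomial group, and the order of the automorphism group of the lattice.
-/
import Cfsg.Agent.Lib.Leech.NfMain

set_option autoImplicit false

namespace CfsgLib.Leech

open Cfsg CfsgLib.Golay
open scoped Pointwise

/-- A coordinate vector with prescribed value. -/
theorem e8_coe (i : GolayPt) : ((e8 i : leechLattice) : GolayPt → ℤ) = Pi.single i 8 := rfl

theorem sqNorm_single (i : GolayPt) (s : ℤ) : sqNorm (Pi.single i s : GolayPt → ℤ) = s ^ 2 := by
  unfold sqNorm
  rw [Finset.sum_eq_single i]
  · simp
  · intro j _ hj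
    simp [Pi.single_eq_of_ne hj]
  · simp

theorem single_mem_std {i : GolayPt} {s : ℤ} (hs : s = 8 ∨ s = -8) : (Pi.single i s : GolayPt → ℤ) ∈ stdCross :=
  ⟨i, s, hs, rfl⟩

theorem stdCross_mem_lattice {y : GolayPt → ℤ} (hy : y ∈ stdCross) : y ∈ leechLattice := by
  obtain ⟨i, s, hs, rfl⟩ := hy
  apply four_mem
  · intro j
    by_cases hj : j = i
    · subst hj
      rcases hs with rfl | rfl <;> simp
    · simp [Pi.single_eq_of_ne hj]
  · simp only [Finset.sum_pi_single', Finset.mem_univ, if_true]
    rcases hs with rfl | rfl <;> simp

theorem stdCross_norm {y : GolayPt → ℤ} (hy : y ∈ stdCross) : sqNorm y = 64 := by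
  obtain ⟨i, s, hs, rfl⟩ := hy
  rw [sqNorm_single]
  rcases hs with rfl | rfl <;> norm_num

theorem e8_mem_std (i : GolayPt) : ((e8 i : leechLattice) : GolayPt → ℤ) ∈ stdCross :=
  single_mem_std (Or.inl rfl)

/-- The key lemma: a vector of norm 64 congruent to `8 e_0` modulo twice the lattice is in the standard cross. -/
theorem mem_std_of_congr {i : GolayPt} {y z : GolayPt → ℤ} (hz : z ∈ leechLattice) (hN : sqNorm y = 64)
    (he : (Pi.single i 8 : GolayPt → ℤ) - y = (2 : ℕ) • z) : y ∈ stdCross := by
  classical
  obtain ⟨m, c, hd⟩ := mem_leech_iff.mp hz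
  -- half of y
  let w : GolayPt → ℤ := fun j => (Pi.single i 4 : GolayPt → ℤ) j - z j
  have hy : ∀ j, y j = 2 * w j := by
    intro j
    have h1 := congrFun he j
    simp only [Pi.sub_apply, Pi.smul_apply, nsmul_eq_mul, w] at h1 ⊢
    by_cases hj : j = i
    · subst hj
      simp only [Pi.single_eq_same] at h1 ⊢
      push_cast at h1
      linarith
    · simp only [Pi.single_eq_of_ne hj] at h1 ⊢
      push_cast at h1
      linarith
  have hw : sqNorm w = 16 := by
    have : sqNorm y = 4 * sqNorm w := by
      unfold sqNorm
      rw [Finset.mul_sum]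
      refine Finset.sum_congr rfl fun j _ => ?_
      rw [hy j]
      ring
    omega
  have hwm : ∀ j, w j ≡ - (m + 2 * ind c j) [ZMOD 4] := by
    intro j
    have h4 := hd.h4 j
    have h5 : (4 : ℤ) ∣ (Pi.single i 4 : GolayPt → ℤ) j := by
      by_cases hj : j = i
      · subst hj; simp
      · simp [Pi.single_eq_of_ne hj]
    simp only [w]
    unfold Int.ModEq at h4 ⊢
    omega
  rcases hd.hm with rfl | rfl
  · -- all coordinates of w even
    have hc : c.card = 0 := by
      have h1 : 4 * (c.card : ℤ) ≤ sqNorm w := by
        have h2 : ∑ j ∈ c, (4 : ℤ) ≤ ∑ j ∈ c, w j ^ 2 := by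
          refine Finset.sum_le_sum fun j hj => ?_
          have h3 := hwm j
          have h4 : ind c j = 1 := by simp [ind, hj]
          rw [h4] at h3
          have h5 : w j % 4 = 2 := by
            unfold Int.ModEq at h3
            omega
          have h6 : 2 ≤ w j ∨ w j ≤ -2 := by omega
          rcases h6 with h6 | h6 <;> nlinarith
        have h3 := le_sqNorm w c
        simp only [Finset.sum_const, nsmul_eq_mul] at h2
        linarith
      rcases sup_card hd.hc with h | h | h | h | h <;> rw [h] at h1 <;> first | omega | exact h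
    have hc0 : c = ∅ := Finset.card_eq_zero.mp hc
    subst hc0
    have hmul : ∀ j, (4 : ℤ) ∣ w j := by
      intro j
      have h3 := hwm j
      simp only [ind, Finset.notMem_empty, if_false] at h3
      unfold Int.ModEq at h3
      omega
    -- one nonzero coordinate
    have hne : w ≠ 0 := by
      intro h0
      rw [h0] at hw
      simp [sqNorm] at hw
    obtain ⟨j, hj⟩ : ∃ j, w j ≠ 0 := by
      by_contra h
      push Not at h
      exact hne (funext h)
    have hj4 : 16 ≤ w j ^ 2 := by
      obtain ⟨t, ht⟩ := hmul j
      rw [ht] at hj ⊢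
      have : t ≠ 0 := by
        intro h
        rw [h] at hj
        simp at hj
      have h3 : 1 ≤ t ^ 2 := by
        have h5 := sq_nonneg t
        have h4 : t ^ 2 ≠ 0 := pow_ne_zero _ this
        omega
      nlinarith
    have hrest : ∀ k, k ≠ j → w k = 0 := by
      intro k hk
      by_contra h
      have h3 : 16 ≤ w k ^ 2 := by
        obtain ⟨t, ht⟩ := hmul k
        rw [ht] at h ⊢
        have : t ≠ 0 := by
          intro h'
          rw [h'] at h
          simp at h
        have h3 : 1 ≤ t ^ 2 := by
          have h5 := sq_nonneg t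
          have h4 : t ^ 2 ≠ 0 := pow_ne_zero _ this
          omega
        nlinarith
      have h4 := le_sqNorm w {j, k}
      rw [Finset.sum_pair hk.symm] at h4
      omega
    have hval : w j ^ 2 = 16 := by
      have h3 : sqNorm w = w j ^ 2 := by
        unfold sqNorm
        rw [Finset.sum_eq_single j]
        · intro k _ hk
          rw [hrest k hk]
          norm_num
        · simp
      omega
    have hval2 : w j = 4 ∨ w j = -4 := by
      have h3 : (w j - 4) * (w j + 4) = 0 := by linear_combination hval
      rcases mul_eq_zero.mp h3 with h4 | h4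
      · left; omega
      · right; omega
    refine ⟨j, 2 * w j, ?_, ?_⟩
    · rcases hval2 with h3 | h3 <;> rw [h3] <;> norm_num
    · funext k
      rw [hy k]
      by_cases hk : k = j
      · subst hk; simp
      · rw [hrest k hk, Pi.single_eq_of_ne hk]
        norm_num
  · -- all coordinates of w odd: too long
    exfalso
    have h1 : ∑ j : GolayPt, (1 : ℤ) ≤ sqNorm w := by
      refine Finset.sum_le_sum fun j _ => ?_
      have h3 := hwm j
      have h4 : w j ≠ 0 := by
        intro h5
        rw [h5] at h3
        have h6 := ind_cases c j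
        unfold Int.ModEq at h3
        omega
      have h5 : 0 < w j ^ 2 := by positivity
      omega
    rw [hw] at h1
    simp [card_pts] at h1

theorem single_sub_mem {i j : GolayPt} {a b : ℤ} (ha : a = 4 ∨ a = -4) (hb : b = 4 ∨ b = -4) :
    (Pi.single i a - Pi.single j b : GolayPt → ℤ) ∈ leechLattice := by
  apply four_mem
  · intro k
    simp only [Pi.sub_apply]
    apply dvd_sub
    · by_cases hk : k = i
      · subst hk
        rcases ha with rfl | rfl <;> simp
      · simp [Pi.single_eq_of_ne hk]
    · by_cases hk : k = j
      · subst hk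
        rcases hb with rfl | rfl <;> simp
      · simp [Pi.single_eq_of_ne hk]
  · simp only [Pi.sub_apply, Finset.sum_sub_distrib, Finset.sum_pi_single', Finset.mem_univ, if_true]
    rcases ha with rfl | rfl <;> rcases hb with rfl | rfl <;> norm_num

/-- Membership in the standard cross of a congruent vector: the Set form. -/
theorem cross_single (i : GolayPt) {s : ℤ} (hs : s = 8 ∨ s = -8) : cross (Pi.single i s) = stdCross := by
  ext y
  constructor
  · rintro ⟨hy, hn, z, hz, he⟩
    rw [sqNorm_single] at hn
    have hn' : sqNorm y = 64 := by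
      rw [hn]
      rcases hs with rfl | rfl <;> norm_num
    rcases hs with rfl | rfl
    · exact mem_std_of_congr hz hn' he
    · -- change the sign of both
      have h1 : (Pi.single i 8 : GolayPt → ℤ) - (-y) = (2 : ℕ) • (-z) := by
        funext j
        have h2 := congrFun he j
        simp only [Pi.sub_apply, Pi.smul_apply, nsmul_eq_mul, Pi.neg_apply] at h2 ⊢
        by_cases hj : j = i
        · subst hj
          simp only [Pi.single_eq_same] at h2 ⊢
          push_cast at h2 ⊢
          linarith
        · simp only [Pi.single_eq_of_ne hj] at h2 ⊢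
          push_cast at h2 ⊢
          linarith
      have h3 : sqNorm (-y) = 64 := by
        unfold sqNorm at hn' ⊢
        simpa using hn'
      obtain ⟨j, t, ht, he2⟩ := mem_std_of_congr (leechLattice.neg_mem hz) h3 h1
      refine ⟨j, -t, ?_, ?_⟩
      · rcases ht with rfl | rfl <;> simp
      · funext k
        have h4 := congrFun he2 k
        simp only [Pi.neg_apply] at h4
        by_cases hk : k = j
        · subst hk
          simp only [Pi.single_eq_same] at h4 ⊢
          linarith
        · simp only [Pi.single_eq_of_ne hk] at h4 ⊢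
          linarith
  · rintro hy
    refine ⟨stdCross_mem_lattice hy, ?_, ?_⟩
    · rw [stdCross_norm hy, sqNorm_single]
      rcases hs with rfl | rfl <;> norm_num
    · obtain ⟨j, t, ht, rfl⟩ := hy
      refine ⟨(Pi.single i (s / 2) : GolayPt → ℤ) - Pi.single j (t / 2), single_sub_mem ?_ ?_, ?_⟩
      · rcases hs with rfl | rfl <;> norm_num
      · rcases ht with rfl | rfl <;> norm_num
      · funext k
        simp only [Pi.sub_apply, Pi.smul_apply, nsmul_eq_mul]
        have h1 : (Pi.single i s : GolayPt → ℤ) k = 2 * (Pi.single i (s / 2) : GolayPt → ℤ) k := by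
          by_cases hk : k = i
          · subst hk
            rcases hs with rfl | rfl <;> simp
          · simp [Pi.single_eq_of_ne hk]
        have h2 : (Pi.single j t : GolayPt → ℤ) k = 2 * (Pi.single j (t / 2) : GolayPt → ℤ) k := by
          by_cases hk : k = j
          · subst hk
            rcases ht with rfl | rfl <;> simp
          · simp [Pi.single_eq_of_ne hk]
        rw [h1, h2]
        push_cast
        ring

/-- An automorphism preserving the standard cross is monomial. -/
theorem monomial_of_std (g : ↥Co0) (hg : ∀ v : leechLattice, (v : GolayPt → ℤ) ∈ stdCross →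
    ((g • v : leechLattice) : GolayPt → ℤ) ∈ stdCross) :
    ∃ σ ∈ M24, ∃ c ∈ Sup, ∀ v : leechLattice, ((g • v : leechLattice) : GolayPt → ℤ) = signedPerm σ c v := by
  classical
  have hex : ∀ i, ∃ (j : GolayPt) (s : ℤ), (s = 8 ∨ s = -8) ∧ ((g • e8 i : leechLattice) : GolayPt → ℤ) = Pi.single j s :=
    fun i => hg (e8 i) (e8_mem_std i)
  choose f s hs hfs using hex
  have hinj : Function.Injective f := by
    intro i i' hf
    by_contra hne
    have h1 : ((g • e8 i : leechLattice) : GolayPt → ℤ) = Pi.single (f i) (s i) := hfs i
    have h2 : ((g • e8 i' : leechLattice) : GolayPt → ℤ) = Pi.single (f i) (s i') := by rw [hfs i', hf]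
    rcases hs i with h3 | h3 <;> rcases hs i' with h4 | h4
    · have h5 : g • e8 i = g • e8 i' := Subtype.ext (by rw [h1, h2, h3, h4])
      have h6 := smul_left_cancel g h5
      have h7 := congrArg (fun v : leechLattice => (v : GolayPt → ℤ) i) h6
      simp [e8, Pi.single_eq_of_ne hne] at h7
    · have h5 : g • e8 i = g • (-e8 i') := Subtype.ext (by
        rw [h1, smul_neg_Co0]
        change _ = -((g • e8 i' : leechLattice) : GolayPt → ℤ)
        rw [h2, h3, h4]
        funext k
        by_cases hk : k = f i
        · subst hk; simp
        · simp [Pi.single_eq_of_ne hk])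
      have h6 := smul_left_cancel g h5
      have h7 := congrArg (fun v : leechLattice => (v : GolayPt → ℤ) i) h6
      change (e8 i : GolayPt → ℤ) i = -(e8 i' : GolayPt → ℤ) i at h7
      simp [e8, Pi.single_eq_of_ne hne] at h7
    · have h5 : g • e8 i = g • (-e8 i') := Subtype.ext (by
        rw [h1, smul_neg_Co0]
        change _ = -((g • e8 i' : leechLattice) : GolayPt → ℤ)
        rw [h2, h3, h4]
        funext k
        by_cases hk : k = f i
        · subst hk; simp
        · simp [Pi.single_eq_of_ne hk])
      have h6 := smul_left_cancel g h5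
      have h7 := congrArg (fun v : leechLattice => (v : GolayPt → ℤ) i) h6
      change (e8 i : GolayPt → ℤ) i = -(e8 i' : GolayPt → ℤ) i at h7
      simp [e8, Pi.single_eq_of_ne hne] at h7
    · have h5 : g • e8 i = g • e8 i' := Subtype.ext (by rw [h1, h2, h3, h4])
      have h6 := smul_left_cancel g h5
      have h7 := congrArg (fun v : leechLattice => (v : GolayPt → ℤ) i) h6
      simp [e8, Pi.single_eq_of_ne hne] at h7
  have hbij : Function.Bijective f := Finite.injective_iff_bijective.mp hinj
  let σ : Equiv.Perm GolayPt := Equiv.ofBijective f hbij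
  have hσ : ∀ i, σ i = f i := fun i => rfl
  let c : Finset GolayPt := Finset.univ.filter fun j => s (σ.symm j) = -8
  have hact : ∀ v : leechLattice, ((g • v : leechLattice) : GolayPt → ℤ) = signedPerm σ c v := by
    intro v
    have h1 : (8 : ℤ) • (g • v) = ∑ i, (v : GolayPt → ℤ) i • (g • e8 i) := by
      rw [← smul_zsmul_Co0, eight_smul_eq]
      change addHomOf g _ = _
      rw [map_sum]
      refine Finset.sum_congr rfl fun i _ => ?_
      rw [map_zsmul, addHomOf_apply]
    funext j
    have h2 := congrArg (fun w : leechLattice => (w : GolayPt → ℤ) j) h1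
    simp only [AddSubgroup.coe_zsmul, Pi.smul_apply, smul_eq_mul, AddSubgroup.val_finsetSum, Finset.sum_apply] at h2
    rw [Finset.sum_eq_single (σ.symm j)] at h2
    · have h3 : ((g • e8 (σ.symm j) : leechLattice) : GolayPt → ℤ) j = s (σ.symm j) := by
        rw [hfs, ← hσ]
        simp
      rw [h3] at h2
      unfold signedPerm
      simp only [c, Finset.mem_filter, Finset.mem_univ, true_and]
      rcases hs (σ.symm j) with h4 | h4
      · rw [if_neg (by rw [h4]; norm_num)]
        rw [h4] at h2
        omega
      · rw [if_pos h4]
        rw [h4] at h2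
        omega
    · intro i _ hi
      rw [hfs, ← hσ]
      have : j ≠ σ i := by
        intro h3
        apply hi
        rw [h3]
        simp
      simp [Pi.single_eq_of_ne this]
    · simp
  refine ⟨σ, ?_, c, ?_, hact⟩
  · apply mem_M24_of_basis
    intro b hb
    have hbc : fs b ∈ Sup := by
      have hall : basis.all isCode = true := by decide +kernel
      exact fs_mem_supports (mem_allCode_of_isCode (List.all_eq_true.mp hall b hb))
    let v : leechLattice := ⟨twoInd (fs b), twoInd_mem hbc⟩
    obtain ⟨m, c', hd⟩ := mem_leech_iff.mp (g • v).2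
    have hval : ∀ j, ((g • v : leechLattice) : GolayPt → ℤ) j =
        if j ∈ c then -twoInd (fs b) (σ.symm j) else twoInd (fs b) (σ.symm j) := by
      intro j
      rw [hact v]
      rfl
    have hm0 : m = 0 := by
      rcases hd.hm with h | h
      · exact h
      · exfalso
        have h1 := hd.h4 (pt 0)
        rw [hval (pt 0), h] at h1
        have h2 := ind_cases c' (pt 0)
        have h3 := ind_cases (fs b) (σ.symm (pt 0))
        unfold Int.ModEq at h1
        unfold twoInd at h1
        split_ifs at h1 <;> omega
    subst hm0
    have : σ • fs b = c' := by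
      ext j
      rw [mem_smul_iff_inv]
      have h1 := hd.h4 j
      rw [hval j] at h1
      have h2 : σ⁻¹ j = σ.symm j := rfl
      rw [h2]
      unfold twoInd at h1
      by_cases h3 : σ.symm j ∈ fs b <;> by_cases h4 : j ∈ c' <;> by_cases h5 : j ∈ c <;>
        simp [ind, h3, h4, h5, Int.ModEq] at h1 ⊢
    rw [this]
    exact hd.hc
  · let v : leechLattice := ⟨vodd, vodd_mem⟩
    obtain ⟨m, c', hd⟩ := mem_leech_iff.mp (g • v).2
    have hval : ∀ j, ((g • v : leechLattice) : GolayPt → ℤ) j =
        if j ∈ c then -vodd (σ.symm j) else vodd (σ.symm j) := by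
      intro j
      rw [hact v]
      rfl
    have hodd : ∀ k, vodd k % 4 = 1 := by
      intro k
      simp only [vodd, Pi.add_apply]
      by_cases h : k = pt 0
      · subst h
        simp
      · simp [Pi.single_eq_of_ne h]
    have hm1 : m = 1 := by
      rcases hd.hm with h | h
      · exfalso
        have h1 := hd.h4 (pt 0)
        rw [hval (pt 0), h] at h1
        have h2 := ind_cases c' (pt 0)
        have h3 := hodd (σ.symm (pt 0))
        unfold Int.ModEq at h1
        split_ifs at h1 <;> omega
      · exact h
    subst hm1
    have : c = c' := by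
      ext j
      have h1 := hd.h4 j
      rw [hval j] at h1
      have h3 := hodd (σ.symm j)
      unfold Int.ModEq at h1
      by_cases h4 : j ∈ c' <;> by_cases h5 : j ∈ c <;> simp [ind, h4, h5] at h1 ⊢ <;> omega
    rw [this]
    exact hd.hc

end CfsgLib.Leech
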