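/-
The numbers of lattice vectors of norms 32, 48 and 64.
-/
import Cfsg.Agent.Lib.Leech.Census

set_option autoImplicit false

namespace CfsgLib.Leech

open Cfsg CfsgLib.Golay

/-- A table of counts from the values at the five weights, even case, and the common odd case. -/
def tblOf (e0 e8 e12 e16 e24 o : ℕ) (m : ℤ) (k : ℕ) : ℕ :=
  if m = 0 then (if k = 0 then e0 else if k = 8 then e8 else if k = 12 then e12 else if k = 16 then e16 else e24) else o

theorem shell32 : {x : GolayPt → ℤ | x ∈ leechLattice ∧ sqNorm x = 32}.ncard = 196560 := by
  have h := census (fun _ => true) (N := 32) (R := 196560) (by norm_num) (tblOf 1104 128 0 0 0 24) (by decide +kernel) (by decide +kernel)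
  simpa using h

theorem shell48 : {x : GolayPt → ℤ | x ∈ leechLattice ∧ sqNorm x = 48}.ncard = 16773120 := by
  have h := census (fun _ => true) (N := 48) (R := 16773120) (by norm_num) (tblOf 0 4096 2048 0 0 2048) (by decide +kernel) (by decide +kernel)
  simpa using h

theorem shell64 : {x : GolayPt → ℤ | x ∈ leechLattice ∧ sqNorm x = 64}.ncard = 398034000 := by
  have h := census (fun _ => true) (N := 64) (R := 398034000) (by norm_num) (tblOf 170064 62464 49152 32768 0 48576) (by decide +kernel) (by decide +kernel)
  simpa using h

end CfsgLib.Leech
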