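/-
The monomial subgroup as a subgroup, its order, and the order of the automorphism group of the lattice.
-/
import Cfsg.Agent.Lib.Leech.Frame
import Cfsg.Agent.Lib.Leech.Shells

set_option autoImplicit false

namespace CfsgLib.Leech

open Cfsg CfsgLib.Golay
open scoped Pointwise

theorem signedPerm_single (σ : Equiv.Perm GolayPt) (c : Finset GolayPt) (i : GolayPt) (s : ℤ) :
    signedPerm σ c (Pi.single i s) = Pi.single (σ i) (if σ i ∈ c then -s else s) := by
  classical
  funext j
  unfold signedPerm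
  by_cases hj : j = σ i
  · subst hj
    simp
  · have : σ.symm j ≠ i := by
      intro h
      apply hj
      rw [← h]
      simp
    simp [Pi.single_eq_of_ne this, Pi.single_eq_of_ne hj]

/-- The set of all code supports has 4096 elements. -/
theorem ncard_Sup : Sup.ncard = 4096 := by
  classical
  have h : Sup = ↑(allCode.toFinset.image fs) := by
    ext s
    simp only [Finset.coe_image, Set.mem_image, Finset.mem_coe, List.mem_toFinset]
    rw [mem_supports_iff s]
    constructor
    · rintro ⟨c, hc, rfl⟩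
      exact ⟨c, hc, rfl⟩
    · rintro ⟨c, hc, rfl⟩
      exact ⟨c, hc, rfl⟩
  rw [h, Set.ncard_coe_finset, Finset.card_image_of_injOn, List.toFinset_card_of_nodup allCode_nodup, allCode_length]
  intro a ha b hb hab
  simp only [Finset.mem_coe, List.mem_toFinset] at ha hb
  exact eq_of_fs_eq (allCode_lt_aux a ha) (allCode_lt_aux b hb) hab

/-- Automorphisms preserving the standard cross. -/
def StdP (g : ↥Co0) : Prop :=
  ∀ v : leechLattice, (v : GolayPt → ℤ) ∈ stdCross → ((g • v : leechLattice) : GolayPt → ℤ) ∈ stdCross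

theorem mono_stdP (σ : Equiv.Perm GolayPt) (c : Finset GolayPt) (hσ : σ ∈ M24) (hc : c ∈ Sup) :
    StdP (mono σ c hσ hc) := by
  intro v hv
  rw [mono_apply]
  obtain ⟨i, s, hs, he⟩ := hv
  rw [he, signedPerm_single]
  refine single_mem_std ?_
  split_ifs
  · rcases hs with rfl | rfl <;> simp
  · exact hs

theorem mono_eq_of_act {g : ↥Co0} {σ : Equiv.Perm GolayPt} {c : Finset GolayPt} (hσ : σ ∈ M24) (hc : c ∈ Sup)
    (h : ∀ v : leechLattice, ((g • v : leechLattice) : GolayPt → ℤ) = signedPerm σ c v) : g = mono σ c hσ hc := by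
  apply Subtype.ext
  ext1 v
  apply Subtype.ext
  change ((g • v : leechLattice) : GolayPt → ℤ) = ((mono σ c hσ hc • v : leechLattice) : GolayPt → ℤ)
  rw [h, mono_apply]

theorem mono_inj {σ σ' : Equiv.Perm GolayPt} {c c' : Finset GolayPt} {hσ : σ ∈ M24} {hc : c ∈ Sup} {hσ' : σ' ∈ M24}
    {hc' : c' ∈ Sup} (h : mono σ c hσ hc = mono σ' c' hσ' hc') : σ = σ' ∧ c = c' := by
  classical
  have key : ∀ i, σ i = σ' i ∧ (σ i ∈ c ↔ σ i ∈ c') := by
    intro i
    have h1 : signedPerm σ c (Pi.single i 8) = signedPerm σ' c' (Pi.single i 8) := by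
      have h2 := congrArg (fun g : ↥Co0 => ((g • e8 i : leechLattice) : GolayPt → ℤ)) h
      simpa only [mono_apply, e8_coe] using h2
    rw [signedPerm_single, signedPerm_single] at h1
    have h2 := congrFun h1 (σ i)
    rw [Pi.single_eq_same] at h2
    have h3 : σ i = σ' i := by
      by_contra hne
      rw [Pi.single_eq_of_ne hne] at h2
      split_ifs at h2 <;> omega
    refine ⟨h3, ?_⟩
    rw [h3, Pi.single_eq_same] at h2
    rw [h3]
    by_cases h4 : σ' i ∈ c <;> by_cases h5 : σ' i ∈ c' <;> simp [h4, h5] at h2 ⊢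
  have h1 : σ = σ' := Equiv.ext fun i => (key i).1
  refine ⟨h1, ?_⟩
  ext j
  have := (key (σ.symm j)).2
  simpa using this

/-- The monomial subgroup. -/
def stdSub : Subgroup ↥Co0 where
  carrier := {g | StdP g}
  one_mem' := fun v hv => by rwa [one_smul]
  mul_mem' := by
    intro a b ha hb v hv
    rw [mul_smul]
    have h1 := hb v hv
    exact ha _ h1
  inv_mem' := by
    intro g hg
    obtain ⟨σ, hσ, c, hc, h⟩ := monomial_of_std g hg
    have hg' : g = mono σ c hσ hc := mono_eq_of_act hσ hc h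
    have hc' : (σ⁻¹ • c) ∈ Sup := M24_smul_mem (M24.inv_mem hσ) hc
    have : g⁻¹ = mono σ⁻¹ (σ⁻¹ • c) (M24.inv_mem hσ) hc' := by
      apply inv_eq_of_mul_eq_one_left
      apply Subtype.ext
      ext1 v
      apply Subtype.ext
      change ((mono σ⁻¹ (σ⁻¹ • c) (M24.inv_mem hσ) hc' • (g • v) : leechLattice) : GolayPt → ℤ) = (v : GolayPt → ℤ)
      rw [mono_apply, h]
      exact signedPerm_inv_left σ c _
    change StdP g⁻¹
    rw [this]
    exact mono_stdP _ _ _ _

theorem mem_stdSub {g : ↥Co0} : g ∈ stdSub ↔ StdP g := Iff.rfl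

/-- The parametrisation of the monomial subgroup. -/
noncomputable def monoMap (p : ↥M24 × {c // c ∈ Sup}) : {g : ↥Co0 // StdP g} :=
  ⟨mono p.1 p.2 p.1.2 p.2.2, mono_stdP _ _ _ _⟩

theorem monoMap_bij : Function.Bijective monoMap := by
  constructor
  · rintro ⟨⟨σ, hσ⟩, ⟨c, hc⟩⟩ ⟨⟨σ', hσ'⟩, ⟨c', hc'⟩⟩ h
    have h1 : mono σ c hσ hc = mono σ' c' hσ' hc' := congrArg Subtype.val h
    obtain ⟨rfl, rfl⟩ := mono_inj h1
    rfl
  · rintro ⟨g, hg⟩
    obtain ⟨σ, hσ, c, hc, h⟩ := monomial_of_std g hg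
    exact ⟨(⟨σ, hσ⟩, ⟨c, hc⟩), Subtype.ext (mono_eq_of_act hσ hc h).symm⟩

theorem card_StdP : Nat.card {g : ↥Co0 // StdP g} = 4096 * 244823040 := by
  rw [← Nat.card_congr (Equiv.ofBijective _ monoMap_bij), Nat.card_prod, card_M24]
  have : Nat.card {c // c ∈ Sup} = 4096 := by
    have h := Nat.card_coe_set_eq Sup
    rw [ncard_Sup] at h
    exact h
  rw [this]

theorem card_stdSub : Nat.card stdSub = 4096 * 244823040 := card_StdP

/-- The number of vectors in the standard cross. -/
theorem ncard_stdCross : stdCross.ncard = 48 := by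
  classical
  let F : GolayPt × Bool → (GolayPt → ℤ) := fun p => Pi.single p.1 (if p.2 then 8 else -8)
  have hinj : Function.Injective F := by
    rintro ⟨i, a⟩ ⟨j, b⟩ h
    have h1 := congrFun h i
    simp only [F, Pi.single_eq_same] at h1
    have hij : i = j := by
      by_contra hne
      rw [Pi.single_eq_of_ne hne] at h1
      split_ifs at h1 <;> omega
    subst hij
    simp only [Pi.single_eq_same] at h1
    cases a <;> cases b <;> simp at h1 ⊢
  have h : stdCross = ↑(Finset.univ.image F) := by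
    ext y
    simp only [Finset.coe_image, Finset.coe_univ, Set.image_univ, Set.mem_range]
    constructor
    · rintro ⟨i, s, hs, rfl⟩
      rcases hs with rfl | rfl
      · exact ⟨(i, true), by simp [F]⟩
      · exact ⟨(i, false), by simp [F]⟩
    · rintro ⟨⟨i, a⟩, rfl⟩
      refine ⟨i, _, ?_, rfl⟩
      cases a <;> simp
  rw [h, Set.ncard_coe_finset, Finset.card_image_of_injective _ hinj]
  simp [card_pts]

/-- Transitivity of the monomial group on the standard cross. -/
theorem std_trans (v : leechLattice) (hv : (v : GolayPt → ℤ) ∈ stdCross) : ∃ g ∈ stdSub, g • e8 (pt 0) = v := by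
  obtain ⟨i, s, hs, he⟩ := hv
  obtain ⟨σ, hσ, hσi⟩ := M24_pt_trans (pt 0) i
  have : ∃ c ∈ Sup, (i ∈ c ↔ s = -8) := by
    rcases hs with rfl | rfl
    · exact ⟨∅, sup_empty, by simp⟩
    · exact ⟨Finset.univ, sup_univ, by simp⟩
  obtain ⟨c, hc, hic⟩ := this
  refine ⟨mono σ c hσ hc, mono_stdP _ _ _ _, ?_⟩
  apply Subtype.ext
  rw [mono_apply, e8_coe, signedPerm_single, he, hσi]
  congr 1
  by_cases h : i ∈ c
  · rw [if_pos h, hic.mp h]
  · rw [if_neg h]
    rcases hs with h1 | h1
    · exact h1.symm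
    · exact absurd (hic.mpr h1) h

/-- The stabiliser of a vector of the cross lies in the monomial subgroup. -/
theorem stab_le_std : MulAction.stabilizer ↥Co0 (e8 (pt 0)) ≤ stdSub := by
  intro g hg v hv
  have hfix : g • e8 (pt 0) = e8 (pt 0) := hg
  have hcr : (v : GolayPt → ℤ) ∈ cross (Pi.single (pt 0) 8) := by
    rw [cross_single _ (Or.inl rfl)]
    exact hv
  obtain ⟨h1, h2, z, hz, he⟩ := hcr
  rw [← cross_single (pt 0) (s := 8) (Or.inl rfl)]
  refine ⟨(g • v).2, ?_, ?_⟩
  · rw [sqNorm_smul_Co0, h2]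
  · refine ⟨((g • (⟨z, hz⟩ : leechLattice) : leechLattice) : GolayPt → ℤ), (g • (⟨z, hz⟩ : leechLattice)).2, ?_⟩
    have h3 : e8 (pt 0) - v = (2 : ℕ) • (⟨z, hz⟩ : leechLattice) := Subtype.ext he
    have h4 : g • (e8 (pt 0) - v) = g • ((2 : ℕ) • (⟨z, hz⟩ : leechLattice)) := by rw [h3]
    have h5 : g • (e8 (pt 0) - v) = e8 (pt 0) - g • v := by
      change addHomOf g _ = _
      rw [map_sub, addHomOf_apply, addHomOf_apply, hfix]
    have h6 : g • ((2 : ℕ) • (⟨z, hz⟩ : leechLattice)) = (2 : ℕ) • (g • (⟨z, hz⟩ : leechLattice)) := by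
      change addHomOf g _ = _
      rw [map_nsmul, addHomOf_apply]
    rw [h5, h6] at h4
    exact congrArg Subtype.val h4

/-- The order of the automorphism group of the lattice. -/
theorem card_Co0 : Nat.card ↥Co0 = 8315553613086720000 := by
  classical
  -- orbit on the norm 64 vectors
  have horb : MulAction.orbit ↥Co0 (e8 (pt 0)) = {v : leechLattice | sqNorm (v : GolayPt → ℤ) = 64} := by
    ext v
    constructor
    · rintro ⟨g, rfl⟩
      change sqNorm ((g • e8 (pt 0) : leechLattice) : GolayPt → ℤ) = 64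
      rw [sqNorm_smul_Co0]
      exact stdCross_norm (e8_mem_std _)
    · intro hv
      exact (trans64 (e8 (pt 0)) v (stdCross_norm (e8_mem_std _)) hv)
  have hn : {v : leechLattice | sqNorm (v : GolayPt → ℤ) = 64}.ncard = 398034000 := by
    have h5 := Set.ncard_image_of_injective {v : leechLattice | sqNorm (v : GolayPt → ℤ) = 64}
      (Subtype.val_injective (p := fun x => x ∈ leechLattice))
    have h6 : Subtype.val '' {v : leechLattice | sqNorm (v : GolayPt → ℤ) = 64} =
        {x : GolayPt → ℤ | x ∈ leechLattice ∧ sqNorm x = 64} := by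
      ext x
      constructor
      · rintro ⟨v, hv, rfl⟩
        exact ⟨v.2, hv⟩
      · rintro ⟨h1, h2⟩
        exact ⟨⟨x, h1⟩, h2, rfl⟩
    rw [← h5, h6]
    exact shell64
  have h1 := Subgroup.card_mul_index (MulAction.stabilizer ↥Co0 (e8 (pt 0)))
  rw [MulAction.index_stabilizer, horb, hn] at h1
  -- orbit under the monomial group
  have horb2 : MulAction.orbit stdSub (e8 (pt 0)) = {v : leechLattice | (v : GolayPt → ℤ) ∈ stdCross} := by
    ext v
    constructor
    · rintro ⟨g, rfl⟩
      exact g.2 _ (e8_mem_std _)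
    · intro hv
      obtain ⟨g, hg, he⟩ := std_trans v hv
      exact ⟨⟨g, hg⟩, he⟩
  have hn2 : {v : leechLattice | (v : GolayPt → ℤ) ∈ stdCross}.ncard = 48 := by
    have h5 := Set.ncard_image_of_injective {v : leechLattice | (v : GolayPt → ℤ) ∈ stdCross}
      (Subtype.val_injective (p := fun x => x ∈ leechLattice))
    have h6 : Subtype.val '' {v : leechLattice | (v : GolayPt → ℤ) ∈ stdCross} = stdCross := by
      ext x
      constructor
      · rintro ⟨v, hv, rfl⟩
        exact hv
      · intro h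
        exact ⟨⟨x, stdCross_mem_lattice h⟩, h, rfl⟩
    rw [← h5, h6]
    exact ncard_stdCross
  have h2 := Subgroup.card_mul_index (MulAction.stabilizer stdSub (e8 (pt 0)))
  rw [MulAction.index_stabilizer, horb2, hn2, card_stdSub] at h2
  have h3 : Nat.card (MulAction.stabilizer stdSub (e8 (pt 0))) = Nat.card (MulAction.stabilizer ↥Co0 (e8 (pt 0))) := by
    refine Nat.card_congr ⟨fun a => ⟨a.1.1, a.2⟩, fun b => ⟨⟨b.1, stab_le_std b.2⟩, b.2⟩, fun _ => rfl, fun _ => rfl⟩
  rw [h3] at h2
  have h7 : (4096 * 244823040 : ℕ) = 20891566080 * 48 := by norm_num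
  rw [h7] at h2
  have h4 : Nat.card (MulAction.stabilizer ↥Co0 (e8 (pt 0))) = 20891566080 :=
    Nat.eq_of_mul_eq_mul_right (by norm_num) h2
  rw [h4] at h1
  rw [← h1]

end CfsgLib.Leech
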