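/-
Crosses and congruence classes of the lattice modulo twice itself.
-/
import Cfsg.Agent.Lib.Leech.Frame2

set_option autoImplicit false

namespace CfsgLib.Leech

open Cfsg CfsgLib.Golay
open scoped Pointwise

theorem vecL_R8 : vecL R8 = Pi.single (pt 0) 8 := by
  funext q
  have hq := idx_lt q
  by_cases h : q = pt 0
  · subst h
    rw [Pi.single_eq_same]
    rfl
  · rw [Pi.single_eq_of_ne h]
    have h1 : idx q ≠ 0 := by
      intro h2
      apply h
      rw [← pt_idx q, h2]
    change getI R8 (idx q) = 0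
    generalize idx q = k at hq h1
    revert k
    decide +kernel

/-- Every norm 64 vector moves to the base vector. -/
theorem exists_to_e8 (x : leechLattice) (hN : sqNorm (x : GolayPt → ℤ) = 64) : ∃ g : ↥Co0, g • x = e8 (pt 0) := by
  obtain ⟨g, hg⟩ := moves64 x hN
  refine ⟨g, Subtype.ext ?_⟩
  rw [hg, vecL_R8]
  rfl

/-- A congruence is preserved by an automorphism. -/
theorem smul_congr (g : ↥Co0) {u v z : leechLattice} (h : u - v = (2 : ℕ) • z) : g • u - g • v = (2 : ℕ) • (g • z) := by
  have h4 : g • (u - v) = g • ((2 : ℕ) • z) := by rw [h]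
  have h5 : g • (u - v) = g • u - g • v := by
    change addHomOf g _ = _
    rw [map_sub, addHomOf_apply, addHomOf_apply]
  have h6 : g • ((2 : ℕ) • z) = (2 : ℕ) • (g • z) := by
    change addHomOf g _ = _
    rw [map_nsmul, addHomOf_apply]
  rw [h5, h6] at h4
  exact h4

/-- The cross of a vector of norm 64 has 48 members. -/
theorem ncard_cross (x : GolayPt → ℤ) (hx : x ∈ leechLattice) (hN : sqNorm x = 64) : (cross x).ncard = 48 := by
  classical
  obtain ⟨g, hg⟩ := exists_to_e8 ⟨x, hx⟩ hN
  have key : cross x = (fun v : leechLattice => ((g⁻¹ • v : leechLattice) : GolayPt → ℤ)) '' {v : leechLattice | (v : GolayPt → ℤ) ∈ stdCross} := by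
    ext y
    constructor
    · rintro ⟨hy, hn, z, hz, he⟩
      refine ⟨g • ⟨y, hy⟩, ?_, ?_⟩
      · change ((g • (⟨y, hy⟩ : leechLattice) : leechLattice) : GolayPt → ℤ) ∈ stdCross
        rw [← cross_single (pt 0) (s := 8) (Or.inl rfl)]
        refine ⟨(g • (⟨y, hy⟩ : leechLattice)).2, ?_, ((g • (⟨z, hz⟩ : leechLattice) : leechLattice) : GolayPt → ℤ), (g • (⟨z, hz⟩ : leechLattice)).2, ?_⟩
        · rw [sqNorm_smul_Co0, hn, hN, sqNorm_single]
          norm_num
        · have h1 : (⟨x, hx⟩ : leechLattice) - ⟨y, hy⟩ = (2 : ℕ) • (⟨z, hz⟩ : leechLattice) := Subtype.ext he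
          have h2 := smul_congr g h1
          rw [hg] at h2
          exact congrArg Subtype.val h2
      · simp
    · rintro ⟨v, hv, rfl⟩
      have hv' : (v : GolayPt → ℤ) ∈ cross (Pi.single (pt 0) 8) := by
        rw [cross_single (pt 0) (Or.inl rfl)]
        exact hv
      obtain ⟨h1, h2, z, hz, he⟩ := hv'
      refine ⟨(g⁻¹ • v).2, ?_, ((g⁻¹ • (⟨z, hz⟩ : leechLattice) : leechLattice) : GolayPt → ℤ), (g⁻¹ • (⟨z, hz⟩ : leechLattice)).2, ?_⟩
      · rw [sqNorm_smul_Co0, h2, sqNorm_single, hN]
        norm_num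
      · have h3 : e8 (pt 0) - v = (2 : ℕ) • (⟨z, hz⟩ : leechLattice) := Subtype.ext he
        have h4 := smul_congr g⁻¹ h3
        have h5 : g⁻¹ • e8 (pt 0) = ⟨x, hx⟩ := by
          rw [← hg, inv_smul_smul]
        rw [h5] at h4
        exact congrArg Subtype.val h4
  have hinj : Function.Injective (fun v : leechLattice => ((g⁻¹ • v : leechLattice) : GolayPt → ℤ)) := by
    intro a b h
    exact smul_left_cancel g⁻¹ (Subtype.ext h)
  rw [key, Set.ncard_image_of_injective _ hinj]
  have h5 := Set.ncard_image_of_injective {v : leechLattice | (v : GolayPt → ℤ) ∈ stdCross}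
    (Subtype.val_injective (p := fun x => x ∈ leechLattice))
  have h6 : Subtype.val '' {v : leechLattice | (v : GolayPt → ℤ) ∈ stdCross} = stdCross := by
    ext x
    constructor
    · rintro ⟨v, hv, rfl⟩
      exact hv
    · intro h
      exact ⟨⟨x, stdCross_mem_lattice h⟩, h, rfl⟩
  rw [← h5, h6]
  exact ncard_stdCross

/-- The parallelogram law. -/
theorem sqNorm_add_sub (p q : GolayPt → ℤ) : sqNorm (q + p) + sqNorm (q - p) = 2 * sqNorm p + 2 * sqNorm q := by
  unfold sqNorm
  rw [← Finset.sum_add_distrib, Finset.mul_sum, Finset.mul_sum, ← Finset.sum_add_distrib]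
  refine Finset.sum_congr rfl fun i _ => ?_
  simp only [Pi.add_apply, Pi.sub_apply]
  ring

/-- Short congruent vectors. -/
theorem congr_small {u v z : GolayPt → ℤ} (hu : u ∈ leechLattice) (hv : v ∈ leechLattice) (hz : z ∈ leechLattice)
    (he : u - v = (2 : ℕ) • z) (hs : sqNorm u + sqNorm v < 128) : u = v ∨ u = -v := by
  have hq : z + v ∈ leechLattice := leechLattice.add_mem hz hv
  have h1 : u = (z + v) + z := by
    funext i
    have h2 := congrFun he i
    simp only [Pi.sub_apply, Pi.smul_apply, nsmul_eq_mul, Pi.add_apply] at h2 ⊢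
    push_cast at h2
    linarith
  have h2 : v = (z + v) - z := by
    funext i
    simp
  have h3 := sqNorm_add_sub z (z + v)
  rw [← h1, ← h2] at h3
  by_cases h0 : z = 0
  · left
    rw [h0] at he
    simp only [smul_zero] at he
    exact sub_eq_zero.mp he
  by_cases h0' : z + v = 0
  · right
    have : z = -v := eq_neg_of_add_eq_zero_left h0'
    rw [h1, this]
    simp
  exfalso
  have h4 := thirtytwo_le hz h0
  have h5 := thirtytwo_le hq h0'
  omega

/-- Different norms are not congruent. -/
theorem norm_eq_of_congr {u v z : GolayPt → ℤ} (hu : u ∈ leechLattice) (hv : v ∈ leechLattice) (hz : z ∈ leechLattice)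
    (he : u - v = (2 : ℕ) • z) (hs : sqNorm u + sqNorm v < 128) : sqNorm u = sqNorm v := by
  rcases congr_small hu hv hz he hs with h | h
  · rw [h]
  · rw [h]
    unfold sqNorm
    simp

end CfsgLib.Leech
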