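/-
The index of the lattice in the integer vectors.
-/
import Cfsg.Agent.Lib.Leech.Census

set_option autoImplicit false

namespace CfsgLib.Leech

open Cfsg CfsgLib.Golay

/-- Reduction modulo four. -/
def rho : (GolayPt → ℤ) →+ (GolayPt → ZMod 4) :=
  AddMonoidHom.compLeft (Int.castAddHom (ZMod 4)) GolayPt

theorem rho_apply (x : GolayPt → ℤ) (i : GolayPt) : rho x i = (x i : ZMod 4) := rfl

theorem rho_surjective : Function.Surjective rho := by
  intro y
  refine ⟨fun i => ((y i).val : ℤ), ?_⟩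
  funext i
  simp [rho_apply]

theorem rho_eq_iff {x y : GolayPt → ℤ} : rho x = rho y ↔ ∀ i, x i ≡ y i [ZMOD 4] := by
  rw [funext_iff]
  refine forall_congr' fun i => ?_
  rw [rho_apply, rho_apply]
  exact (ZMod.intCast_eq_intCast_iff _ _ 4)

/-- The vector with parity `m` and codeword `c`, with the sum corrected. -/
def repV (m : ℤ) (c : Finset GolayPt) : GolayPt → ℤ :=
  (fun i => m + 2 * ind c i) + (Pi.single (pt 0) (4 * m) : GolayPt → ℤ)

theorem repV_data {m : ℤ} (hm : m = 0 ∨ m = 1) {c : Finset GolayPt} (hc : c ∈ Sup) : LeechData (repV m c) m c := by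
  refine ⟨hm, hc, fun i => ?_, ?_⟩
  · simp only [repV, Pi.add_apply]
    unfold Int.ModEq
    by_cases h : i = pt 0
    · subst h
      simp only [Pi.single_eq_same]
      omega
    · simp [Pi.single_eq_of_ne h]
  · have h1 : ∑ i, repV m c i = 24 * m + 2 * c.card + 4 * m := by
      simp only [repV, Pi.add_apply, Finset.sum_add_distrib, Finset.sum_pi_single', Finset.mem_univ, if_true]
      rw [← Finset.mul_sum, sum_ind]
      simp [Finset.card_univ, GolayPt, Fintype.card_option]
    rw [h1]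
    obtain ⟨a, ha⟩ := four_dvd_card hc
    rw [ha]
    push_cast
    unfold Int.ModEq
    omega

/-- The image of the lattice modulo four. -/
def HH : AddSubgroup (GolayPt → ZMod 4) := leechLattice.map rho

theorem mem_HH_iff {y : GolayPt → ZMod 4} : y ∈ HH ↔ ∃ p ∈ PP, y = rho (fun i => p.1 + 2 * ind (fs p.2) i) := by
  constructor
  · rintro ⟨x, hx, rfl⟩
    obtain ⟨m, c, h⟩ := mem_leech_iff.mp hx
    obtain ⟨a, ha, rfl⟩ := (mem_supports_iff c).mp h.hc
    refine ⟨(m, a), ?_, rho_eq_iff.mpr h.h4⟩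
    refine List.mem_flatMap.mpr ⟨m, ?_, List.mem_map.mpr ⟨a, ha, rfl⟩⟩
    simpa using h.hm
  · rintro ⟨p, hp, rfl⟩
    obtain ⟨m, hm, hq⟩ := List.mem_flatMap.mp hp
    obtain ⟨a, ha, rfl⟩ := List.mem_map.mp hq
    have hm' : m = 0 ∨ m = 1 := by simpa using hm
    have hd := repV_data hm' (fs_mem_supports ha)
    refine ⟨repV m (fs a), mem_leech_iff.mpr ⟨m, _, hd⟩, rho_eq_iff.mpr hd.h4⟩

theorem card_HH : Nat.card HH = 8192 := by
  classical
  have hinj : Set.InjOn (fun p : ℤ × ℕ => rho (fun i => p.1 + 2 * ind (fs p.2) i)) (↑PP.toFinset : Set (ℤ × ℕ)) := by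
    intro p hp q hq he
    have hp' : p ∈ PP := by simpa using hp
    have hq' : q ∈ PP := by simpa using hq
    obtain ⟨m, hm, hq1⟩ := List.mem_flatMap.mp hp'
    obtain ⟨a, ha, rfl⟩ := List.mem_map.mp hq1
    obtain ⟨n, hn, hq2⟩ := List.mem_flatMap.mp hq'
    obtain ⟨b, hb, rfl⟩ := List.mem_map.mp hq2
    have hm' : m = 0 ∨ m = 1 := by simpa using hm
    have hn' : n = 0 ∨ n = 1 := by simpa using hn
    have h1 := rho_eq_iff.mp he
    have hmn : m = n := by
      have h2 := h1 (pt 0)
      simp only at h2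
      have h3 := ind_cases (fs a) (pt 0)
      have h4 := ind_cases (fs b) (pt 0)
      unfold Int.ModEq at h2
      rcases hm' with rfl | rfl <;> rcases hn' with rfl | rfl <;>
        rcases h3 with h3 | h3 <;> rcases h4 with h4 | h4 <;> rw [h3, h4] at h2 <;> omega
    subst hmn
    have hab : fs a = fs b := by
      ext i
      have h2 := h1 i
      simp only at h2
      unfold ind at h2
      unfold Int.ModEq at h2
      by_cases h3 : i ∈ fs a <;> by_cases h4 : i ∈ fs b <;> simp only [h3, h4, if_true, if_false] at h2 ⊢ <;> omega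
    rw [eq_of_fs_eq (allCode_lt_aux a ha) (allCode_lt_aux b hb) hab]
  have h1 : (HH : Set (GolayPt → ZMod 4)) =
      (fun p : ℤ × ℕ => rho (fun i => p.1 + 2 * ind (fs p.2) i)) '' (↑PP.toFinset : Set (ℤ × ℕ)) := by
    ext y
    simp only [SetLike.mem_coe, mem_HH_iff, Set.mem_image, List.coe_toFinset, Set.mem_ofPred_eq]
    constructor
    · rintro ⟨p, hp, rfl⟩
      exact ⟨p, hp, rfl⟩
    · rintro ⟨p, hp, rfl⟩
      exact ⟨p, hp, rfl⟩
  change Nat.card ↥(HH : Set (GolayPt → ZMod 4)) = 8192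
  rw [Nat.card_coe_set_eq, h1, hinj.ncard_image, Set.ncard_coe_finset, List.toFinset_card_of_nodup PP_nodup]
  decide +kernel

/-- The lattice together with the vectors congruent to lattice vectors modulo four. -/
def AA : AddSubgroup (GolayPt → ℤ) := HH.comap rho

theorem index_AA : AA.index = 2 ^ 35 := by
  unfold AA
  rw [AddSubgroup.index_comap_of_surjective _ rho_surjective]
  have h1 := HH.card_mul_index
  rw [card_HH] at h1
  have h2 : Nat.card (GolayPt → ZMod 4) = 2 ^ 48 := by
    rw [Nat.card_eq_fintype_card, Fintype.card_fun, ZMod.card]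
    simp [GolayPt, Fintype.card_option]
  rw [h2] at h1
  omega

theorem mem_AA_iff {x : GolayPt → ℤ} : x ∈ AA ↔ ∃ y ∈ leechLattice, ∀ i, x i ≡ y i [ZMOD 4] := by
  constructor
  · rintro ⟨y, hy, h⟩
    exact ⟨y, hy, rho_eq_iff.mp h.symm⟩
  · rintro ⟨y, hy, h⟩
    exact ⟨y, hy, rho_eq_iff.mpr fun i => (h i).symm⟩

theorem leech_le_AA : leechLattice ≤ AA := fun x hx => mem_AA_iff.mpr ⟨x, hx, fun _ => Int.ModEq.refl _⟩

theorem relIndex_two : leechLattice.relIndex AA = 2 := by
  let a : ↥AA := ⟨(Pi.single (pt 0) 4 : GolayPt → ℤ), mem_AA_iff.mpr ⟨0, AddSubgroup.zero_mem _, fun i => by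
    unfold Int.ModEq
    by_cases h : i = pt 0
    · subst h; simp
    · simp [Pi.single_eq_of_ne h]⟩⟩
  unfold AddSubgroup.relIndex
  rw [AddSubgroup.index_eq_two_iff]
  refine ⟨a, fun b => ?_⟩
  obtain ⟨b, hb⟩ := b
  obtain ⟨y, hy, hby⟩ := mem_AA_iff.mp hb
  obtain ⟨m, c, h⟩ := mem_leech_iff.mp hy
  have hc4 : ∀ i, b i ≡ m + 2 * ind c i [ZMOD 4] := fun i => (hby i).trans (h.h4 i)
  -- the sum of b modulo four
  have hs4 : (∑ i, b i) % 4 = 0 := by
    have h1 : (4 : ℤ) ∣ ∑ i, (y i - b i) := Finset.dvd_sum fun i _ => (hby i).dvd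
    rw [Finset.sum_sub_distrib] at h1
    have h2 := h.h8
    unfold Int.ModEq at h2
    omega
  have hiff : ∀ z : GolayPt → ℤ, (∀ i, z i ≡ m + 2 * ind c i [ZMOD 4]) →
      (z ∈ leechLattice ↔ ∑ i, z i ≡ 4 * m [ZMOD 8]) := by
    intro z hz
    constructor
    · intro hzm
      obtain ⟨n, d, hd⟩ := mem_leech_iff.mp hzm
      have h1 : n = m ∧ d = c := by
        have h2 : n = m := by
          have h3 := hd.h4 (pt 0)
          have h4 := hz (pt 0)
          have h5 := ind_cases c (pt 0)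
          have h6 := ind_cases d (pt 0)
          unfold Int.ModEq at h3 h4
          rcases h.hm with rfl | rfl <;> rcases hd.hm with rfl | rfl <;>
            rcases h5 with h5 | h5 <;> rcases h6 with h6 | h6 <;> rw [h5] at h4 <;> rw [h6] at h3 <;> omega
        refine ⟨h2, ?_⟩
        subst h2
        ext i
        have h3 := hd.h4 i
        have h4 := hz i
        unfold ind at h3 h4
        unfold Int.ModEq at h3 h4
        by_cases h5 : i ∈ c <;> by_cases h6 : i ∈ d <;> simp only [h5, h6, if_true, if_false] at h3 h4 ⊢ <;> omega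
      rw [← h1.1]
      exact hd.h8
    · intro hs
      exact mem_leech_iff.mpr ⟨m, c, h.hm, h.hc, hz, hs⟩
  have hsum : ∑ i, (b + (Pi.single (pt 0) 4 : GolayPt → ℤ)) i = ∑ i, b i + 4 := by
    simp only [Pi.add_apply, Finset.sum_add_distrib, Finset.sum_pi_single', Finset.mem_univ, if_true]
  have hz' : ∀ i, (b + (Pi.single (pt 0) 4 : GolayPt → ℤ)) i ≡ m + 2 * ind c i [ZMOD 4] := by
    intro i
    have h1 := hc4 i
    simp only [Pi.add_apply]
    unfold Int.ModEq at h1 ⊢
    by_cases h2 : i = pt 0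
    · subst h2
      simp only [Pi.single_eq_same]
      omega
    · simp only [Pi.single_eq_of_ne h2, add_zero]
      exact h1
  simp only [AddSubgroup.mem_addSubgroupOf, AddSubgroup.coe_add]
  change Xor ((b + (Pi.single (pt 0) 4 : GolayPt → ℤ)) ∈ leechLattice) (b ∈ leechLattice)
  rw [hiff _ hz', hiff _ hc4, hsum]
  unfold Int.ModEq
  unfold Xor
  rcases h.hm with rfl | rfl <;> omega

theorem leech_index : leechLattice.index = 2 ^ 36 := by
  rw [← AddSubgroup.relIndex_mul_index leech_le_AA, relIndex_two, index_AA]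
  norm_num

end CfsgLib.Leech
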