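/-
The shapes of the lattice vectors of norm 48.
-/
import Cfsg.Agent.Lib.Leech.Shells

set_option autoImplicit false

namespace CfsgLib.Leech

open Cfsg CfsgLib.Golay

/-- Shape `(2^12, 0^12)`. -/
def Qa (v : ℤ) : Bool := decide (v = 0 ∨ v = 2 ∨ v = -2)

/-- Odd with absolute value at most three. -/
def Qb (v : ℤ) : Bool := decide (v = 1 ∨ v = -1 ∨ v = 3 ∨ v = -3)

/-- No coordinate of absolute value four. -/
def Qc (v : ℤ) : Bool := decide (|v| ≠ 4)

/-- No coordinate of absolute value five. -/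
def Qd (v : ℤ) : Bool := decide (|v| ≠ 5)

theorem shape_a : {x : GolayPt → ℤ | x ∈ leechLattice ∧ sqNorm x = 48 ∧ ∀ i, x i = 0 ∨ x i = 2 ∨ x i = -2}.ncard = 5275648 := by
  have h := census Qa (N := 48) (R := 5275648) (by norm_num) (tblOf 0 0 2048 0 0 0) (by decide +kernel) (by decide +kernel)
  simpa [Qa] using h

theorem count_b : {x : GolayPt → ℤ | x ∈ leechLattice ∧ sqNorm x = 48 ∧ ∀ i, Qb (x i) = true}.ncard = 8290304 := by
  have h := census Qb (N := 48) (R := 8290304) (by norm_num) (tblOf 0 0 0 0 0 2024) (by decide +kernel) (by decide +kernel)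
  simpa using h

theorem count_c : {x : GolayPt → ℤ | x ∈ leechLattice ∧ sqNorm x = 48 ∧ ∀ i, Qc (x i) = true}.ncard = 13664256 := by
  have h := census Qc (N := 48) (R := 13664256) (by norm_num) (tblOf 0 0 2048 0 0 2048) (by decide +kernel) (by decide +kernel)
  simpa using h

theorem count_d : {x : GolayPt → ℤ | x ∈ leechLattice ∧ sqNorm x = 48 ∧ ∀ i, Qd (x i) = true}.ncard = 16674816 := by
  have h := census Qd (N := 48) (R := 16674816) (by norm_num) (tblOf 0 4096 2048 0 0 2024) (by decide +kernel) (by decide +kernel)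
  simpa using h

theorem finite_shell (N : ℕ) (hN : N ≤ 64) : {x : GolayPt → ℤ | x ∈ leechLattice ∧ sqNorm x = N}.Finite := by
  have h1 : {x : GolayPt → ℤ | x ∈ leechLattice ∧ sqNorm x = N} ⊆ Set.pi Set.univ fun _ => Set.Icc (-8 : ℤ) 8 := by
    rintro x ⟨-, h⟩ i -
    exact sq_le_of_sum hN h i
  exact (Set.Finite.pi fun _ => Set.finite_Icc (-8 : ℤ) 8).subset h1

/-- Counting the complement of a shape inside the shell of norm 48. -/
theorem count_compl (Q : ℤ → Bool) {n : ℕ} (hn : {x : GolayPt → ℤ | x ∈ leechLattice ∧ sqNorm x = 48 ∧ ∀ i, Q (x i) = true}.ncard = n) :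
    {x : GolayPt → ℤ | x ∈ leechLattice ∧ sqNorm x = 48 ∧ ∃ i, Q (x i) = false}.ncard = 16773120 - n := by
  have hfin : {x : GolayPt → ℤ | x ∈ leechLattice ∧ sqNorm x = 48}.Finite := by
    simpa using finite_shell 48 (by norm_num)
  have h1 : {x : GolayPt → ℤ | x ∈ leechLattice ∧ sqNorm x = 48 ∧ ∃ i, Q (x i) = false} =
      {x : GolayPt → ℤ | x ∈ leechLattice ∧ sqNorm x = 48} \ {x : GolayPt → ℤ | x ∈ leechLattice ∧ sqNorm x = 48 ∧ ∀ i, Q (x i) = true} := by
    ext x
    simp only [Set.mem_ofPred_eq, Set.mem_sdiff, not_and, not_forall, Bool.not_eq_true]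
    constructor
    · rintro ⟨h2, h3, h4⟩
      exact ⟨⟨h2, h3⟩, fun _ _ => h4⟩
    · rintro ⟨⟨h2, h3⟩, h4⟩
      exact ⟨h2, h3, h4 h2 h3⟩
  have hsub : {x : GolayPt → ℤ | x ∈ leechLattice ∧ sqNorm x = 48 ∧ ∀ i, Q (x i) = true} ⊆
      {x : GolayPt → ℤ | x ∈ leechLattice ∧ sqNorm x = 48} := fun x hx => ⟨hx.1, hx.2.1⟩
  rw [h1, Set.ncard_sdiff hsub (hfin.subset hsub), shell48, hn]

/-- The two shapes of odd vectors of norm 48. -/
theorem shape_d : {x : GolayPt → ℤ | x ∈ leechLattice ∧ sqNorm x = 48 ∧ ∃ i, |x i| = 5}.ncard = 98304 := by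
  have h := count_compl Qd count_d
  simpa [Qd] using h

theorem shape_c : {x : GolayPt → ℤ | x ∈ leechLattice ∧ sqNorm x = 48 ∧ ∃ i, |x i| = 4}.ncard = 3108864 := by
  have h := count_compl Qc count_c
  simpa [Qc] using h

theorem shape_b : {x : GolayPt → ℤ | x ∈ leechLattice ∧ sqNorm x = 48 ∧
    ∃ i j k, i ≠ j ∧ j ≠ k ∧ i ≠ k ∧ |x i| = 3 ∧ |x j| = 3 ∧ |x k| = 3}.ncard = 8290304 := by
  rw [← count_b]
  congr 1
  ext x
  simp only [Set.mem_ofPred_eq]
  refine and_congr_right fun hx => and_congr_right fun hn => ?_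
  obtain ⟨m, c, h⟩ := mem_leech_iff.mp hx
  have hpar : ∀ i, (x i) % 2 = m % 2 := by
    intro i
    have h1 := h.h4 i
    unfold Int.ModEq at h1
    omega
  constructor
  · rintro ⟨i, j, k, hij, hjk, hik, hi, hj, hk⟩
    have hm1 : m % 2 = 1 := by
      rw [← hpar i]
      rcases abs_cases (x i) with ⟨h1, -⟩ | ⟨h1, -⟩ <;> omega
    have hsq : ∀ l, 1 ≤ x l ^ 2 := by
      intro l
      have h1 := hpar l
      have h2 : x l ≠ 0 := by omega
      have h3 : 1 ≤ |x l| := Int.one_le_abs h2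
      nlinarith [sq_abs (x l), abs_nonneg (x l)]
    intro l
    have hl := hpar l
    by_contra hq
    have hq' : ¬ (x l = 1 ∨ x l = -1 ∨ x l = 3 ∨ x l = -3) := by simpa [Qb] using hq
    have hl5 : 25 ≤ x l ^ 2 := by
      have h3 : 5 ≤ |x l| := by
        by_contra h4
        have h5 : |x l| < 5 := by omega
        have h6 := abs_lt.mp h5
        apply hq'
        omega
      nlinarith [sq_abs (x l), abs_nonneg (x l)]
    have hli : l ≠ i := fun he => by
      subst he
      have := sq_abs (x l)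
      rw [hi] at this
      omega
    have hlj : l ≠ j := fun he => by
      subst he
      have := sq_abs (x l)
      rw [hj] at this
      omega
    have hlk : l ≠ k := fun he => by
      subst he
      have := sq_abs (x l)
      rw [hk] at this
      omega
    have h3 : ∑ t ∈ ({i, j, k, l} : Finset GolayPt), x t ^ 2 ≤ sqNorm x := le_sqNorm x _
    rw [Finset.sum_insert (by simp [hij, hik, hli.symm]), Finset.sum_insert (by simp [hjk, hlj.symm]),
      Finset.sum_insert (by simp [hlk.symm]), Finset.sum_singleton] at h3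
    have h4 : x i ^ 2 = 9 := by rw [← sq_abs, hi]; norm_num
    have h5 : x j ^ 2 = 9 := by rw [← sq_abs, hj]; norm_num
    have h6 : x k ^ 2 = 9 := by rw [← sq_abs, hk]; norm_num
    omega
  · intro hq
    have hq' : ∀ i, x i = 1 ∨ x i = -1 ∨ x i = 3 ∨ x i = -3 := fun i => by simpa [Qb] using hq i
    let F : Finset GolayPt := Finset.univ.filter fun i => |x i| = 3
    have h1 : ∀ i, x i ^ 2 = 1 + 8 * ind F i := by
      intro i
      have h2 : i ∈ F ↔ |x i| = 3 := by simp [F]
      unfold ind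
      rcases hq' i with h3 | h3 | h3 | h3 <;> rw [h3] at h2 ⊢ <;> simp at h2 <;> simp [h2]
    have h2 : sqNorm x = 24 + 8 * F.card := by
      unfold sqNorm
      simp only [h1]
      rw [Finset.sum_add_distrib, ← Finset.mul_sum, sum_ind]
      simp [Finset.card_univ, GolayPt, Fintype.card_option]
    have h3 : F.card = 3 := by omega
    obtain ⟨i, j, k, hij, hik, hjk, hF⟩ := Finset.card_eq_three.mp h3
    have hmem : ∀ l ∈ F, |x l| = 3 := fun l hl => by simpa [F] using hl
    exact ⟨i, j, k, hij, hjk, hik, hmem i (by simp [hF]), hmem j (by simp [hF]), hmem k (by simp [hF])⟩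

end CfsgLib.Leech
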