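/-
Every class of the lattice modulo twice itself has a short representative.
-/
import Cfsg.Agent.Lib.Leech.Frame3
import Cfsg.Agent.Lib.Leech.Index
import Cfsg.Agent.Lib.Leech.Shape48

set_option autoImplicit false

namespace CfsgLib.Leech

open Cfsg CfsgLib.Golay
open scoped Pointwise

/-- Doubling. -/
def dbl : (GolayPt → ℤ) →+ (GolayPt → ℤ) := nsmulAddMonoidHom 2

theorem dbl_apply (x : GolayPt → ℤ) : dbl x = (2 : ℕ) • x := rfl

theorem dbl_inj : Function.Injective dbl := by
  intro a b h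
  funext i
  have h1 : ((2 : ℕ) • a) i = ((2 : ℕ) • b) i := congrFun h i
  rw [Pi.smul_apply, Pi.smul_apply, nsmul_eq_mul, nsmul_eq_mul] at h1
  push_cast at h1
  omega

/-- Twice the lattice. -/
def DD : AddSubgroup (GolayPt → ℤ) := leechLattice.map dbl

theorem mem_DD {x : GolayPt → ℤ} : x ∈ DD ↔ ∃ z ∈ leechLattice, x = (2 : ℕ) • z := by
  constructor
  · rintro ⟨z, hz, rfl⟩
    exact ⟨z, hz, rfl⟩
  · rintro ⟨z, hz, rfl⟩
    exact ⟨z, hz, rfl⟩

theorem DD_le : DD ≤ leechLattice := by
  intro x hx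
  obtain ⟨z, hz, rfl⟩ := mem_DD.mp hx
  exact leechLattice.nsmul_mem hz 2

/-- Reduction modulo two. -/
def mod2 : (GolayPt → ℤ) →+ (GolayPt → ZMod 2) :=
  AddMonoidHom.mk' (fun x i => (x i : ZMod 2)) (by intro a b; funext i; simp)

theorem mod2_surj : Function.Surjective mod2 := by
  intro y
  refine ⟨fun i => ((y i).val : ℤ), ?_⟩
  funext i
  simp [mod2]

theorem mod2_ker : mod2.ker = dbl.range := by
  ext x
  rw [AddMonoidHom.mem_ker, AddMonoidHom.mem_range]
  constructor
  · intro h
    have h2 : ∀ i, (2 : ℤ) ∣ x i := fun i => by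
      have := congrFun h i
      exact (ZMod.intCast_zmod_eq_zero_iff_dvd _ 2).mp this
    choose z hz using h2
    refine ⟨z, ?_⟩
    funext i
    change ((2 : ℕ) • z) i = x i
    rw [Pi.smul_apply, nsmul_eq_mul, hz i]
    push_cast
    rfl
  · rintro ⟨z, rfl⟩
    funext i
    change ((((2 : ℕ) • z) i : ℤ) : ZMod 2) = 0
    rw [Pi.smul_apply, nsmul_eq_mul]
    push_cast
    have h2 : (2 : ZMod 2) = 0 := rfl
    rw [h2, zero_mul]

theorem index_range_dbl : dbl.range.index = 2 ^ 24 := by
  rw [← mod2_ker, AddSubgroup.index_ker, AddMonoidHom.range_eq_top.mpr mod2_surj]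
  have h : Nat.card (⊤ : AddSubgroup (GolayPt → ZMod 2)) = Nat.card (GolayPt → ZMod 2) := Nat.card_congr AddSubgroup.topEquiv.toEquiv
  change Nat.card (⊤ : AddSubgroup (GolayPt → ZMod 2)) = _
  rw [h]
  rw [Nat.card_eq_fintype_card]
  simp [card_pts, ZMod.card]

theorem index_DD : DD.index = 2 ^ 36 * 2 ^ 24 := by
  have h := AddSubgroup.index_map (H := leechLattice) dbl
  have hk : dbl.ker = ⊥ := (AddMonoidHom.ker_eq_bot_iff _).mpr dbl_inj
  rw [hk, sup_bot_eq, leech_index, index_range_dbl] at h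
  exact h

theorem relIndex_DD : DD.relIndex leechLattice = 2 ^ 24 := by
  have h := AddSubgroup.relIndex_mul_index DD_le
  rw [index_DD, leech_index] at h
  have h1 : DD.relIndex leechLattice * 2 ^ 36 = 2 ^ 24 * 2 ^ 36 := by
    rw [h]
    ring
  exact Nat.eq_of_mul_eq_mul_right (by norm_num) h1

/-- The quotient of the lattice by twice the lattice. -/
abbrev QQ : Type := leechLattice ⧸ DD.addSubgroupOf leechLattice

theorem card_QQ : Nat.card QQ = 2 ^ 24 := relIndex_DD

/-- The quotient map. -/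
def mkQ (v : leechLattice) : QQ := QuotientAddGroup.mk v

theorem mkQ_eq_iff {u v : leechLattice} : mkQ u = mkQ v ↔
    ∃ z ∈ leechLattice, (u : GolayPt → ℤ) - (v : GolayPt → ℤ) = (2 : ℕ) • z := by
  unfold mkQ
  rw [eq_comm, QuotientAddGroup.eq, AddSubgroup.mem_addSubgroupOf, mem_DD]
  constructor
  · rintro ⟨z, hz, he⟩
    refine ⟨z, hz, ?_⟩
    rw [← he]
    simp [sub_eq_add_neg, add_comm]
  · rintro ⟨z, hz, he⟩
    refine ⟨z, hz, ?_⟩
    rw [← he]
    simp [sub_eq_add_neg, add_comm]

theorem finite_shellL (N : ℕ) (hN : N ≤ 64) : {v : leechLattice | sqNorm (v : GolayPt → ℤ) = N}.Finite := by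
  have h := finite_shell N hN
  refine Set.Finite.of_injOn (f := Subtype.val) (t := {x : GolayPt → ℤ | x ∈ leechLattice ∧ sqNorm x = N}) ?_ ?_ h
  · intro v hv
    exact ⟨v.2, hv⟩
  · intro a _ b _ hab
    exact Subtype.ext hab

theorem ncard_shellL (N : ℕ) (hN : N ≤ 64) : {v : leechLattice | sqNorm (v : GolayPt → ℤ) = N}.ncard =
    {x : GolayPt → ℤ | x ∈ leechLattice ∧ sqNorm x = N}.ncard := by
  have h5 := Set.ncard_image_of_injective {v : leechLattice | sqNorm (v : GolayPt → ℤ) = N}
    (Subtype.val_injective (p := fun x => x ∈ leechLattice))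
  have h6 : Subtype.val '' {v : leechLattice | sqNorm (v : GolayPt → ℤ) = N} =
      {x : GolayPt → ℤ | x ∈ leechLattice ∧ sqNorm x = N} := by
    ext x
    constructor
    · rintro ⟨v, hv, rfl⟩
      exact ⟨v.2, hv⟩
    · rintro ⟨h1, h2⟩
      exact ⟨⟨x, h1⟩, h2, rfl⟩
  rw [← h5, h6]

open Classical in
/-- The shells as finite sets. -/
noncomputable def shF (N : ℕ) (hN : N ≤ 64) : Finset leechLattice := (finite_shellL N hN).toFinset

theorem mem_shF {N : ℕ} {hN : N ≤ 64} {v : leechLattice} : v ∈ shF N hN ↔ sqNorm (v : GolayPt → ℤ) = N := by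
  classical
  simp [shF]

theorem card_shF (N : ℕ) (hN : N ≤ 64) : (shF N hN).card = {x : GolayPt → ℤ | x ∈ leechLattice ∧ sqNorm x = N}.ncard := by
  classical
  rw [← ncard_shellL N hN, Set.ncard_eq_toFinset_card _ (finite_shellL N hN)]
  rfl

open Classical in
theorem image_two {N : ℕ} (hN : N ≤ 64) (h2 : N < 64) : (shF N hN).card ≤ 2 * ((shF N hN).image mkQ).card := by
  apply Finset.card_le_mul_card_image
  intro q hq
  obtain ⟨v, hv, rfl⟩ := Finset.mem_image.mp hq
  have h1 : (shF N hN).filter (fun x => mkQ x = mkQ v) ⊆ {v, -v} := by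
    intro w hw
    obtain ⟨h3, h4⟩ := Finset.mem_filter.mp hw
    obtain ⟨z, hz, he⟩ := mkQ_eq_iff.mp h4
    rw [mem_shF] at h3 hv
    rcases congr_small w.2 v.2 hz he (by omega) with h5 | h5
    · simp [Subtype.ext h5]
    · have : w = -v := Subtype.ext h5
      simp [this]
  exact (Finset.card_le_card h1).trans Finset.card_le_two

open Classical in
theorem image_48 : (shF 64 le_rfl).card ≤ 48 * ((shF 64 le_rfl).image mkQ).card := by
  apply Finset.card_le_mul_card_image
  intro q hq
  obtain ⟨v, hv, rfl⟩ := Finset.mem_image.mp hq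
  rw [mem_shF] at hv
  have hfin : (cross (v : GolayPt → ℤ)).Finite := by
    apply Set.finite_of_ncard_ne_zero
    rw [ncard_cross _ v.2 (by exact_mod_cast hv)]
    norm_num
  have h1 : (((shF 64 le_rfl).filter (fun x => mkQ x = mkQ v)).image Subtype.val : Set (GolayPt → ℤ)) ⊆ cross (v : GolayPt → ℤ) := by
    intro y hy
    simp only [Finset.coe_image, Set.mem_image, Finset.mem_coe, Finset.mem_filter] at hy
    obtain ⟨w, ⟨h3, h4⟩, rfl⟩ := hy
    rw [mem_shF] at h3
    obtain ⟨z, hz, he⟩ := mkQ_eq_iff.mp h4.symm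
    exact ⟨w.2, by rw [h3, hv], z, hz, he⟩
  have h2 := Set.ncard_le_ncard h1 hfin
  rw [Set.ncard_coe_finset, ncard_cross _ v.2 (by exact_mod_cast hv), Finset.card_image_of_injective _ Subtype.val_injective] at h2
  exact h2

open Classical in
theorem image_disj {N M : ℕ} (hN : N ≤ 64) (hM : M ≤ 64) (hlt : N < M) :
    Disjoint ((shF N hN).image mkQ) ((shF M hM).image mkQ) := by
  rw [Finset.disjoint_left]
  intro q h1 h2
  obtain ⟨u, hu, rfl⟩ := Finset.mem_image.mp h1
  obtain ⟨v, hv, h3⟩ := Finset.mem_image.mp h2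
  rw [mem_shF] at hu hv
  obtain ⟨z, hz, he⟩ := mkQ_eq_iff.mp h3
  have := norm_eq_of_congr v.2 u.2 hz he (by omega)
  omega

open Classical in
/-- Every class has a short representative. -/
theorem exists_short (x : leechLattice) : ∃ y : leechLattice, sqNorm (y : GolayPt → ℤ) ≤ 64 ∧ mkQ x = mkQ y := by
  have hfinQ : Finite QQ := Nat.finite_of_card_ne_zero (by rw [card_QQ]; norm_num)
  let instQ : Fintype QQ := Fintype.ofFinite QQ
  let I := fun N hN => (shF N hN).image mkQ
  have hI0 : 1 ≤ (I 0 (by norm_num)).card := by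
    apply Finset.card_pos.mpr
    refine ⟨_, Finset.mem_image.mpr ⟨0, mem_shF.mpr ?_, rfl⟩⟩
    simp [sqNorm]
  have hI32 : 98280 ≤ (I 32 (by norm_num)).card := by
    have h1 := image_two (N := 32) (by norm_num) (by norm_num)
    have h2 : (shF 32 (by norm_num)).card = 196560 := by
      rw [card_shF]
      exact shell32
    rw [h2] at h1
    change _ ≤ 2 * (I 32 (by norm_num)).card at h1
    omega
  have hI48 : 8386560 ≤ (I 48 (by norm_num)).card := by
    have h1 := image_two (N := 48) (by norm_num) (by norm_num)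
    have h2 : (shF 48 (by norm_num)).card = 16773120 := by
      rw [card_shF]
      exact shell48
    rw [h2] at h1
    change _ ≤ 2 * (I 48 (by norm_num)).card at h1
    omega
  have hI64 : 8292375 ≤ (I 64 le_rfl).card := by
    have h1 := image_48
    have h2 : (shF 64 le_rfl).card = 398034000 := by
      rw [card_shF]
      exact shell64
    rw [h2] at h1
    change _ ≤ 48 * (I 64 le_rfl).card at h1
    omega
  let U := I 0 (by norm_num) ∪ (I 32 (by norm_num) ∪ (I 48 (by norm_num) ∪ I 64 le_rfl))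
  have hU : U.card = (I 0 (by norm_num)).card + ((I 32 (by norm_num)).card + ((I 48 (by norm_num)).card + (I 64 le_rfl).card)) := by
    rw [Finset.card_union_of_disjoint, Finset.card_union_of_disjoint, Finset.card_union_of_disjoint]
    · exact image_disj _ _ (by norm_num)
    · rw [Finset.disjoint_union_right]
      exact ⟨image_disj _ _ (by norm_num), image_disj _ _ (by norm_num)⟩
    · rw [Finset.disjoint_union_right, Finset.disjoint_union_right]
      exact ⟨image_disj _ _ (by norm_num), image_disj _ _ (by norm_num), image_disj _ _ (by norm_num)⟩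
  have hc : Fintype.card QQ = 2 ^ 24 := by
    rw [← Nat.card_eq_fintype_card, card_QQ]
  have hU2 : U = Finset.univ := by
    apply Finset.eq_univ_of_card
    apply le_antisymm (Finset.card_le_univ _)
    rw [hc, hU]
    norm_num
    omega
  have hx : mkQ x ∈ U := by
    rw [hU2]
    exact Finset.mem_univ _
  simp only [U, I, Finset.mem_union, Finset.mem_image] at hx
  rcases hx with ⟨y, hy, he⟩ | ⟨y, hy, he⟩ | ⟨y, hy, he⟩ | ⟨y, hy, he⟩
  all_goals
    rw [mem_shF] at hy
    refine ⟨y, by rw [hy]; norm_num, he.symm⟩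

/-- The short representative in terms of vectors. -/
theorem exists_short_vec (x : GolayPt → ℤ) (hx : x ∈ leechLattice) :
    ∃ y ∈ leechLattice, sqNorm y ≤ 64 ∧ ∃ z ∈ leechLattice, x - y = (2 : ℕ) • z := by
  obtain ⟨y, h1, h2⟩ := exists_short ⟨x, hx⟩
  exact ⟨y, y.2, h1, mkQ_eq_iff.mp h2⟩

end CfsgLib.Leech
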