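/-
The invariant quadratic form on the lattice modulo twice itself.
-/
import Cfsg.Agent.Lib.Leech.Module2

set_option autoImplicit false
set_option maxRecDepth 100000

namespace CfsgLib.Leech

open Cfsg CfsgLib.Golay

/-- Coordinatewise sum of lists. -/
def addL (a b : List ℤ) : List ℤ := (List.range 24).map fun i => getI a i + getI b i

theorem vecL_addL (a b : List ℤ) : vecL (addL a b) = vecL a + vecL b := by
  funext q
  have h1 : vecL (addL a b) q = getI (addL a b) (idx q) := rfl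
  rw [h1]
  unfold addL
  rw [getI_range_map _ (idx_lt q)]
  rfl

theorem addL_mem {a b : List ℤ} (ha : vecL a ∈ leechLattice) (hb : vecL b ∈ leechLattice) :
    vecL (addL a b) ∈ leechLattice := by
  rw [vecL_addL]
  exact leechLattice.add_mem ha hb

def qA1 : List ℤ := [0, 0, 0, 0, -2, 0, -2, 0, 0, 2, 0, 0, 2, 2, 0, -2, 0, 0, 2, -2, 0, 0, 0, 0]
def qA2 : List ℤ := [0, 2, 0, 0, 2, 0, 0, 0, 0, 2, 0, 2, 0, -2, 0, 0, 0, -2, 0, -2, 0, 0, -2, 0]
def qA3 : List ℤ := [-2, 0, 0, 2, 0, -2, 0, 0, 0, 0, 0, 0, 0, 0, 0, 0, 2, 2, -2, 2, -2, 0, 0, 0]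
def qC1 : List ℤ := [0, 0, 0, 0, 0, 0, 0, 0, 0, 0, 0, 0, 0, 0, 4, 0, 0, 0, 0, 0, -4, 0, 0, 0]
def qC2 : List ℤ := [0, 0, 0, 0, 0, 0, 0, 0, 4, 0, 0, 0, 0, 0, 0, 0, 0, 0, 0, 0, 0, 0, -4, 0]
def qC3 : List ℤ := [0, 0, 0, 0, 0, 0, 4, 0, -4, 0, 0, 0, 0, 0, 0, 0, 0, 0, 0, 0, 0, 0, 0, 0]

theorem dvd_dot {x y : GolayPt → ℤ} (hx : x ∈ leechLattice) (hy : y ∈ leechLattice) : (8 : ℤ) ∣ dotInt x y := by
  have h1 := sixteen_dvd_sqNorm (leechLattice.add_mem hx hy)
  have h2 := sixteen_dvd_sqNorm hx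
  have h3 := sixteen_dvd_sqNorm hy
  have h4 : sqNorm (x + y) = sqNorm x + sqNorm y + 2 * dotInt x y := by
    unfold sqNorm dotInt
    rw [Finset.mul_sum, ← Finset.sum_add_distrib, ← Finset.sum_add_distrib]
    refine Finset.sum_congr rfl fun i _ => ?_
    simp only [Pi.add_apply]
    ring
  omega

theorem sqNorm_add_two (y z : GolayPt → ℤ) : sqNorm (y + (z + z)) = sqNorm y + 4 * dotInt y z + 4 * sqNorm z := by
  unfold sqNorm dotInt
  rw [Finset.mul_sum, Finset.mul_sum, ← Finset.sum_add_distrib, ← Finset.sum_add_distrib]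
  refine Finset.sum_congr rfl fun i _ => ?_
  simp only [Pi.add_apply]
  ring

/-- The invariant quadratic form. -/
theorem quad_unique (Q : leechLattice → ZMod 2) (hcoset : ∀ v w : leechLattice, Q (v + (w + w)) = Q v)
    (hquad : ∀ u v w : leechLattice, Q (u + v + w) + Q u + Q v + Q w = Q (u + v) + Q (u + w) + Q (v + w))
    (hinv : ∀ (g : ↥Co0) (v : leechLattice), Q (g • v) = Q v) (hne : ∃ v : leechLattice, Q v ≠ 0) (v : leechLattice) :
    Q v = ((sqNorm (v : GolayPt → ℤ) / 16 : ℤ) : ZMod 2) := by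
  have hchar : ∀ a : ZMod 2, a + a = 0 := by decide
  have h0 : Q 0 = 0 := by
    have h1 := hquad 0 0 0
    simp only [add_zero] at h1
    revert h1
    generalize Q 0 = p
    revert p
    decide
  -- constancy on shells
  have h32 : ∀ x y : leechLattice, sqNorm (x : GolayPt → ℤ) = 32 → sqNorm (y : GolayPt → ℤ) = 32 → Q x = Q y := by
    intro x y hx hy
    obtain ⟨g, rfl⟩ := trans32 x y hx hy
    exact (hinv g x).symm
  have h48 : ∀ x y : leechLattice, sqNorm (x : GolayPt → ℤ) = 48 → sqNorm (y : GolayPt → ℤ) = 48 → Q x = Q y := by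
    intro x y hx hy
    obtain ⟨g, rfl⟩ := trans48 x y hx hy
    exact (hinv g x).symm
  have h64 : ∀ x y : leechLattice, sqNorm (x : GolayPt → ℤ) = 64 → sqNorm (y : GolayPt → ℤ) = 64 → Q x = Q y := by
    intro x y hx hy
    obtain ⟨g, rfl⟩ := trans64 x y hx hy
    exact (hinv g x).symm
  -- the value on minimal vectors is zero
  have hA1 : vecL qA1 ∈ leechLattice := mem_of_lchk' (by decide) (by decide +kernel)
  have hA2 : vecL qA2 ∈ leechLattice := mem_of_lchk' (by decide) (by decide +kernel)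
  have hA3 : vecL qA3 ∈ leechLattice := mem_of_lchk' (by decide) (by decide +kernel)
  have hC1 : vecL qC1 ∈ leechLattice := mem_of_lchk' (by decide) (by decide +kernel)
  have hC2 : vecL qC2 ∈ leechLattice := mem_of_lchk' (by decide) (by decide +kernel)
  have hC3 : vecL qC3 ∈ leechLattice := mem_of_lchk' (by decide) (by decide +kernel)
  let a1 : leechLattice := ⟨_, hA1⟩
  let a2 : leechLattice := ⟨_, hA2⟩
  let a3 : leechLattice := ⟨_, hA3⟩
  let c1 : leechLattice := ⟨_, hC1⟩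
  let c2 : leechLattice := ⟨_, hC2⟩
  let c3 : leechLattice := ⟨_, hC3⟩
  have nA1 : sqNorm (a1 : GolayPt → ℤ) = 32 := by
    change sqNorm (vecL qA1) = 32; rw [sqNorm_vecL]; decide +kernel
  have nA2 : sqNorm (a2 : GolayPt → ℤ) = 32 := by
    change sqNorm (vecL qA2) = 32; rw [sqNorm_vecL]; decide +kernel
  have nA3 : sqNorm (a3 : GolayPt → ℤ) = 32 := by
    change sqNorm (vecL qA3) = 32; rw [sqNorm_vecL]; decide +kernel
  have nC1 : sqNorm (c1 : GolayPt → ℤ) = 32 := by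
    change sqNorm (vecL qC1) = 32; rw [sqNorm_vecL]; decide +kernel
  have nC2 : sqNorm (c2 : GolayPt → ℤ) = 32 := by
    change sqNorm (vecL qC2) = 32; rw [sqNorm_vecL]; decide +kernel
  have nC3 : sqNorm (c3 : GolayPt → ℤ) = 32 := by
    change sqNorm (vecL qC3) = 32; rw [sqNorm_vecL]; decide +kernel
  have sum2 : ∀ {a b : List ℤ} (ha : vecL a ∈ leechLattice) (hb : vecL b ∈ leechLattice),
      (((⟨_, ha⟩ : leechLattice) + ⟨_, hb⟩ : leechLattice) : GolayPt → ℤ) = vecL (addL a b) := by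
    intro a b ha hb
    rw [vecL_addL]
    rfl
  have nA12 : sqNorm ((a1 + a2 : leechLattice) : GolayPt → ℤ) = 64 := by
    rw [sum2, sqNorm_vecL]; decide +kernel
  have nA13 : sqNorm ((a1 + a3 : leechLattice) : GolayPt → ℤ) = 48 := by
    rw [sum2, sqNorm_vecL]; decide +kernel
  have nA23 : sqNorm ((a2 + a3 : leechLattice) : GolayPt → ℤ) = 48 := by
    rw [sum2, sqNorm_vecL]; decide +kernel
  have nA123 : sqNorm ((a1 + a2 + a3 : leechLattice) : GolayPt → ℤ) = 64 := by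
    have : ((a1 + a2 + a3 : leechLattice) : GolayPt → ℤ) = vecL (addL (addL qA1 qA2) qA3) := by
      rw [vecL_addL, vecL_addL]
      rfl
    rw [this, sqNorm_vecL]; decide +kernel
  have nC12 : sqNorm ((c1 + c2 : leechLattice) : GolayPt → ℤ) = 64 := by
    rw [sum2, sqNorm_vecL]; decide +kernel
  have nC13 : sqNorm ((c1 + c3 : leechLattice) : GolayPt → ℤ) = 64 := by
    rw [sum2, sqNorm_vecL]; decide +kernel
  have nC23 : sqNorm ((c2 + c3 : leechLattice) : GolayPt → ℤ) = 32 := by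
    rw [sum2, sqNorm_vecL]; decide +kernel
  have nC123 : sqNorm ((c1 + c2 + c3 : leechLattice) : GolayPt → ℤ) = 64 := by
    have : ((c1 + c2 + c3 : leechLattice) : GolayPt → ℤ) = vecL (addL (addL qC1 qC2) qC3) := by
      rw [vecL_addL, vecL_addL]
      rfl
    rw [this, sqNorm_vecL]; decide +kernel
  have hA : Q a1 = 0 := by
    have h1 := hquad a1 a2 a3
    rw [h32 a2 a1 nA2 nA1, h32 a3 a1 nA3 nA1, h48 (a2 + a3) (a1 + a3) nA23 nA13, h64 (a1 + a2 + a3) (a1 + a2) nA123 nA12] at h1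
    revert h1
    generalize Q a1 = p
    generalize Q (a1 + a2) = q
    generalize Q (a1 + a3) = r
    revert p q r
    decide
  have hC : Q (c1 + c2) = 0 := by
    have h1 := hquad c1 c2 c3
    rw [h32 c1 a1 nC1 nA1, h32 c2 a1 nC2 nA1, h32 c3 a1 nC3 nA1, h32 (c2 + c3) a1 nC23 nA1, hA,
      h64 (c1 + c3) (c1 + c2) nC13 nC12, h64 (c1 + c2 + c3) (c1 + c2) nC123 nC12] at h1
    revert h1
    generalize Q (c1 + c2) = q
    revert q
    decide
  -- value on a short vector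
  have hshort : ∀ y : leechLattice, sqNorm (y : GolayPt → ℤ) ≤ 64 →
      (sqNorm (y : GolayPt → ℤ) = 0 ∧ Q y = 0) ∨ (sqNorm (y : GolayPt → ℤ) = 32 ∧ Q y = 0) ∨
      (sqNorm (y : GolayPt → ℤ) = 48) ∨ (sqNorm (y : GolayPt → ℤ) = 64 ∧ Q y = 0) := by
    intro y hy
    by_cases h1 : (y : GolayPt → ℤ) = 0
    · left
      have h2 : y = 0 := Subtype.ext h1
      rw [h2, h0]
      simp [sqNorm]
    · have h2 := thirtytwo_le y.2 h1
      have h3 := sixteen_dvd_sqNorm y.2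
      have h4 : sqNorm (y : GolayPt → ℤ) = 32 ∨ sqNorm (y : GolayPt → ℤ) = 48 ∨ sqNorm (y : GolayPt → ℤ) = 64 := by omega
      rcases h4 with h4 | h4 | h4
      · right; left
        exact ⟨h4, by rw [h32 y a1 h4 nA1]; exact hA⟩
      · right; right; left
        exact h4
      · right; right; right
        exact ⟨h4, by rw [h64 y (c1 + c2) h4 nC12]; exact hC⟩
  -- the reduction to a short vector
  have hred : ∀ x : leechLattice, ∃ y z : leechLattice, sqNorm (y : GolayPt → ℤ) ≤ 64 ∧ x = y + (z + z) := by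
    intro x
    obtain ⟨y, h1, h2⟩ := exists_short x
    obtain ⟨z, hz, he⟩ := mkQ_eq_iff.mp h2
    refine ⟨y, ⟨z, hz⟩, h1, Subtype.ext ?_⟩
    funext j
    have h3 := congrFun he j
    simp only [Pi.sub_apply, Pi.smul_apply, nsmul_eq_mul] at h3
    push_cast at h3
    change (x : GolayPt → ℤ) j = (y : GolayPt → ℤ) j + (z j + z j)
    linarith
  -- the value on norm 48
  obtain ⟨v0, hv0⟩ := hne
  obtain ⟨y0, z0, hy0, rfl⟩ := hred v0
  rw [hcoset] at hv0
  have hB : ∀ y : leechLattice, sqNorm (y : GolayPt → ℤ) = 48 → Q y = 1 := by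
    intro y hy
    have h1 : Q y0 ≠ 0 := hv0
    rcases hshort y0 hy0 with ⟨_, h2⟩ | ⟨_, h2⟩ | h2 | ⟨_, h2⟩
    · exact absurd h2 h1
    · exact absurd h2 h1
    · rw [h48 y y0 hy h2]
      revert h1
      generalize Q y0 = p
      revert p
      decide
    · exact absurd h2 h1
  obtain ⟨y, z, hy, rfl⟩ := hred v
  rw [hcoset]
  have hn : sqNorm ((y + (z + z) : leechLattice) : GolayPt → ℤ) =
      sqNorm (y : GolayPt → ℤ) + 4 * dotInt (y : GolayPt → ℤ) (z : GolayPt → ℤ) + 4 * sqNorm (z : GolayPt → ℤ) :=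
    sqNorm_add_two _ _
  have hd := dvd_dot y.2 z.2
  have hs := sixteen_dvd_sqNorm z.2
  obtain ⟨d, hd⟩ := hd
  obtain ⟨s, hs⟩ := hs
  rw [hn, hd, hs]
  have hdiv : ∀ N : ℤ, (16 : ℤ) ∣ N → (N + 4 * (8 * d) + 4 * (16 * s)) / 16 = N / 16 + 2 * d + 4 * s := by
    intro N hN
    omega
  rw [hdiv _ (sixteen_dvd_sqNorm y.2)]
  have h2 : ((sqNorm (y : GolayPt → ℤ) / 16 + 2 * d + 4 * s : ℤ) : ZMod 2) = ((sqNorm (y : GolayPt → ℤ) / 16 : ℤ) : ZMod 2) := by
    push_cast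
    have e2 : (2 : ZMod 2) = 0 := rfl
    have e4 : (4 : ZMod 2) = 0 := rfl
    rw [e2, e4]
    ring
  rw [h2]
  rcases hshort y hy with ⟨h3, h4⟩ | ⟨h3, h4⟩ | h3 | ⟨h3, h4⟩
  · rw [h3, h4]; rfl
  · rw [h3, h4]; rfl
  · rw [h3, hB y h3]; rfl
  · rw [h3, h4]; rfl

end CfsgLib.Leech
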