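/-
The second Conway group in the general linear group of degree 23 over the field with 13 elements.
-/
import Cfsg.Agent.Lib.Leech.Quad
import Cfsg.Prelude.Def_Spor_Conway

set_option autoImplicit false

namespace CfsgLib.Leech

open Cfsg CfsgLib.Golay Matrix

/-- The prime thirteen. -/
instance fact13 : Fact (Nat.Prime 13) := ⟨by norm_num⟩

abbrev F13 : Type := ZMod 13

/-- Reduction of an integer vector. -/
def red (x : GolayPt → ℤ) : GolayPt → F13 := fun i => (x i : F13)

/-- The matrix of an automorphism. -/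
noncomputable def rhoM (g : ↥Co0) : Matrix GolayPt GolayPt F13 := fun j i => (5 : F13) * (((g • e8 i : leechLattice) : GolayPt → ℤ) j : F13)

theorem five_eight : (5 : F13) * 8 = 1 := by decide

/-- The action on reductions of lattice vectors. -/
theorem rhoM_apply (g : ↥Co0) (w : leechLattice) : rhoM g *ᵥ red w = red (g • w : leechLattice) := by
  funext j
  have h1 : (8 : ℤ) • (g • w) = ∑ i, (w : GolayPt → ℤ) i • (g • e8 i) := by
    rw [← smul_zsmul_Co0, eight_smul_eq]
    change addHomOf g _ = _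
    rw [map_sum]
    refine Finset.sum_congr rfl fun i _ => ?_
    rw [map_zsmul, addHomOf_apply]
  have h2 := congrArg (fun v : leechLattice => (v : GolayPt → ℤ) j) h1
  simp only [AddSubgroup.coe_zsmul, Pi.smul_apply, smul_eq_mul, AddSubgroup.val_finsetSum, Finset.sum_apply] at h2
  have h3 := congrArg (fun n : ℤ => (n : F13)) h2
  simp only [Int.cast_mul, Int.cast_sum] at h3
  simp only [mulVec, dotProduct, rhoM, red]
  have h4 : ((8 : ℤ) : F13) = 8 := rfl
  rw [h4] at h3
  calc ∑ i, (5 : F13) * (((g • e8 i : leechLattice) : GolayPt → ℤ) j : F13) * ((w : GolayPt → ℤ) i : F13)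
      = 5 * ∑ i, ((w : GolayPt → ℤ) i : F13) * (((g • e8 i : leechLattice) : GolayPt → ℤ) j : F13) := by
        rw [Finset.mul_sum]
        refine Finset.sum_congr rfl fun i _ => ?_
        ring
    _ = 5 * (8 * (((g • w : leechLattice) : GolayPt → ℤ) j : F13)) := by rw [h3]
    _ = (5 * 8) * (((g • w : leechLattice) : GolayPt → ℤ) j : F13) := by ring
    _ = _ := by rw [five_eight, one_mul]

theorem rho_mul (g h : ↥Co0) : rhoM (g * h) = rhoM g * rhoM h := by
  ext j i
  have h1 := congrFun (rhoM_apply g (h • e8 i)) j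
  simp only [mul_apply]
  have h2 : rhoM (g * h) j i = 5 * (((g • h • e8 i : leechLattice) : GolayPt → ℤ) j : F13) := by
    simp only [rhoM, mul_smul]
  rw [h2]
  simp only [mulVec, dotProduct] at h1
  have h3 : ∀ k, rhoM h k i = 5 * red (h • e8 i : leechLattice) k := fun k => rfl
  simp only [h3]
  have h4 : (((g • h • e8 i : leechLattice) : GolayPt → ℤ) j : F13) = red (g • h • e8 i : leechLattice) j := rfl
  rw [h4, ← h1, Finset.mul_sum]
  refine Finset.sum_congr rfl fun k _ => ?_
  ring

theorem rho_one : rhoM 1 = 1 := by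
  ext j i
  simp only [rhoM, one_smul, e8_coe]
  by_cases h : j = i
  · subst h
    simp only [Pi.single_eq_same, one_apply_eq]
    exact five_eight
  · rw [Pi.single_eq_of_ne h, one_apply_ne h]
    simp

/-- Coordinates of the pairing. -/
theorem dotInt_smul (g : ↥Co0) (a b : leechLattice) :
    dotInt ((g • a : leechLattice) : GolayPt → ℤ) ((g • b : leechLattice) : GolayPt → ℤ) = dotInt (a : GolayPt → ℤ) (b : GolayPt → ℤ) := by
  have key : ∀ x y : GolayPt → ℤ, sqNorm (x + y) = sqNorm x + sqNorm y + 2 * dotInt x y := by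
    intro x y
    unfold sqNorm dotInt
    rw [Finset.mul_sum, ← Finset.sum_add_distrib, ← Finset.sum_add_distrib]
    refine Finset.sum_congr rfl fun i _ => ?_
    simp only [Pi.add_apply]
    ring
  have h1 := key ((g • a : leechLattice) : GolayPt → ℤ) ((g • b : leechLattice) : GolayPt → ℤ)
  have h2 := key (a : GolayPt → ℤ) (b : GolayPt → ℤ)
  have h3 : ((g • a : leechLattice) : GolayPt → ℤ) + ((g • b : leechLattice) : GolayPt → ℤ) = ((g • (a + b) : leechLattice) : GolayPt → ℤ) := by
    rw [smul_add_Co0]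
    rfl
  rw [h3, sqNorm_smul_Co0, sqNorm_smul_Co0, sqNorm_smul_Co0] at h1
  have h4 : sqNorm ((a + b : leechLattice) : GolayPt → ℤ) = sqNorm ((a : GolayPt → ℤ) + (b : GolayPt → ℤ)) := rfl
  rw [h4] at h1
  omega

theorem rho_ortho (g : ↥Co0) : (rhoM g)ᵀ * rhoM g = 1 := by
  ext i i'
  simp only [mul_apply, transpose_apply, rhoM]
  have h1 := dotInt_smul g (e8 i) (e8 i')
  have h2 := congrArg (fun n : ℤ => (n : F13)) h1
  simp only [dotInt, Int.cast_sum, Int.cast_mul] at h2
  have h3 : ∑ k, (5 : F13) * (((g • e8 i : leechLattice) : GolayPt → ℤ) k : F13) * (5 * (((g • e8 i' : leechLattice) : GolayPt → ℤ) k : F13)) =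
      25 * ∑ k, (((g • e8 i : leechLattice) : GolayPt → ℤ) k : F13) * (((g • e8 i' : leechLattice) : GolayPt → ℤ) k : F13) := by
    rw [Finset.mul_sum]
    refine Finset.sum_congr rfl fun k _ => ?_
    ring
  rw [h3, h2]
  simp only [e8_coe]
  by_cases h : i = i'
  · subst h
    rw [one_apply_eq, Finset.sum_eq_single i]
    · simp only [Pi.single_eq_same]
      decide
    · intro k _ hk
      simp [Pi.single_eq_of_ne hk]
    · simp
  · rw [one_apply_ne h, Finset.sum_eq_zero]
    · simp
    · intro k _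
      by_cases hk : k = i
      · subst hk
        simp [Pi.single_eq_of_ne h]
      · simp [Pi.single_eq_of_ne hk]

theorem dot_rho (g : ↥Co0) (x y : GolayPt → F13) : (rhoM g *ᵥ x) ⬝ᵥ (rhoM g *ᵥ y) = x ⬝ᵥ y := by
  rw [← vecMul_transpose, ← dotProduct_mulVec, mulVec_mulVec, rho_ortho, one_mulVec]

/-- The fixed vector. -/
def uR : GolayPt → F13 := red Spor.leechU

theorem uR_self : uR ⬝ᵥ uR ≠ 0 := by
  have h : uR ⬝ᵥ uR = ((sqNorm (Spor.leechU : GolayPt → ℤ) : ℤ) : F13) := by
    simp only [uR, red, dotProduct, sqNorm, Int.cast_sum, Int.cast_pow]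
    refine Finset.sum_congr rfl fun k _ => ?_
    ring
  have h2 : sqNorm (Spor.leechU : GolayPt → ℤ) = 32 := by
    unfold sqNorm
    change ∑ i, Spor.vecU i ^ 2 = 32
    decide +kernel
  rw [h, h2]
  decide

/-- The hyperplane orthogonal to the fixed vector. -/
def phi : (GolayPt → F13) →ₗ[F13] F13 where
  toFun x := uR ⬝ᵥ x
  map_add' x y := dotProduct_add _ _ _
  map_smul' a x := by simp [dotProduct_smul]

theorem phi_surj : Function.Surjective phi := by
  intro a
  refine ⟨(a * (uR ⬝ᵥ uR)⁻¹) • uR, ?_⟩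
  change uR ⬝ᵥ ((a * (uR ⬝ᵥ uR)⁻¹) • uR) = a
  rw [dotProduct_smul, smul_eq_mul, mul_assoc, inv_mul_cancel₀ uR_self, mul_one]

abbrev WW : Submodule F13 (GolayPt → F13) := LinearMap.ker phi

theorem finrank_WW : Module.finrank F13 WW = 23 := by
  have h := LinearMap.finrank_range_add_finrank_ker phi
  rw [LinearMap.range_eq_top.mpr phi_surj, finrank_top, Module.finrank_self, Module.finrank_fintype_fun_eq_card, card_pts] at h
  have h3 : Module.finrank F13 ↥(LinearMap.ker phi) = 23 := by omega
  exact h3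

/-- Coordinates on the hyperplane. -/
noncomputable def eWW : WW ≃ₗ[F13] (Fin 23 → F13) :=
  LinearEquiv.ofFinrankEq _ _ (by rw [finrank_WW]; simp)

/-- The inclusion of the second Conway group. -/
def inclCo2 : ↥Spor.Co2 →* ↥Co0 := Subgroup.inclusion inf_le_left

theorem incl_fix (g : ↥Spor.Co2) : rhoM (inclCo2 g) *ᵥ uR = uR := by
  have h1 : (inclCo2 g) • Spor.leechU = Spor.leechU := g.2.2
  have h2 := rhoM_apply (inclCo2 g) Spor.leechU
  rw [h1] at h2
  exact h2

theorem rho_pres (g : ↥Spor.Co2) : ∀ x ∈ WW, rhoM (inclCo2 g) *ᵥ x ∈ WW := by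
  intro x hx
  rw [LinearMap.mem_ker] at hx ⊢
  change uR ⬝ᵥ (rhoM (inclCo2 g) *ᵥ x) = 0
  have h1 := dot_rho (inclCo2 g) uR x
  rw [incl_fix] at h1
  rw [h1]
  exact hx

/-- The action on the hyperplane. -/
noncomputable def rhoW (g : ↥Spor.Co2) : WW →ₗ[F13] WW :=
  LinearMap.restrict (mulVecLin (rhoM (inclCo2 g))) (rho_pres g)

theorem rhoW_coe (g : ↥Spor.Co2) (x : WW) : ((rhoW g x : WW) : GolayPt → F13) = rhoM (inclCo2 g) *ᵥ (x : GolayPt → F13) := rfl

theorem rhoW_mul (g h : ↥Spor.Co2) : rhoW (g * h) = rhoW g ∘ₗ rhoW h := by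
  ext x : 2
  funext j
  simp only [LinearMap.comp_apply, rhoW_coe, map_mul, rho_mul, mulVec_mulVec]

theorem rhoW_one : rhoW 1 = LinearMap.id := by
  ext x : 2
  funext j
  simp only [rhoW_coe, map_one, rho_one, one_mulVec, LinearMap.id_apply]

/-- The matrix on coordinates. -/
noncomputable def matW (g : ↥Spor.Co2) : Matrix (Fin 23) (Fin 23) F13 :=
  LinearMap.toMatrix' (eWW.toLinearMap ∘ₗ rhoW g ∘ₗ eWW.symm.toLinearMap)

/-- The homomorphism into matrices. -/
noncomputable def matHom : ↥Spor.Co2 →* Matrix (Fin 23) (Fin 23) F13 where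
  toFun := matW
  map_one' := by
    unfold matW
    have h : eWW.toLinearMap ∘ₗ rhoW 1 ∘ₗ eWW.symm.toLinearMap = LinearMap.id :=
      LinearMap.ext fun x => by
        rw [rhoW_one]
        simp only [LinearMap.comp_apply, LinearMap.id_apply, LinearEquiv.coe_coe, LinearEquiv.apply_symm_apply]
    rw [h, LinearMap.toMatrix'_id]
  map_mul' g h := by
    unfold matW
    have h1 : eWW.toLinearMap ∘ₗ rhoW (g * h) ∘ₗ eWW.symm.toLinearMap =
        (eWW.toLinearMap ∘ₗ rhoW g ∘ₗ eWW.symm.toLinearMap) ∘ₗ (eWW.toLinearMap ∘ₗ rhoW h ∘ₗ eWW.symm.toLinearMap) :=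
      LinearMap.ext fun x => by
        rw [rhoW_mul]
        simp only [LinearMap.comp_apply, LinearEquiv.coe_coe, LinearEquiv.symm_apply_apply]
    rw [h1, LinearMap.toMatrix'_comp]

/-- A vector with all coordinates divisible by thirteen in the lattice of small norm is zero. -/
theorem zero_of_thirteen {d : GolayPt → ℤ} (hd : d ∈ leechLattice) (hN : sqNorm d ≤ 256) (h13 : ∀ j, (13 : ℤ) ∣ d j) : d = 0 := by
  classical
  by_contra h0
  obtain ⟨j, hj⟩ : ∃ j, d j ≠ 0 := by
    by_contra h
    push Not at h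
    exact h0 (funext h)
  obtain ⟨t, ht⟩ := h13 j
  have h1 : t ≠ 0 := by
    rintro rfl
    simp [ht] at hj
  have h2 : 169 ≤ d j ^ 2 := by
    rw [ht]
    have h3 : 1 ≤ t ^ 2 := by
      have h5 := sq_nonneg t
      have h4 : t ^ 2 ≠ 0 := pow_ne_zero _ h1
      omega
    nlinarith
  -- all the others vanish
  have hrest : ∀ k, k ≠ j → d k = 0 := by
    intro k hk
    by_contra h
    obtain ⟨s, hs⟩ := h13 k
    have h3 : s ≠ 0 := by
      rintro rfl
      simp [hs] at h
    have h4 : 169 ≤ d k ^ 2 := by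
      rw [hs]
      have h5 : 1 ≤ s ^ 2 := by
        have h6 := sq_nonneg s
        have h7 : s ^ 2 ≠ 0 := pow_ne_zero _ h3
        omega
      nlinarith
    have h5 := le_sqNorm d {j, k}
    rw [Finset.sum_pair hk.symm] at h5
    omega
  have h3 : d j ^ 2 ≤ 256 := by
    have h5 := le_sqNorm d {j}
    simp only [Finset.sum_singleton] at h5
    omega
  have h4 : t = 1 ∨ t = -1 := by
    rw [ht] at h3
    have h5 : t ^ 2 ≤ 1 := by nlinarith
    have h6 : -1 ≤ t ∧ t ≤ 1 := by constructor <;> nlinarith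
    omega
  -- the parity of coordinates
  obtain ⟨m, c, hdata⟩ := mem_leech_iff.mp hd
  obtain ⟨k, hk⟩ : ∃ k : GolayPt, k ≠ j := by
    by_cases h5 : j = pt 0
    · refine ⟨pt 1, ?_⟩
      rw [h5]
      decide
    · exact ⟨pt 0, fun h6 => h5 h6.symm⟩
  have e1 := hdata.h4 j
  have e2 := hdata.h4 k
  rw [hrest k hk] at e2
  have e3 := ind_cases c j
  have e4 := ind_cases c k
  unfold Int.ModEq at e1 e2
  rw [ht] at e1
  rcases hdata.hm with rfl | rfl <;> rcases h4 with rfl | rfl <;> omega

/-- If the matrix of an automorphism is the identity, the automorphism is trivial. -/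
theorem eq_one_of_rho {g : ↥Co0} (h : rhoM g = 1) : g = 1 := by
  apply Co0_ext_e8
  intro i
  rw [one_smul]
  have hd : ((g • e8 i : leechLattice) : GolayPt → ℤ) - ((e8 i : leechLattice) : GolayPt → ℤ) ∈ leechLattice :=
    leechLattice.sub_mem (g • e8 i).2 (e8 i).2
  have hN : sqNorm (((g • e8 i : leechLattice) : GolayPt → ℤ) - ((e8 i : leechLattice) : GolayPt → ℤ)) ≤ 256 := by
    have h1 := sqNorm_add_sub ((e8 i : leechLattice) : GolayPt → ℤ) ((g • e8 i : leechLattice) : GolayPt → ℤ)
    rw [sqNorm_smul_Co0] at h1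
    have h2 := sqNorm_nonneg (((g • e8 i : leechLattice) : GolayPt → ℤ) + ((e8 i : leechLattice) : GolayPt → ℤ))
    have h3 : sqNorm ((e8 i : leechLattice) : GolayPt → ℤ) = 64 := stdCross_norm (e8_mem_std _)
    omega
  have h13 : ∀ j, (13 : ℤ) ∣ (((g • e8 i : leechLattice) : GolayPt → ℤ) - ((e8 i : leechLattice) : GolayPt → ℤ)) j := by
    intro j
    have h1 := congrFun (congrFun h j) i
    simp only [rhoM] at h1
    have h2 : (((g • e8 i : leechLattice) : GolayPt → ℤ) j : F13) = 8 * ((1 : Matrix GolayPt GolayPt F13) j i) := by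
      rw [← h1, ← mul_assoc]
      have h3 : (8 : F13) * 5 = 1 := by decide
      rw [h3, one_mul]
    have h4 : (((e8 i : leechLattice) : GolayPt → ℤ) j : F13) = 8 * ((1 : Matrix GolayPt GolayPt F13) j i) := by
      rw [e8_coe]
      by_cases hj : j = i
      · subst hj
        simp
      · rw [Pi.single_eq_of_ne hj, one_apply_ne hj]
        simp
    have h5 : ((((g • e8 i : leechLattice) : GolayPt → ℤ) j - ((e8 i : leechLattice) : GolayPt → ℤ) j : ℤ) : F13) = 0 := by
      rw [Int.cast_sub, h2, h4, sub_self]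
    exact (ZMod.intCast_zmod_eq_zero_iff_dvd _ 13).mp h5
  have h0 := zero_of_thirteen hd hN h13
  apply Subtype.ext
  exact sub_eq_zero.mp h0

/-- The injective homomorphism. -/
theorem exists_GL23 : ∃ f : ↥Spor.Co2 →* GL (Fin 23) (ZMod 13), Function.Injective f := by
  refine ⟨MonoidHom.toHomUnits matHom, ?_⟩
  rw [injective_iff_map_eq_one]
  intro g hg
  have h1 : matW g = 1 := by
    have := congrArg Units.val hg
    exact this
  -- the map on the hyperplane is the identity
  have h2 : eWW.toLinearMap ∘ₗ rhoW g ∘ₗ eWW.symm.toLinearMap = LinearMap.id := by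
    have h3 : LinearMap.toMatrix' (eWW.toLinearMap ∘ₗ rhoW g ∘ₗ eWW.symm.toLinearMap) = LinearMap.toMatrix' LinearMap.id := by
      rw [LinearMap.toMatrix'_id]
      exact h1
    exact LinearMap.toMatrix'.injective h3
  have h3 : ∀ x : WW, rhoW g x = x := by
    intro x
    have h4 := LinearMap.congr_fun h2 (eWW x)
    simp only [LinearMap.comp_apply, LinearEquiv.coe_coe, LinearEquiv.symm_apply_apply, LinearMap.id_apply] at h4
    exact eWW.injective h4
  -- the matrix is the identity
  have h4 : rhoM (inclCo2 g) = 1 := by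
    have key : ∀ x : GolayPt → F13, rhoM (inclCo2 g) *ᵥ x = x := by
      intro x
      let a : F13 := (uR ⬝ᵥ x) * (uR ⬝ᵥ uR)⁻¹
      have hmem : x - a • uR ∈ WW := by
        rw [LinearMap.mem_ker]
        change uR ⬝ᵥ (x - a • uR) = 0
        rw [dotProduct_sub, dotProduct_smul, smul_eq_mul]
        simp only [a]
        rw [mul_assoc, inv_mul_cancel₀ uR_self, mul_one, sub_self]
      have h5 := h3 ⟨_, hmem⟩
      have h6 := congrArg Subtype.val h5
      rw [rhoW_coe] at h6
      simp only at h6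
      rw [mulVec_sub, mulVec_smul, incl_fix] at h6
      exact sub_left_inj.mp h6
    ext j i
    have h5 := congrFun (key (Pi.single i 1)) j
    rw [mulVec_single_one] at h5
    rw [one_apply]
    simp only [col_apply] at h5
    rw [h5]
    simp only [Pi.single_apply]
  have h5 := eq_one_of_rho h4
  apply Subtype.ext
  exact congrArg (fun a : ↥Co0 => a.1) h5

end CfsgLib.Leech
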