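/-
A finite generating set of the lattice.
-/
import Cfsg.Agent.Lib.Leech.Norm

set_option autoImplicit false

namespace CfsgLib.Leech

open Cfsg CfsgLib.Golay

/-- Twice the indicator of a set. -/
def twoInd (c : Finset GolayPt) : GolayPt → ℤ := fun i => 2 * ind c i

/-- The odd generator. -/
def vodd : GolayPt → ℤ := (fun _ => 1) + (Pi.single (pt 0) (-4) : GolayPt → ℤ)

theorem card_pts : Fintype.card GolayPt = 24 := by simp [GolayPt, Fintype.card_option]

theorem sum_twoInd (c : Finset GolayPt) : ∑ i, twoInd c i = 2 * c.card := by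
  simp only [twoInd]
  rw [← Finset.mul_sum, sum_ind]

theorem four_mem {x : GolayPt → ℤ} (h4 : ∀ i, (4 : ℤ) ∣ x i) (h8 : (8 : ℤ) ∣ ∑ i, x i) : x ∈ leechLattice := by
  refine mem_leech_iff.mpr ⟨0, ∅, Or.inl rfl, sup_empty, fun i => ?_, ?_⟩
  · have : ind ∅ i = 0 := by simp [ind]
    rw [this]
    have := h4 i
    unfold Int.ModEq
    omega
  · unfold Int.ModEq
    omega

theorem twoInd_data {c : Finset GolayPt} (hc : c ∈ Sup) : LeechData (twoInd c) 0 c := by
  refine ⟨Or.inl rfl, hc, fun i => ?_, ?_⟩
  · simp [twoInd, Int.ModEq]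
  · rw [sum_twoInd]
    obtain ⟨a, ha⟩ := four_dvd_card hc
    rw [ha]
    push_cast
    unfold Int.ModEq
    omega

theorem twoInd_mem {c : Finset GolayPt} (hc : c ∈ Sup) : twoInd c ∈ leechLattice :=
  mem_leech_iff.mpr ⟨0, c, twoInd_data hc⟩

theorem vodd_data : LeechData vodd 1 ∅ := by
  refine ⟨Or.inr rfl, sup_empty, fun i => ?_, ?_⟩
  · simp only [vodd, Pi.add_apply]
    have : ind ∅ i = 0 := by simp [ind]
    rw [this]
    unfold Int.ModEq
    by_cases h : i = pt 0
    · subst h
      simp
    · simp [Pi.single_eq_of_ne h]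
  · have h1 : ∑ i, vodd i = 20 := by
      simp only [vodd, Pi.add_apply, Finset.sum_add_distrib, Finset.sum_pi_single', Finset.mem_univ, if_true]
      simp
    rw [h1]
    decide

theorem vodd_mem : vodd ∈ leechLattice := mem_leech_iff.mpr ⟨1, ∅, vodd_data⟩

section gens

variable {A : AddSubgroup (GolayPt → ℤ)}

/-- Multiples of four with even sum. -/
theorem four_in (h4 : ∀ q : GolayPt, q ≠ pt 0 → (Pi.single q 4 - Pi.single (pt 0) 4 : GolayPt → ℤ) ∈ A)
    (h8 : (Pi.single (pt 0) 8 : GolayPt → ℤ) ∈ A) {x : GolayPt → ℤ} (hx : ∀ i, (4 : ℤ) ∣ x i)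
    (hs : (8 : ℤ) ∣ ∑ i, x i) : x ∈ A := by
  classical
  choose z hz using hx
  have hsum : ∑ i, x i = 4 * ∑ i, z i := by
    rw [Finset.mul_sum]
    exact Finset.sum_congr rfl fun i _ => hz i
  obtain ⟨k, hk⟩ : (2 : ℤ) ∣ ∑ i, z i := by
    rw [hsum] at hs
    omega
  have hdec : x = (∑ i, z i • (Pi.single i 4 - Pi.single (pt 0) 4 : GolayPt → ℤ)) + k • (Pi.single (pt 0) 8 : GolayPt → ℤ) := by
    have h1 : (∑ i, z i • (Pi.single i 4 - Pi.single (pt 0) 4 : GolayPt → ℤ)) =
        (∑ i, z i • (Pi.single i 4 : GolayPt → ℤ)) - (∑ i, z i) • (Pi.single (pt 0) 4 : GolayPt → ℤ) := by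
      rw [Finset.sum_smul, ← Finset.sum_sub_distrib]
      exact Finset.sum_congr rfl fun i _ => by rw [smul_sub]
    rw [h1, hk]
    funext j
    simp only [Pi.add_apply, Pi.sub_apply, Finset.sum_apply, Pi.smul_apply, smul_eq_mul]
    have h2 : ∑ i, z i * (Pi.single i 4 : GolayPt → ℤ) j = 4 * z j := by
      rw [Finset.sum_eq_single j]
      · simp [mul_comm]
      · intro b _ hb
        simp [Pi.single_eq_of_ne (Ne.symm hb)]
      · simp
    rw [h2, hz j]
    by_cases hj : j = pt 0
    · subst hj
      simp only [Pi.single_eq_same]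
      ring
    · simp only [Pi.single_eq_of_ne hj]
      ring
  rw [hdec]
  refine A.add_mem (A.sum_mem fun i _ => ?_) (A.zsmul_mem h8 k)
  apply A.zsmul_mem
  by_cases hi : i = pt 0
  · subst hi
    simp
  · exact h4 i hi

theorem twoInd_xor (a b : Finset GolayPt) :
    twoInd (symmDiff a b) = twoInd a + twoInd b - (fun i => 4 * ind (a ∩ b) i) := by
  funext i
  simp only [twoInd, Pi.add_apply, Pi.sub_apply, ind, Finset.mem_symmDiff, Finset.mem_inter]
  by_cases h1 : i ∈ a <;> by_cases h2 : i ∈ b <;> simp [h1, h2]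

/-- The generating set: any subgroup containing it contains the lattice. -/
theorem leech_le (h4 : ∀ q : GolayPt, q ≠ pt 0 → (Pi.single q 4 - Pi.single (pt 0) 4 : GolayPt → ℤ) ∈ A)
    (h8 : (Pi.single (pt 0) 8 : GolayPt → ℤ) ∈ A) (hb : ∀ b ∈ basis, twoInd (fs b) ∈ A) (hv : vodd ∈ A) :
    leechLattice ≤ A := by
  have hcode : ∀ m ∈ allCode, twoInd (fs m) ∈ A := by
    have key : ∀ B : List ℕ, (∀ b ∈ B, b ∈ basis) → ∀ m ∈ spanList B, twoInd (fs m) ∈ A ∧ m ∈ allCode := by
      intro B
      induction B with
      | nil =>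
        intro _ m hm
        simp only [spanList, List.mem_singleton] at hm
        subst hm
        refine ⟨?_, zero_mem_allCode⟩
        have : twoInd (fs 0) = 0 := by
          funext i
          have h1 : i ∉ fs 0 := by
            intro h
            have := mem_fs.mp h
            simp at this
          simp [twoInd, ind, h1]
        rw [this]
        exact A.zero_mem
      | cons b B ih =>
        intro hB m hm
        have hb' : b ∈ basis := hB b (List.mem_cons_self)
        have hbA : b ∈ allCode := by
          have := List.forall_mem_cons.mp hB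
          exact mem_allCode_of_isCode (by
            have hall : basis.all isCode = true := by decide +kernel
            exact List.all_eq_true.mp hall b hb')
        rcases mem_spanList_cons.mp hm with hm | ⟨d, hd, rfl⟩
        · exact ih (fun c hc => hB c (List.mem_cons_of_mem _ hc)) m hm
        · obtain ⟨h1, h2⟩ := ih (fun c hc => hB c (List.mem_cons_of_mem _ hc)) d hd
          refine ⟨?_, xor_mem_allCode h2 hbA⟩
          have h3 : fs (d ^^^ b) = symmDiff (fs d) (fs b) := fs_xor d b
          rw [h3, twoInd_xor]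
          refine A.sub_mem (A.add_mem h1 (hb b hb')) (four_in h4 h8 (fun i => ⟨_, rfl⟩) ?_)
          rw [← Finset.mul_sum, sum_ind]
          obtain ⟨a, ha⟩ := two_dvd_inter (fs_mem_supports h2) (fs_mem_supports hbA)
          rw [ha]
          push_cast
          exact ⟨a, by ring⟩
    intro m hm
    exact (key basis (fun b hb => hb) m hm).1
  have heven : ∀ x : GolayPt → ℤ, ∀ c, LeechData x 0 c → x ∈ A := by
    intro x c hx
    obtain ⟨a, ha, rfl⟩ := (mem_supports_iff c).mp hx.hc
    have hd : x - twoInd (fs a) ∈ A := by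
      refine four_in h4 h8 (fun i => ?_) ?_
      · have h1 := hx.h4 i
        simp only [Pi.sub_apply, twoInd]
        simp only [zero_add] at h1
        exact (Int.ModEq.symm h1).dvd.trans (by simp)
      · simp only [Pi.sub_apply]
        rw [Finset.sum_sub_distrib, sum_twoInd]
        have h2 := hx.h8
        obtain ⟨b, hb'⟩ := four_dvd_card hx.hc
        rw [hb']
        push_cast
        unfold Int.ModEq at h2
        omega
    have h1 := A.add_mem hd (hcode a ha)
    simpa using h1
  intro x hx
  obtain ⟨m, c, h⟩ := mem_leech_iff.mp hx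
  rcases h.hm with rfl | rfl
  · exact heven x c h
  · have hd : LeechData (x - vodd) 0 c := by
      refine ⟨Or.inl rfl, h.hc, fun i => ?_, ?_⟩
      · have h1 := h.h4 i
        have h2 := vodd_data.h4 i
        have h3 : ind ∅ i = 0 := by simp [ind]
        rw [h3] at h2
        simp only [Pi.sub_apply]
        unfold Int.ModEq at h1 h2 ⊢
        omega
      · simp only [Pi.sub_apply]
        rw [Finset.sum_sub_distrib]
        have h1 := h.h8
        have h2 := vodd_data.h8
        unfold Int.ModEq at h1 h2 ⊢
        omega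
    have h1 := A.add_mem (heven _ _ hd) hv
    simpa using h1

/-- The norm of a combination of two coordinate vectors. -/
theorem sqNorm_two {p q : GolayPt} (hpq : p ≠ q) (a b : ℤ) :
    sqNorm ((Pi.single p a + Pi.single q b : GolayPt → ℤ)) = a ^ 2 + b ^ 2 := by
  unfold sqNorm
  have h : ∀ i, ((Pi.single p a + Pi.single q b : GolayPt → ℤ) i) ^ 2 =
      (Pi.single p (a ^ 2) : GolayPt → ℤ) i + (Pi.single q (b ^ 2) : GolayPt → ℤ) i := by
    intro i
    simp only [Pi.add_apply]
    by_cases h1 : i = p
    · subst h1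
      simp [Pi.single_eq_of_ne hpq]
    · by_cases h2 : i = q
      · subst h2
        simp [Pi.single_eq_of_ne h1]
      · simp [Pi.single_eq_of_ne h1, Pi.single_eq_of_ne h2]
  simp only [h, Finset.sum_add_distrib, Finset.sum_pi_single', Finset.mem_univ, if_true]

theorem sqNorm_twoInd (c : Finset GolayPt) : sqNorm (twoInd c) = 4 * c.card := by
  unfold sqNorm
  have h : ∀ i, (twoInd c i) ^ 2 = 4 * ind c i := by
    intro i
    simp only [twoInd]
    rcases ind_cases c i with h | h <;> rw [h] <;> norm_num
  simp only [h]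
  rw [← Finset.mul_sum, sum_ind]

theorem sqNorm_vodd : sqNorm vodd = 32 := by
  unfold sqNorm
  have h : ∀ i, (vodd i) ^ 2 = 1 + (Pi.single (pt 0) 8 : GolayPt → ℤ) i := by
    intro i
    simp only [vodd, Pi.add_apply]
    by_cases h1 : i = pt 0
    · subst h1
      simp
    · simp [Pi.single_eq_of_ne h1]
  simp only [h, Finset.sum_add_distrib, Finset.sum_pi_single', Finset.mem_univ, if_true]
  simp

/-- The lattice is generated by its minimal vectors. -/
theorem leech_closure_min :
    AddSubgroup.closure {x : GolayPt → ℤ | x ∈ leechLattice ∧ sqNorm x = 32} = leechLattice := by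
  apply le_antisymm
  · rw [AddSubgroup.closure_le]
    rintro x ⟨hx, -⟩
    exact hx
  · have hp01 : pt 0 ≠ pt 1 := by
      intro he
      have := congrArg idx he
      rw [idx_pt (by norm_num), idx_pt (by norm_num)] at this
      omega
    have hfour : ∀ p q : GolayPt, p ≠ q → ∀ a b : ℤ, (a = 4 ∨ a = -4) → (b = 4 ∨ b = -4) →
        (Pi.single p a + Pi.single q b : GolayPt → ℤ) ∈
          AddSubgroup.closure {x : GolayPt → ℤ | x ∈ leechLattice ∧ sqNorm x = 32} := by
      intro p q hpq a b ha hb
      apply AddSubgroup.subset_closure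
      refine ⟨four_mem (fun i => ?_) ?_, ?_⟩
      · simp only [Pi.add_apply]
        by_cases h1 : i = p
        · subst h1
          by_cases h2 : i = q
          · exact absurd h2 hpq
          · rcases ha with rfl | rfl <;> simp [Pi.single_eq_of_ne h2]
        · by_cases h2 : i = q
          · subst h2
            rcases hb with rfl | rfl <;> simp [Pi.single_eq_of_ne h1]
          · simp [Pi.single_eq_of_ne h1, Pi.single_eq_of_ne h2]
      · simp only [Pi.add_apply, Finset.sum_add_distrib, Finset.sum_pi_single', Finset.mem_univ, if_true]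
        rcases ha with rfl | rfl <;> rcases hb with rfl | rfl <;> norm_num
      · rw [sqNorm_two hpq]
        rcases ha with rfl | rfl <;> rcases hb with rfl | rfl <;> norm_num
    apply leech_le
    · intro q hq
      have := hfour q (pt 0) hq 4 (-4) (Or.inl rfl) (Or.inr rfl)
      have e : (Pi.single q 4 - Pi.single (pt 0) 4 : GolayPt → ℤ) = Pi.single q 4 + Pi.single (pt 0) (-4) := by
        rw [sub_eq_add_neg, ← Pi.single_neg]
      rw [e]
      exact this
    · have h1 := hfour (pt 0) (pt 1) hp01 4 4 (Or.inl rfl) (Or.inl rfl)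
      have h2 := hfour (pt 0) (pt 1) hp01 4 (-4) (Or.inl rfl) (Or.inr rfl)
      have e : (Pi.single (pt 0) 8 : GolayPt → ℤ) =
          (Pi.single (pt 0) 4 + Pi.single (pt 1) 4) + (Pi.single (pt 0) 4 + Pi.single (pt 1) (-4)) := by
        funext i
        simp only [Pi.add_apply]
        by_cases h3 : i = pt 0
        · subst h3
          simp [Pi.single_eq_of_ne hp01]
        · by_cases h4 : i = pt 1
          · subst h4
            simp [Pi.single_eq_of_ne h3]
          · simp [Pi.single_eq_of_ne h3, Pi.single_eq_of_ne h4]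
      rw [e]
      exact AddSubgroup.add_mem _ h1 h2
    · intro b hb
      have hc : b ∈ allCode := mem_allCode_of_isCode (by
        have hall : basis.all isCode = true := by decide +kernel
        exact List.all_eq_true.mp hall b hb)
      apply AddSubgroup.subset_closure
      refine ⟨twoInd_mem (fs_mem_supports hc), ?_⟩
      rw [sqNorm_twoInd, card_fs]
      have hpop : ∀ b ∈ basis, pop b = 8 := by decide +kernel
      rw [hpop b hb]
      norm_num
    · apply AddSubgroup.subset_closure
      exact ⟨vodd_mem, sqNorm_vodd⟩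

end gens

end CfsgLib.Leech
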