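/-
Normal forms of short vectors under the monomial subgroup.
-/
import Cfsg.Agent.Lib.Leech.Frame3

set_option autoImplicit false

namespace CfsgLib.Leech

open Cfsg CfsgLib.Golay
open scoped Pointwise

/-- A lattice vector can be moved by the monomial subgroup to the vector of a list. -/
def NMoves (x : leechLattice) (R : List ℤ) : Prop :=
  ∃ n ∈ stdSub, ((n • x : leechLattice) : GolayPt → ℤ) = vecL R

theorem NEq.nmoves {x : leechLattice} {R : List ℤ} (h : NEq (x : GolayPt → ℤ) R) : NMoves x R := by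
  obtain ⟨σ, hσ, w, hw, he⟩ := h
  refine ⟨mono σ (fs w) hσ (fs_mem_supports hw), mono_stdP _ _ _ _, ?_⟩
  rw [mono_apply]
  exact he

theorem NMoves.flip {x : leechLattice} {R : List ℤ} (h : NMoves x R) {w : ℕ} (hw : w ∈ allCode) :
    NMoves x (sgnVec R w) := by
  obtain ⟨g, hgm, hg⟩ := h
  refine ⟨mono 1 (fs w) M24.one_mem (fs_mem_supports hw) * g, stdSub.mul_mem (mono_stdP _ _ _ _) hgm, ?_⟩
  rw [mul_smul, mono_apply, hg, vecL_sgnVec]
  rfl

theorem NMoves.monoStep {x : leechLattice} {R : List ℤ} (h : NMoves x R) {t : ℕ} (ht : isAut t = true) :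
    NMoves x (monoL t 0 R) := by
  obtain ⟨g, hgm, hg⟩ := h
  refine ⟨mono (CfsgLib.Golay.mk t) (fs 0) (mk_mem_M24 ht) (fs_mem_supports zero_mem_allCode) * g,
    stdSub.mul_mem (mono_stdP _ _ _ _) hgm, ?_⟩
  rw [mul_smul, mono_apply, hg]
  exact signedPerm_vecL (isAut_valid ht) _ _

theorem signTo_nmoves {x : leechLattice} {L R : List ℤ} (h : NMoves x L) (hs : signTo L R = true) : NMoves x R := by
  have h1 := h.flip (w := wit E_R2 (negMask L ^^^ negMask R)) (wit_mem E_R2_mem _)
  have h2 : sgnVec L (wit E_R2 (negMask L ^^^ negMask R)) = R := beq_iff_eq.mp hs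
  rwa [h2] at h1

theorem even_step_R2' {x : leechLattice} {c : Finset GolayPt} (hd : LeechData (x : GolayPt → ℤ) 0 c)
    (hN : sqNorm (x : GolayPt → ℤ) ≤ 64) {σ : Equiv.Perm GolayPt} (hσ : σ ∈ M24)
    (h1 : σ • c = fs (octO ^^^ 0xffffff)) (h2 : σ • absS (x : GolayPt → ℤ) 4 = fs 0)
    (h3 : σ • absS (x : GolayPt → ℤ) 6 = fs 0) (h4 : σ • absS (x : GolayPt → ℤ) 8 = fs 0) :
    NMoves x R2a ∨ NMoves x R2b := by
  have hx' : (fun i => (x : GolayPt → ℤ) (σ⁻¹ i)) ∈ leechLattice := comp_mem (M24.inv_mem hσ) x.2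
  obtain ⟨w, hw, D, hD, hv, hl⟩ := sign_reduce hx' (even_abs hd hN h1 h2 h3 h4) red_R2
  have hm : NMoves x (sgnVec (prof 0 0 0 (octO ^^^ 0xffffff)) D) := NEq.nmoves ⟨σ, hσ, w, hw, hv.symm⟩
  have hc := List.all_eq_true.mp r2Chk_ok D hD
  simp only [hl, Bool.not_true, Bool.false_or, Bool.or_eq_true, List.any_eq_true, Bool.and_eq_true] at hc
  rcases hc with hc | ⟨t, -, ht, hc⟩
  · exact Or.inl (signTo_nmoves hm hc)
  · exact Or.inr (signTo_nmoves (hm.monoStep ht) hc)

/-- The odd step from the counts. -/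
theorem odd_nmove {x : leechLattice} {c : Finset GolayPt} (hd : LeechData (x : GolayPt → ℤ) 1 c)
    (hN : sqNorm (x : GolayPt → ℤ) ≤ 64) {F3 F5 : ℕ} (h0 : F3 &&& F5 = 0)
    (h1 : (valS (oddY x c) (-3)).card = pop F3) (h2 : (valS (oddY x c) 5).card = pop F5)
    (h3 : pop F3 + pop F5 ≤ 5) : NMoves x (profOdd F3 F5) := by
  obtain ⟨σ, hσ, e1, e2⟩ := M24_map_two (s := valS (oddY x c) (-3)) (t := valS (oddY x c) 5)
    (s' := fs F3) (t' := fs F5) (disj_valS (by norm_num)) (fs_disj_of_land h0)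
    (by rw [card_fs]; exact h1) (by rw [card_fs]; exact h2) (by rw [h1, h2]; exact h3)
  exact NEq.nmoves (odd_step hd hN hσ e1 e2)

/-- The representatives of norm 32. -/
def reps32 : List (List ℤ) := [Ra32, Rb32, profOdd 1 0]
/-- The representatives of norm 48. -/
def reps48 : List (List ℤ) := [profOdd 0 1, profOdd 7 0, Ra48, Rc48]
/-- The representatives of norm 64. -/
def reps64 : List (List ℤ) := [R8, R4444, R6222, R44222, R4212, R2a, R2b, profOdd 31 0, profOdd 6 1]

/-- The norm 32 case. -/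
theorem nf32 (x : leechLattice) (hN : sqNorm (x : GolayPt → ℤ) = 32) : ∃ R ∈ reps32, NMoves x R := by
  obtain ⟨m, c, hd⟩ := mem_leech_iff.mp x.2
  rcases hd.hm with rfl | rfl
  · have hcount := even_count hd (by omega)
    have h6 := Finset.card_le_card (absS_six_subset hd (by omega))
    rcases sup_card hd.hc with h | h | h | h | h <;> rw [h] at h6 hcount
    · have e6 : (absS (x : GolayPt → ℤ) 6).card = 0 := by omega
      have e4 : (absS (x : GolayPt → ℤ) 4).card = 2 := by omega
      have e8 : (absS (x : GolayPt → ℤ) 8).card = 0 := by omega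
      obtain ⟨σ, hσ, hs⟩ := M24_map_finset (s := absS (x : GolayPt → ℤ) 4) (t := fs 3)
        (by rw [e4, card_fs]; rfl) (by omega)
      exact ⟨Ra32, by decide +kernel, NEq.nmoves (even_step_red x.2 hd (by omega) hσ (smul_fs_zero σ h) hs (smul_fs_zero σ e6)
        (smul_fs_zero σ e8) red_Ra32 chk_Ra32)⟩
    · have e6 : (absS (x : GolayPt → ℤ) 6).card = 0 := by omega
      have e4 : (absS (x : GolayPt → ℤ) 4).card = 0 := by omega
      have e8 : (absS (x : GolayPt → ℤ) 8).card = 0 := by omega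
      have ho : c ∈ octads := ⟨hd.hc, h⟩
      obtain ⟨σ, hσ, hs⟩ := M24_octad_trans ho (O0_mem)
      exact ⟨Rb32, by decide +kernel, NEq.nmoves (even_step_red x.2 hd (by omega) hσ hs (smul_fs_zero σ e4) (smul_fs_zero σ e6)
        (smul_fs_zero σ e8) red_Rb32 chk_Rb32)⟩
    all_goals omega
  · have hcount := odd_count hd (by omega)
    have e3 : (valS (oddY (x : GolayPt → ℤ) c) (-3)).card = 1 := by omega
    have e5 : (valS (oddY (x : GolayPt → ℤ) c) 5).card = 0 := by omega
    exact ⟨profOdd 1 0, by decide +kernel, odd_nmove (F3 := 1) (F5 := 0) hd (by omega) (by decide) (by rw [e3]; rfl) (by rw [e5]; rfl) (by decide)⟩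

/-- The norm 48 case. -/
theorem nf48 (x : leechLattice) (hN : sqNorm (x : GolayPt → ℤ) = 48) : ∃ R ∈ reps48, NMoves x R := by
  obtain ⟨m, c, hd⟩ := mem_leech_iff.mp x.2
  rcases hd.hm with rfl | rfl
  · have hcount := even_count hd (by omega)
    have h6 := Finset.card_le_card (absS_six_subset hd (by omega))
    rcases sup_card hd.hc with h | h | h | h | h <;> rw [h] at h6 hcount
    · have e6 : (absS (x : GolayPt → ℤ) 6).card = 0 := by omega
      have e4 : (absS (x : GolayPt → ℤ) 4).card = 3 := by omega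
      have e8 : (absS (x : GolayPt → ℤ) 8).card = 0 := by omega
      obtain ⟨σ, hσ, hs⟩ := M24_map_finset (s := absS (x : GolayPt → ℤ) 4) (t := fs 7)
        (by rw [e4, card_fs]; rfl) (by omega)
      exact (even_none x.2 hd (by omega) hσ (smul_fs_zero σ h) hs (smul_fs_zero σ e6)
        (smul_fs_zero σ e8) (by decide) (by decide +kernel) none_R444).elim
    · have e6 : (absS (x : GolayPt → ℤ) 6).card = 0 := by omega
      have e4 : (absS (x : GolayPt → ℤ) 4).card = 1 := by omega
      have e8 : (absS (x : GolayPt → ℤ) 8).card = 0 := by omega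
      have ho : c ∈ octads := ⟨hd.hc, h⟩
      obtain ⟨a, ha⟩ := Finset.card_eq_one.mp e4
      have ha' : a ∉ c := absS_four_disj hd (by omega) (by rw [ha]; simp)
      obtain ⟨u, hu, h1, h2⟩ := exists_conj_antiflag ho ha'
      have hσ : u⁻¹ ∈ M24 := M24.inv_mem hu
      have hs : u⁻¹ • c = fs octO := by rw [← h1, inv_smul_smul]
      have hs4 : u⁻¹ • absS (x : GolayPt → ℤ) 4 = fs 32 := by
        rw [ha]
        exact smul_singleton_fs (k := 5) (by norm_num) (by rw [← h2]; simp)
      exact ⟨Rc48, by decide +kernel, NEq.nmoves (even_step_red x.2 hd (by omega) hσ hs hs4 (smul_fs_zero _ e6)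
        (smul_fs_zero _ e8) red_Rc48 chk_Rc48)⟩
    · have e6 : (absS (x : GolayPt → ℤ) 6).card = 0 := by omega
      have e4 : (absS (x : GolayPt → ℤ) 4).card = 0 := by omega
      have e8 : (absS (x : GolayPt → ℤ) 8).card = 0 := by omega
      have ho : c ∈ dodecads := ⟨hd.hc, h⟩
      obtain ⟨σ, hσ, hs⟩ := M24_dodecad_trans ho Dd0_mem
      exact ⟨Ra48, by decide +kernel, NEq.nmoves (even_step_red x.2 hd (by omega) hσ hs (smul_fs_zero σ e4) (smul_fs_zero σ e6)
        (smul_fs_zero σ e8) red_Ra48 chk_Ra48)⟩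
    all_goals omega
  · have hcount := odd_count hd (by omega)
    have hcases : ((valS (oddY (x : GolayPt → ℤ) c) (-3)).card = 3 ∧ (valS (oddY (x : GolayPt → ℤ) c) 5).card = 0) ∨
        ((valS (oddY (x : GolayPt → ℤ) c) (-3)).card = 0 ∧ (valS (oddY (x : GolayPt → ℤ) c) 5).card = 1) := by omega
    rcases hcases with ⟨e3, e5⟩ | ⟨e3, e5⟩
    · exact ⟨profOdd 7 0, by decide +kernel, odd_nmove (F3 := 7) (F5 := 0) hd (by omega) (by decide) (by rw [e3]; rfl) (by rw [e5]; rfl) (by decide)⟩
    · exact ⟨profOdd 0 1, by decide +kernel, odd_nmove (F3 := 0) (F5 := 1) hd (by omega) (by decide) (by rw [e3]; rfl) (by rw [e5]; rfl) (by decide)⟩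

/-- The norm 64 case. -/
theorem nf64 (x : leechLattice) (hN : sqNorm (x : GolayPt → ℤ) = 64) : ∃ R ∈ reps64, NMoves x R := by
  obtain ⟨m, c, hd⟩ := mem_leech_iff.mp x.2
  rcases hd.hm with rfl | rfl
  · have hcount := even_count hd (by omega)
    have h6 := Finset.card_le_card (absS_six_subset hd (by omega))
    rcases sup_card hd.hc with h | h | h | h | h <;> rw [h] at h6 hcount
    · have e6 : (absS (x : GolayPt → ℤ) 6).card = 0 := by omega
      have hcases : ((absS (x : GolayPt → ℤ) 4).card = 4 ∧ (absS (x : GolayPt → ℤ) 8).card = 0) ∨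
          ((absS (x : GolayPt → ℤ) 4).card = 0 ∧ (absS (x : GolayPt → ℤ) 8).card = 1) := by omega
      rcases hcases with ⟨e4, e8⟩ | ⟨e4, e8⟩
      · obtain ⟨σ, hσ, hs⟩ := M24_map_finset (s := absS (x : GolayPt → ℤ) 4) (t := fs 15)
          (by rw [e4, card_fs]; rfl) (by omega)
        exact ⟨R4444, by decide +kernel, NEq.nmoves (even_step_red x.2 hd (by omega) hσ (smul_fs_zero σ h) hs
          (smul_fs_zero σ e6) (smul_fs_zero σ e8) red_R4444 chk_R4444)⟩
      · obtain ⟨σ, hσ, hs⟩ := M24_map_finset (s := absS (x : GolayPt → ℤ) 8) (t := fs 1)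
          (by rw [e8, card_fs]; rfl) (by omega)
        exact ⟨R8, by decide +kernel, NEq.nmoves (even_step_red x.2 hd (by omega) hσ (smul_fs_zero σ h) (smul_fs_zero σ e4)
          (smul_fs_zero σ e6) hs red_R8 chk_R8)⟩
    · have ho : c ∈ octads := ⟨hd.hc, h⟩
      have e8 : (absS (x : GolayPt → ℤ) 8).card = 0 := by omega
      have hcases : ((absS (x : GolayPt → ℤ) 6).card = 1 ∧ (absS (x : GolayPt → ℤ) 4).card = 0) ∨
          ((absS (x : GolayPt → ℤ) 6).card = 0 ∧ (absS (x : GolayPt → ℤ) 4).card = 2) := by omega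
      rcases hcases with ⟨e6, e4⟩ | ⟨e6, e4⟩
      · obtain ⟨a, ha⟩ := Finset.card_eq_one.mp e6
        have ha' : a ∈ c := absS_six_subset hd (by omega) (by rw [ha]; simp)
        obtain ⟨u, hu, h1, h2⟩ := exists_conj_flag ho ha'
        have hσ : u⁻¹ ∈ M24 := M24.inv_mem hu
        have hs : u⁻¹ • c = fs octO := by rw [← h1, inv_smul_smul]
        have hs6 : u⁻¹ • absS (x : GolayPt → ℤ) 6 = fs 1 := by
          rw [ha]
          exact smul_singleton_fs (k := 0) (by norm_num) (by rw [← h2]; simp)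
        exact ⟨R6222, by decide +kernel, NEq.nmoves (even_step_red x.2 hd (by omega) hσ hs (smul_fs_zero _ e4)
          hs6 (smul_fs_zero _ e8) red_R6222 chk_R6222)⟩
      · obtain ⟨a, b, hab, hA⟩ := Finset.card_eq_two.mp e4
        have ha' : a ∉ c := absS_four_disj hd (by omega) (by rw [hA]; simp)
        have hb' : b ∉ c := absS_four_disj hd (by omega) (by rw [hA]; simp)
        obtain ⟨u, hu, h1, h2⟩ := exists_conj_antiflag ho ha'
        have hσ : u⁻¹ ∈ M24 := M24.inv_mem hu
        have hs : u⁻¹ • c = fs octO := by rw [← h1, inv_smul_smul]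
        have h2' : u⁻¹ a = pt 5 := by rw [← h2]; simp
        have hi := idx_lt (u⁻¹ b)
        have hib : pt (idx (u⁻¹ b)) = u⁻¹ b := pt_idx _
        have hi5 : idx (u⁻¹ b) ≠ 5 := by
          intro h3
          rw [h3, ← h2'] at hib
          exact hab (u⁻¹.injective hib)
        have hiO : (octO).testBit (idx (u⁻¹ b)) = false := by
          cases h3 : (octO).testBit (idx (u⁻¹ b))
          · rfl
          · exfalso
            have h4 : u⁻¹ b ∈ fs octO := mem_fs.mpr h3
            rw [← hs, mem_smul_iff_inv] at h4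
            simp at h4
            exact hb' h4
        have hc := List.all_eq_true.mp pairChk_ok (idx (u⁻¹ b)) (List.mem_range.mpr hi)
        simp only [hiO, Bool.false_or, Bool.or_eq_true, beq_iff_eq, hi5, false_or, List.any_eq_true,
          Bool.and_eq_true] at hc
        obtain ⟨g, -, ⟨⟨hg1, hg2⟩, hg3⟩, hg4⟩ := hc
        have hv := isAut_valid hg1
        have hτ := mk_mem_M24 hg1
        have hs' : (CfsgLib.Golay.mk g * u⁻¹) • c = fs octO := by
          rw [mul_smul, hs, ← fs_img hv, hg4]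
        have hs4 : (CfsgLib.Golay.mk g * u⁻¹) • absS (x : GolayPt → ℤ) 4 = fs 96 := by
          rw [hA]
          refine smul_pair_fs (k := 5) (l := 6) (by norm_num) (by norm_num) (by norm_num) ?_ ?_
          · rw [Equiv.Perm.mul_apply, h2', mk_pt hv (by norm_num), hg2]
          · rw [Equiv.Perm.mul_apply, ← hib, mk_pt hv hi, hg3]
        exact ⟨R44222, by decide +kernel, NEq.nmoves (even_step_red x.2 hd (by omega) (M24.mul_mem hτ hσ) hs' hs4
          (smul_fs_zero _ e6) (smul_fs_zero _ e8) red_R44222 chk_R44222)⟩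
    · have hcc : cᶜ ∈ dodecads := ⟨sup_compl hd.hc, by rw [Finset.card_compl, h]; decide⟩
      have e6 : (absS (x : GolayPt → ℤ) 6).card = 0 := by omega
      have e4 : (absS (x : GolayPt → ℤ) 4).card = 1 := by omega
      have e8 : (absS (x : GolayPt → ℤ) 8).card = 0 := by omega
      obtain ⟨a, ha⟩ := Finset.card_eq_one.mp e4
      have ha' : a ∉ c := absS_four_disj hd (by omega) (by rw [ha]; simp)
      obtain ⟨u, hu, h1, h2⟩ := exists_conj_Dd0_pt hcc (Finset.mem_compl.mpr ha')
      have hσ : u⁻¹ ∈ M24 := M24.inv_mem hu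
      have hs : u⁻¹ • c = fs (dod0 ^^^ 0xffffff) := by
        apply smul_compl_eq
        rw [← h1, inv_smul_smul]
      have hs4 : u⁻¹ • absS (x : GolayPt → ℤ) 4 = fs 1 := by
        rw [ha]
        exact smul_singleton_fs (k := 0) (by norm_num) (by rw [← h2]; simp)
      exact ⟨R4212, by decide +kernel, NEq.nmoves (even_step_red x.2 hd (by omega) hσ hs hs4
        (smul_fs_zero _ e6) (smul_fs_zero _ e8) red_R4212 chk_R4212)⟩
    · have hcc : cᶜ ∈ octads := ⟨sup_compl hd.hc, by rw [Finset.card_compl, h]; decide⟩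
      have e6 : (absS (x : GolayPt → ℤ) 6).card = 0 := by omega
      have e4 : (absS (x : GolayPt → ℤ) 4).card = 0 := by omega
      have e8 : (absS (x : GolayPt → ℤ) 8).card = 0 := by omega
      obtain ⟨σ, hσ, hs⟩ := M24_octad_trans hcc (O0_mem)
      rcases even_step_R2' hd (by omega) hσ (smul_compl_eq hs) (smul_fs_zero σ e4) (smul_fs_zero σ e6)
        (smul_fs_zero σ e8) with h1 | h1
      · exact ⟨R2a, by decide +kernel, h1⟩
      · exact ⟨R2b, by decide +kernel, h1⟩
    · omega
  · have hcount := odd_count hd (by omega)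
    have hcases : ((valS (oddY (x : GolayPt → ℤ) c) (-3)).card = 5 ∧ (valS (oddY (x : GolayPt → ℤ) c) 5).card = 0) ∨
        ((valS (oddY (x : GolayPt → ℤ) c) (-3)).card = 2 ∧ (valS (oddY (x : GolayPt → ℤ) c) 5).card = 1) := by omega
    rcases hcases with ⟨e3, e5⟩ | ⟨e3, e5⟩
    · exact ⟨profOdd 31 0, by decide +kernel, odd_nmove (F3 := 31) (F5 := 0) hd (by omega) (by decide) (by rw [e3]; rfl) (by rw [e5]; rfl) (by decide)⟩
    · exact ⟨profOdd 6 1, by decide +kernel, odd_nmove (F3 := 6) (F5 := 1) hd (by omega) (by decide) (by rw [e3]; rfl) (by rw [e5]; rfl) (by decide)⟩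


end CfsgLib.Leech
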