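/-
The monomial subgroup is a maximal subgroup of the automorphism group of the lattice.
-/
import Cfsg.Agent.Lib.Leech.Nf64N

set_option autoImplicit false
set_option maxRecDepth 100000

namespace CfsgLib.Leech

open Cfsg CfsgLib.Golay
open scoped Pointwise

open Classical in
/-- The element of a step. -/
noncomputable def stepEl (s : ℕ × ℕ) : ↥Co0 :=
  if s.1 = 0 then xiEl else
    if h : isAut s.1 = true ∧ isCode s.2 = true then
      mono (CfsgLib.Golay.mk s.1) (fs s.2) (mk_mem_M24 h.1) (fs_mem_supports (mem_allCode_of_isCode h.2))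
    else 1

theorem stepEl_apply {s : ℕ × ℕ} (hs : stepOK s = true) (L : List ℤ) (hL : vecL L ∈ leechLattice) :
    ((stepEl s • (⟨vecL L, hL⟩ : leechLattice) : leechLattice) : GolayPt → ℤ) = vecL (stepL s L) := by
  by_cases h0 : s.1 = 0
  · have h1 : stepEl s = xiEl := by
      unfold stepEl
      rw [if_pos h0]
    rw [h1, xiEl_apply]
    simp only [stepL, h0, beq_self_eq_true, if_true]
    exact xiFun_vecL L
  · simp only [stepOK, Bool.or_eq_true, beq_iff_eq, h0, false_or, Bool.and_eq_true] at hs
    have hv := isAut_valid hs.1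
    have h1 : stepEl s = mono (CfsgLib.Golay.mk s.1) (fs s.2) (mk_mem_M24 hs.1)
        (fs_mem_supports (mem_allCode_of_isCode hs.2)) := by
      unfold stepEl
      rw [if_neg h0, dif_pos hs]
    rw [h1, mono_apply]
    have h2 : stepL s L = monoL s.1 s.2 L := by
      simp [stepL, h0]
    rw [h2]
    exact signedPerm_vecL hv _ _

theorem stepEl_mono_mem {s : ℕ × ℕ} (h0 : s.1 ≠ 0) : stepEl s ∈ stdSub := by
  unfold stepEl
  rw [if_neg h0]
  split_ifs
  · exact mono_stdP _ _ _ _
  · exact stdSub.one_mem

/-- The element of a path. -/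
noncomputable def pathEl : List (ℕ × ℕ) → ↥Co0
  | [] => 1
  | s :: ss => pathEl ss * stepEl s

theorem pathEl_apply (ss : List (ℕ × ℕ)) (hs : ss.all stepOK = true) (L : List ℤ) (hL : vecL L ∈ leechLattice) :
    ((pathEl ss • (⟨vecL L, hL⟩ : leechLattice) : leechLattice) : GolayPt → ℤ) =
      vecL (ss.foldl (fun M s => stepL s M) L) := by
  induction ss generalizing L with
  | nil =>
    simp [pathEl]
  | cons s ss ih =>
    simp only [List.all_cons, Bool.and_eq_true] at hs
    have h1 := stepEl_apply hs.1 L hL
    have h2 : vecL (stepL s L) ∈ leechLattice := by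
      rw [← h1]
      exact (stepEl s • (⟨vecL L, hL⟩ : leechLattice)).2
    have h3 : stepEl s • (⟨vecL L, hL⟩ : leechLattice) = ⟨vecL (stepL s L), h2⟩ := Subtype.ext h1
    simp only [pathEl, mul_smul, List.foldl_cons]
    rw [h3]
    exact ih hs.2 _ h2

theorem stepEl_mem {K : Subgroup ↥Co0} (hN : stdSub ≤ K) (hξ : xiEl ∈ K) (s : ℕ × ℕ) : stepEl s ∈ K := by
  by_cases h0 : s.1 = 0
  · unfold stepEl
    rw [if_pos h0]
    exact hξ
  · exact hN (stepEl_mono_mem h0)

theorem pathEl_mem {K : Subgroup ↥Co0} (hN : stdSub ≤ K) (hξ : xiEl ∈ K) (ss : List (ℕ × ℕ)) : pathEl ss ∈ K := by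
  induction ss with
  | nil => exact K.one_mem
  | cons s ss ih => exact K.mul_mem ih (stepEl_mem hN hξ s)

/-- The vector of a list lies in the orbit of the subgroup. -/
def InK (K : Subgroup ↥Co0) (L : List ℤ) : Prop :=
  ∃ k ∈ K, ((k • e8 (pt 0) : leechLattice) : GolayPt → ℤ) = vecL L

theorem InK.mem {K : Subgroup ↥Co0} {L : List ℤ} (h : InK K L) : vecL L ∈ leechLattice := by
  obtain ⟨k, -, hk⟩ := h
  rw [← hk]
  exact (k • e8 (pt 0)).2

theorem InK.monoS {K : Subgroup ↥Co0} {L : List ℤ} (h : InK K L) (hN : stdSub ≤ K) {t c : ℕ}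
    (ht : isAut t = true) (hc : isCode c = true) : InK K (monoL t c L) := by
  obtain ⟨k, hkK, hk⟩ := h
  refine ⟨mono (CfsgLib.Golay.mk t) (fs c) (mk_mem_M24 ht) (fs_mem_supports (mem_allCode_of_isCode hc)) * k,
    K.mul_mem (hN (mono_stdP _ _ _ _)) hkK, ?_⟩
  rw [mul_smul, mono_apply, hk]
  exact signedPerm_vecL (isAut_valid ht) _ _

theorem InK.applyP {K : Subgroup ↥Co0} {L : List ℤ} (h : InK K L) {P : List (ℕ × ℕ)} (hP : pathEl P ∈ K)
    (hok : P.all stepOK = true) : InK K (P.foldl (fun M s => stepL s M) L) := by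
  have hm := h.mem
  obtain ⟨k, hkK, hk⟩ := h
  refine ⟨pathEl P * k, K.mul_mem hP hkK, ?_⟩
  rw [mul_smul]
  have h3 : k • e8 (pt 0) = ⟨vecL L, hm⟩ := Subtype.ext hk
  rw [h3]
  exact pathEl_apply P hok L hm

theorem mem_of_fix {K : Subgroup ↥Co0} (hN : stdSub ≤ K) {a b : ↥Co0} (hb : b ∈ K)
    (h : (a * b) • e8 (pt 0) = e8 (pt 0)) : a ∈ K := by
  have h1 : a * b ∈ K := hN (stab_le_std h)
  have h2 := K.mul_mem h1 (K.inv_mem hb)
  simpa using h2

theorem InK.path_mem {K : Subgroup ↥Co0} {R : List ℤ} (h : InK K R) (hN : stdSub ≤ K) {P : List (ℕ × ℕ)}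
    (hok : P.all stepOK = true) (he : P.foldl (fun M s => stepL s M) R = R8) : pathEl P ∈ K := by
  have hm := h.mem
  obtain ⟨k, hkK, hk⟩ := h
  refine mem_of_fix hN hkK (Subtype.ext ?_)
  rw [mul_smul]
  have h3 : k • e8 (pt 0) = ⟨vecL R, hm⟩ := Subtype.ext hk
  rw [h3, pathEl_apply P hok R hm, he, vecL_R8]
  rfl

theorem path_R4444_eq : path_R4444 = [(417156450836801001597284046454867127, 12615032), (0, 0),
    (527356847651593345247534105122442305, 262637)] := rfl

/-- Passing through the vector of four fours gives the special element. -/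
theorem xi_of_R4444 {K : Subgroup ↥Co0} (h : InK K R4444) (hN : stdSub ≤ K) : xiEl ∈ K := by
  have h1 := h.path_mem hN path_ok_R4444 path_eq_R4444
  rw [path_R4444_eq] at h1
  simp only [pathEl, one_mul] at h1
  have h2 : stepEl (417156450836801001597284046454867127, 12615032) ∈ K :=
    hN (stepEl_mono_mem (by decide))
  have h3 : stepEl (527356847651593345247534105122442305, 262637) ∈ K :=
    hN (stepEl_mono_mem (by decide))
  have h4 : stepEl (0, 0) = xiEl := by
    unfold stepEl
    rw [if_pos rfl]
  rw [h4] at h1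
  have h5 := K.mul_mem (K.mul_mem (K.inv_mem h3) h1) (K.inv_mem h2)
  simpa [mul_assoc] using h5

theorem lnk_R44222 : monoL 349971831748058041540680883560134784 3410225 (path_R44222.foldl (fun M s => stepL s M) (monoL 892552002244974036195347069540189474 16777215 R44222)) = R4444 := by
  decide +kernel

theorem inK_R44222 {K : Subgroup ↥Co0} (h : InK K R44222) (hN : stdSub ≤ K) : InK K R4444 := by
  have hP := h.path_mem hN path_ok_R44222 path_eq_R44222
  have h1 := ((h.monoS hN (t := 892552002244974036195347069540189474) (c := 16777215) (by decide +kernel) (by decide +kernel)).applyP hP path_ok_R44222).monoS hN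
    (t := 349971831748058041540680883560134784) (c := 3410225) (by decide +kernel) (by decide +kernel)
  rwa [lnk_R44222] at h1

theorem lnk_R6222 : monoL 441496190535885759698841299198352512 2887007 (path_R6222.foldl (fun M s => stepL s M) (monoL 487121930295178253645320272825323906 427666 R6222)) = R4444 := by
  decide +kernel

theorem inK_R6222 {K : Subgroup ↥Co0} (h : InK K R6222) (hN : stdSub ≤ K) : InK K R4444 := by
  have hP := h.path_mem hN path_ok_R6222 path_eq_R6222
  have h1 := ((h.monoS hN (t := 487121930295178253645320272825323906) (c := 427666) (by decide +kernel) (by decide +kernel)).applyP hP path_ok_R6222).monoS hN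
    (t := 441496190535885759698841299198352512) (c := 2887007) (by decide +kernel) (by decide +kernel)
  rwa [lnk_R6222] at h1

theorem lnk_R2a : monoL 144859928576953491767062388352983168 2887007 (path_R2a.foldl (fun M s => stepL s M) (monoL 804137264949086200487655194941728993 14940796 R2a)) = R4444 := by
  decide +kernel

theorem inK_R2a {K : Subgroup ↥Co0} (h : InK K R2a) (hN : stdSub ≤ K) : InK K R4444 := by
  have hP := h.path_mem hN path_ok_R2a path_eq_R2a
  have h1 := ((h.monoS hN (t := 804137264949086200487655194941728993) (c := 14940796) (by decide +kernel) (by decide +kernel)).applyP hP path_ok_R2a).monoS hN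
    (t := 144859928576953491767062388352983168) (c := 2887007) (by decide +kernel) (by decide +kernel)
  rwa [lnk_R2a] at h1

theorem lnk_R35 : monoL 893984778604866654235712962365463556 3147996 (path_R35.foldl (fun M s => stepL s M) (monoL 970055251868148682540450364586542181 5494763 (profOdd 31 0))) = R4444 := by
  decide +kernel

theorem inK_R35 {K : Subgroup ↥Co0} (h : InK K (profOdd 31 0)) (hN : stdSub ≤ K) : InK K R4444 := by
  have hP := h.path_mem hN path_ok_R35 path_eq_R35
  have h1 := ((h.monoS hN (t := 970055251868148682540450364586542181) (c := 5494763) (by decide +kernel) (by decide +kernel)).applyP hP path_ok_R35).monoS hN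
    (t := 893984778604866654235712962365463556) (c := 3147996) (by decide +kernel) (by decide +kernel)
  rwa [lnk_R35] at h1

theorem lnk_R533 : monoL 597238434742378099472777676198222180 3672838 (path_R533.foldl (fun M s => stepL s M) (monoL 499320051457476391995486101038387914 11178791 (profOdd 6 1))) = R4444 := by
  decide +kernel

theorem inK_R533 {K : Subgroup ↥Co0} (h : InK K (profOdd 6 1)) (hN : stdSub ≤ K) : InK K R4444 := by
  have hP := h.path_mem hN path_ok_R533 path_eq_R533
  have h1 := ((h.monoS hN (t := 499320051457476391995486101038387914) (c := 11178791) (by decide +kernel) (by decide +kernel)).applyP hP path_ok_R533).monoS hN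
    (t := 597238434742378099472777676198222180) (c := 3672838) (by decide +kernel) (by decide +kernel)
  rwa [lnk_R533] at h1

theorem lnk_R4212 : monoL 49510639841618588207705173121292018 5938625 (path_R4212.foldl (fun M s => stepL s M) (monoL 901445880291139687085706789245829286 12477434 R4212)) = R44222 := by
  decide +kernel

theorem inK_R4212 {K : Subgroup ↥Co0} (h : InK K R4212) (hN : stdSub ≤ K) : InK K R44222 := by
  have hP := h.path_mem hN path_ok_R4212 path_eq_R4212
  have h1 := ((h.monoS hN (t := 901445880291139687085706789245829286) (c := 12477434) (by decide +kernel) (by decide +kernel)).applyP hP path_ok_R4212).monoS hN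
    (t := 49510639841618588207705173121292018) (c := 5938625) (by decide +kernel) (by decide +kernel)
  rwa [lnk_R4212] at h1

theorem lnk_R2b : monoL 134284923181822424479799456342251944 8327569 (path_R2b.foldl (fun M s => stepL s M) (monoL 140616033822611154182314613292716615 12399660 R2b)) = R44222 := by
  decide +kernel

theorem inK_R2b {K : Subgroup ↥Co0} (h : InK K R2b) (hN : stdSub ≤ K) : InK K R44222 := by
  have hP := h.path_mem hN path_ok_R2b path_eq_R2b
  have h1 := ((h.monoS hN (t := 140616033822611154182314613292716615) (c := 12399660) (by decide +kernel) (by decide +kernel)).applyP hP path_ok_R2b).monoS hN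
    (t := 134284923181822424479799456342251944) (c := 8327569) (by decide +kernel) (by decide +kernel)
  rwa [lnk_R2b] at h1

/-- If the subgroup contains the special element it is everything. -/
theorem top_of_xi {K : Subgroup ↥Co0} (hN : stdSub ≤ K) (hξ : xiEl ∈ K) : K = ⊤ := by
  rw [eq_top_iff]
  intro g _
  obtain ⟨R, hR, n, hn, he⟩ := nf64 (g • e8 (pt 0)) (by rw [sqNorm_smul_Co0]; exact stdCross_norm (e8_mem_std _))
  have hm : vecL R ∈ leechLattice := by
    rw [← he]
    exact (n • g • e8 (pt 0)).2
  have key : ∀ P : List (ℕ × ℕ), P.all stepOK = true → P.foldl (fun M s => stepL s M) R = R8 → g ∈ K := by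
    intro P hok hf
    have h1 : (pathEl P * n) ∈ K := K.mul_mem (pathEl_mem hN hξ P) (hN hn)
    have h2 : ((pathEl P * n)⁻¹ * (pathEl P * n * g)) = g := by group
    rw [← h2]
    refine K.mul_mem (K.inv_mem h1) (hN (stab_le_std ?_))
    apply Subtype.ext
    change ((pathEl P • n • g • e8 (pt 0) : leechLattice) : GolayPt → ℤ) = _
    have h3 : n • g • e8 (pt 0) = ⟨vecL R, hm⟩ := Subtype.ext he
    rw [h3, pathEl_apply P hok R hm, hf, vecL_R8]
    rfl
  simp only [reps64, List.mem_cons, List.not_mem_nil, or_false] at hR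
  rcases hR with rfl | rfl | rfl | rfl | rfl | rfl | rfl | rfl | rfl
  · exact key [] rfl rfl
  · exact key _ path_ok_R4444 path_eq_R4444
  · exact key _ path_ok_R6222 path_eq_R6222
  · exact key _ path_ok_R44222 path_eq_R44222
  · exact key _ path_ok_R4212 path_eq_R4212
  · exact key _ path_ok_R2a path_eq_R2a
  · exact key _ path_ok_R2b path_eq_R2b
  · exact key _ path_ok_R35 path_eq_R35
  · exact key _ path_ok_R533 path_eq_R533

theorem stdSub_ne_top : stdSub ≠ ⊤ := by
  intro h
  have h1 := card_stdSub
  rw [h] at h1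
  have h2 : Nat.card (⊤ : Subgroup ↥Co0) = Nat.card ↥Co0 := Nat.card_congr Subgroup.topEquiv.toEquiv
  rw [h2, card_Co0] at h1
  norm_num at h1

/-- The monomial subgroup is a maximal subgroup. -/
theorem stdSub_coatom : IsCoatom stdSub := by
  refine ⟨stdSub_ne_top, fun K hK => ?_⟩
  have hN : stdSub ≤ K := hK.le
  obtain ⟨g, hgK, hg⟩ := SetLike.exists_of_lt hK
  obtain ⟨R, hR, n, hn, he⟩ := nf64 (g • e8 (pt 0)) (by rw [sqNorm_smul_Co0]; exact stdCross_norm (e8_mem_std _))
  have hin : InK K R := ⟨n * g, K.mul_mem (hN hn) hgK, by rw [mul_smul]; exact he⟩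
  apply top_of_xi hN
  simp only [reps64, List.mem_cons, List.not_mem_nil, or_false] at hR
  rcases hR with rfl | rfl | rfl | rfl | rfl | rfl | rfl | rfl | rfl
  · exfalso
    apply hg
    have h1 : (n * g) • e8 (pt 0) = e8 (pt 0) := by
      apply Subtype.ext
      rw [mul_smul, he, vecL_R8]
      rfl
    have h2 : n * g ∈ stdSub := stab_le_std h1
    have h3 := stdSub.mul_mem (stdSub.inv_mem hn) h2
    simpa using h3
  · exact xi_of_R4444 hin hN
  · exact xi_of_R4444 (inK_R6222 hin hN) hN
  · exact xi_of_R4444 (inK_R44222 hin hN) hN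
  · exact xi_of_R4444 (inK_R44222 (inK_R4212 hin hN) hN) hN
  · exact xi_of_R4444 (inK_R2a hin hN) hN
  · exact xi_of_R4444 (inK_R44222 (inK_R2b hin hN) hN) hN
  · exact xi_of_R4444 (inK_R35 hin hN) hN
  · exact xi_of_R4444 (inK_R533 hin hN) hN

end CfsgLib.Leech
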