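/-
The monomial subgroup of the automorphism group of the lattice.
-/
import Cfsg.Agent.Lib.Leech.Gens
import Cfsg.Agent.Lib.Golay.Elems
import Cfsg.Prelude.Def_SporadicCombinatorics

set_option autoImplicit false

namespace CfsgLib.Leech

open Cfsg CfsgLib.Golay
open scoped Pointwise

theorem signedPerm_mem {σ : Equiv.Perm GolayPt} (hσ : σ ∈ M24) {c : Finset GolayPt} (hc : c ∈ Sup)
    {x : GolayPt → ℤ} (hx : x ∈ leechLattice) : signedPerm σ c x ∈ leechLattice :=
  sign_mem hc (comp_mem (M24.inv_mem hσ) hx)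

theorem sqNorm_signedPerm (σ : Equiv.Perm GolayPt) (c : Finset GolayPt) (x : GolayPt → ℤ) :
    sqNorm (signedPerm σ c x) = sqNorm x := by
  unfold sqNorm
  have h : ∀ i, (signedPerm σ c x i) ^ 2 = x (σ.symm i) ^ 2 := by
    intro i
    simp only [signedPerm]
    split_ifs <;> ring
  simp only [h]
  exact Equiv.sum_comp σ.symm (fun i => x i ^ 2)

theorem signedPerm_add (σ : Equiv.Perm GolayPt) (c : Finset GolayPt) (x y : GolayPt → ℤ) :
    signedPerm σ c (x + y) = signedPerm σ c x + signedPerm σ c y := by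
  funext i
  simp only [signedPerm, Pi.add_apply]
  split_ifs <;> ring

theorem signedPerm_inv_left (σ : Equiv.Perm GolayPt) (c : Finset GolayPt) (x : GolayPt → ℤ) :
    signedPerm σ⁻¹ (σ⁻¹ • c) (signedPerm σ c x) = x := by
  funext i
  have h1 : i ∈ σ⁻¹ • c ↔ σ i ∈ c := by
    rw [Finset.mem_inv_smul_finset_iff]
    rfl
  have h2 : (σ⁻¹ : Equiv.Perm GolayPt).symm i = σ i := rfl
  simp only [signedPerm, h1, h2, Equiv.symm_apply_apply]
  by_cases h3 : σ i ∈ c <;> simp [h3]

theorem signedPerm_inv_right (σ : Equiv.Perm GolayPt) (c : Finset GolayPt) (x : GolayPt → ℤ) :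
    signedPerm σ c (signedPerm σ⁻¹ (σ⁻¹ • c) x) = x := by
  funext i
  have h1 : σ.symm i ∈ σ⁻¹ • c ↔ i ∈ c := by
    rw [Finset.mem_inv_smul_finset_iff]
    have : σ • σ.symm i = i := by
      change σ (σ.symm i) = i
      simp
    rw [this]
  have h2 : (σ⁻¹ : Equiv.Perm GolayPt).symm (σ.symm i) = i := by
    change σ (σ.symm i) = i
    simp
  simp only [signedPerm, h1, h2]
  by_cases h3 : i ∈ c <;> simp [h3]

/-- A monomial automorphism of the lattice, as a permutation. -/
def monoPerm (σ : Equiv.Perm GolayPt) (c : Finset GolayPt) (hσ : σ ∈ M24) (hc : c ∈ Sup) :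
    Equiv.Perm leechLattice where
  toFun v := ⟨signedPerm σ c v, signedPerm_mem hσ hc v.2⟩
  invFun v := ⟨signedPerm σ⁻¹ (σ⁻¹ • c) v, signedPerm_mem (M24.inv_mem hσ) (M24_smul_mem (M24.inv_mem hσ) hc) v.2⟩
  left_inv v := Subtype.ext (signedPerm_inv_left σ c v)
  right_inv v := Subtype.ext (signedPerm_inv_right σ c v)

theorem monoPerm_mem (σ : Equiv.Perm GolayPt) (c : Finset GolayPt) (hσ : σ ∈ M24) (hc : c ∈ Sup) :
    monoPerm σ c hσ hc ∈ Co0 :=
  ⟨fun v w => Subtype.ext (signedPerm_add σ c v w), fun v => sqNorm_signedPerm σ c v⟩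

/-- A monomial automorphism of the lattice. -/
def mono (σ : Equiv.Perm GolayPt) (c : Finset GolayPt) (hσ : σ ∈ M24) (hc : c ∈ Sup) : ↥Co0 :=
  ⟨monoPerm σ c hσ hc, monoPerm_mem σ c hσ hc⟩

theorem mono_apply (σ : Equiv.Perm GolayPt) (c : Finset GolayPt) (hσ : σ ∈ M24) (hc : c ∈ Sup)
    (v : leechLattice) : ((mono σ c hσ hc • v : leechLattice) : GolayPt → ℤ) = signedPerm σ c v := rfl

/-- The negation map. -/
noncomputable def negEl : ↥Co0 := mono 1 Finset.univ M24.one_mem sup_univ

theorem negEl_apply (v : leechLattice) : ((negEl • v : leechLattice) : GolayPt → ℤ) = -(v : GolayPt → ℤ) := by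
  rw [negEl, mono_apply]
  funext i
  simp [signedPerm]
  rfl

theorem smul_add_Co0 (g : ↥Co0) (v w : leechLattice) : g • (v + w) = g • v + g • w := g.2.1 v w

theorem sqNorm_smul_Co0 (g : ↥Co0) (v : leechLattice) :
    sqNorm ((g • v : leechLattice) : GolayPt → ℤ) = sqNorm (v : GolayPt → ℤ) := g.2.2 v

/-- The action of an automorphism as an additive map. -/
def addHomOf (g : ↥Co0) : leechLattice →+ leechLattice :=
  AddMonoidHom.mk' (fun v => g • v) (smul_add_Co0 g)

theorem addHomOf_apply (g : ↥Co0) (v : leechLattice) : addHomOf g v = g • v := rfl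

theorem smul_neg_Co0 (g : ↥Co0) (v : leechLattice) : g • (-v) = -(g • v) := map_neg (addHomOf g) v

theorem smul_zsmul_Co0 (g : ↥Co0) (n : ℤ) (v : leechLattice) : g • (n • v) = n • (g • v) :=
  map_zsmul (addHomOf g) n v

theorem negEl_smul (v : leechLattice) : negEl • v = -v := Subtype.ext (negEl_apply v)

theorem negEl_central (g : ↥Co0) : negEl * g = g * negEl := by
  apply Subtype.ext
  ext1 v
  change negEl • (g • v) = g • (negEl • v)
  rw [negEl_smul, negEl_smul, smul_neg_Co0]

theorem negEl_sq : negEl * negEl = 1 := by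
  apply Subtype.ext
  ext1 v
  change negEl • (negEl • v) = v
  rw [negEl_smul, negEl_smul, neg_neg]

theorem negEl_ne_one : negEl ≠ 1 := by
  intro h
  have hv : (vodd : GolayPt → ℤ) ∈ leechLattice := vodd_mem
  have h1 := negEl_smul ⟨vodd, hv⟩
  rw [h, one_smul] at h1
  have h2 := congrArg (fun v : leechLattice => (v : GolayPt → ℤ) (pt 1)) h1
  have h3 : pt 1 ≠ pt 0 := by
    intro he
    have := congrArg idx he
    rw [idx_pt (by norm_num), idx_pt (by norm_num)] at this
    omega
  simp [vodd, Pi.single_eq_of_ne h3] at h2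

/-- An involution of `M24` interchanging the base dodecad and its complement. -/
def swapD : ℕ := 250533800538179839063050347449107157

theorem swapD_chk : isAut swapD = true ∧ samePerm idP (comp swapD swapD) = true ∧
    img swapD 165759 = 16611456 := by decide +kernel

/-- An automorphism squaring to the negation. -/
theorem exists_sq_neg : ∃ g : ↥Co0, g * g = negEl := by
  obtain ⟨ha, hsq, him⟩ := swapD_chk
  have hv := isAut_valid ha
  have hm := mk_mem_M24 ha
  have hc : fs 165759 ∈ Sup := fs_mem_supports (mem_allCode_of_isCode (by decide +kernel))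
  have hs2 : CfsgLib.Golay.mk swapD * CfsgLib.Golay.mk swapD = 1 := by
    have h1 := mk_eq_of_samePerm valid_idP (valid_comp hv hv) hsq
    rw [mk_comp hv hv, mk_idP] at h1
    exact h1.symm
  have hinv : (CfsgLib.Golay.mk swapD)⁻¹ = CfsgLib.Golay.mk swapD := inv_eq_of_mul_eq_one_left hs2
  have hsw : ∀ i, (CfsgLib.Golay.mk swapD).symm i ∈ fs 165759 ↔ i ∉ fs 165759 := by
    intro i
    have h1 : (CfsgLib.Golay.mk swapD) • fs 165759 = fs 16611456 := by
      rw [← fs_img hv, him]
    have h2 : ∀ j, j ∈ fs 16611456 ↔ j ∉ fs 165759 := by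
      intro j
      have hl := idx_lt j
      rw [mem_fs, mem_fs]
      generalize idx j = t at hl
      revert t
      decide +kernel
    rw [← h2, ← h1, Finset.mem_smul_finset]
    constructor
    · intro h
      exact ⟨_, h, by change CfsgLib.Golay.mk swapD ((CfsgLib.Golay.mk swapD).symm i) = i; simp⟩
    · rintro ⟨a, ha', rfl⟩
      have : (CfsgLib.Golay.mk swapD).symm ((CfsgLib.Golay.mk swapD) • a) = a := by
        change (CfsgLib.Golay.mk swapD).symm (CfsgLib.Golay.mk swapD a) = a
        simp
      rw [this]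
      exact ha'
  refine ⟨mono (CfsgLib.Golay.mk swapD) (fs 165759) hm hc, ?_⟩
  apply Subtype.ext
  ext1 v
  apply Subtype.ext
  change signedPerm _ _ (signedPerm _ _ (v : GolayPt → ℤ)) = ((negEl • v : leechLattice) : GolayPt → ℤ)
  rw [negEl_apply]
  funext i
  have hss : (CfsgLib.Golay.mk swapD).symm ((CfsgLib.Golay.mk swapD).symm i) = i := by
    have : (CfsgLib.Golay.mk swapD).symm = (CfsgLib.Golay.mk swapD)⁻¹.toFun := rfl
    change (CfsgLib.Golay.mk swapD)⁻¹ ((CfsgLib.Golay.mk swapD)⁻¹ i) = i
    rw [hinv, ← Equiv.Perm.mul_apply, hs2]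
    rfl
  simp only [signedPerm, Pi.neg_apply, hss]
  by_cases h : i ∈ fs 165759
  · have h2 : (CfsgLib.Golay.mk swapD).symm i ∉ fs 165759 := fun h3 => ((hsw i).mp h3) h
    simp [h, h2]
  · have h2 : (CfsgLib.Golay.mk swapD).symm i ∈ fs 165759 := (hsw i).mpr h
    simp [h, h2]

/-- No complement of the negation. -/
theorem no_complement (K : Subgroup ↥Co0) : ¬ (Subgroup.zpowers negEl).IsComplement' K := by
  intro hc
  obtain ⟨g, hg⟩ := exists_sq_neg
  obtain ⟨⟨h, k⟩, he, -⟩ := hc.existsUnique g
  simp only at he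
  have hh : (h : ↥Co0) = 1 ∨ (h : ↥Co0) = negEl := by
    obtain ⟨n, hn⟩ := Subgroup.mem_zpowers_iff.mp h.2
    have hord : orderOf negEl = 2 := orderOf_eq_prime (by rw [pow_two]; exact negEl_sq) negEl_ne_one
    rw [← zpow_mod_orderOf, hord] at hn
    have h0 : n % ((2 : ℕ) : ℤ) = 0 ∨ n % ((2 : ℕ) : ℤ) = 1 := by
      have := Int.emod_nonneg n (by norm_num : ((2 : ℕ) : ℤ) ≠ 0)
      have := Int.emod_lt_of_pos n (by norm_num : (0 : ℤ) < ((2 : ℕ) : ℤ))
      omega
    rcases h0 with h0 | h0
    · left
      rw [← hn, h0, zpow_zero]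
    · right
      rw [← hn, h0, zpow_one]
  have hk : negEl = (k : ↥Co0) * (k : ↥Co0) := by
    rw [← hg, ← he]
    rcases hh with hh | hh
    · rw [hh]; simp
    · rw [hh]
      calc negEl * (k : ↥Co0) * (negEl * (k : ↥Co0)) = negEl * (((k : ↥Co0) * negEl) * (k : ↥Co0)) := by
            simp only [mul_assoc]
        _ = negEl * ((negEl * (k : ↥Co0)) * (k : ↥Co0)) := by rw [negEl_central (k : ↥Co0)]
        _ = (negEl * negEl) * ((k : ↥Co0) * (k : ↥Co0)) := by simp only [mul_assoc]
        _ = (k : ↥Co0) * (k : ↥Co0) := by rw [negEl_sq, one_mul]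
  have hnK : negEl ∈ K := by
    rw [hk]
    exact K.mul_mem k.2 k.2
  have hd := hc.disjoint
  have := Subgroup.disjoint_def.mp hd (Subgroup.mem_zpowers negEl) hnK
  exact negEl_ne_one this

/-! ### The centre -/

/-- Two points are separated by a code word. -/
theorem exists_code_sep {i j : GolayPt} (hji : j ≠ i) : ∃ c ∈ Sup, j ∈ c ∧ i ∉ c := by
  have key : ∀ a < 24, ∀ b < 24, a ≠ b → (∃ m ∈ basis, m.testBit a = true ∧ m.testBit b = false) ∨
      (∃ m ∈ basis, m.testBit a = false ∧ m.testBit b = true) := by decide +kernel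
  have hne : idx j ≠ idx i := fun h => hji (idx_inj h)
  rcases key _ (idx_lt j) _ (idx_lt i) hne with ⟨m, hm, h1, h2⟩ | ⟨m, hm, h1, h2⟩
  · have hc : m ∈ allCode := mem_allCode_of_isCode (by
      have hall : basis.all isCode = true := by decide +kernel
      exact List.all_eq_true.mp hall m hm)
    refine ⟨fs m, fs_mem_supports hc, mem_fs.mpr h1, fun h => ?_⟩
    rw [mem_fs] at h
    rw [h] at h2
    exact absurd h2 (by simp)
  · have hc : m ∈ allCode := mem_allCode_of_isCode (by
      have hall : basis.all isCode = true := by decide +kernel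
      exact List.all_eq_true.mp hall m hm)
    refine ⟨(fs m)ᶜ, sup_compl (fs_mem_supports hc), ?_, ?_⟩
    · rw [Finset.mem_compl, mem_fs, h1]
      simp
    · rw [Finset.mem_compl, not_not, mem_fs]
      exact h2

/-- A coordinate vector, as a lattice vector. -/
noncomputable def e8 (i : GolayPt) : leechLattice :=
  ⟨Pi.single i 8, four_mem (fun j => by
    by_cases h : j = i
    · subst h; simp
    · simp [Pi.single_eq_of_ne h]) (by
    simp only [Finset.sum_pi_single', Finset.mem_univ, if_true]
    norm_num)⟩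

/-- Every lattice vector is a combination of coordinate vectors after multiplying by eight. -/
theorem eight_smul_eq (v : leechLattice) : (8 : ℤ) • v = ∑ i, (v : GolayPt → ℤ) i • e8 i := by
  apply Subtype.ext
  funext j
  simp only [AddSubgroup.coe_zsmul, Pi.smul_apply, smul_eq_mul, AddSubgroup.val_finsetSum, Finset.sum_apply]
  rw [Finset.sum_eq_single j]
  · simp [e8, mul_comm]
  · intro b _ hb
    simp [e8, Pi.single_eq_of_ne (Ne.symm hb)]
  · simp

/-- Two automorphisms agreeing on the coordinate vectors are equal. -/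
theorem Co0_ext_e8 {g h : ↥Co0} (he : ∀ i, g • e8 i = h • e8 i) : g = h := by
  apply Subtype.ext
  ext1 v
  change g • v = h • v
  have h1 : (8 : ℤ) • (g • v) = (8 : ℤ) • (h • v) := by
    rw [← smul_zsmul_Co0, ← smul_zsmul_Co0, eight_smul_eq]
    change addHomOf g _ = addHomOf h _
    rw [map_sum, map_sum]
    refine Finset.sum_congr rfl fun i _ => ?_
    rw [map_zsmul, map_zsmul, addHomOf_apply, addHomOf_apply, he]
  apply Subtype.ext
  funext j
  have h2 := congrArg (fun w : leechLattice => (w : GolayPt → ℤ) j) h1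
  simp only [AddSubgroup.coe_zsmul, Pi.smul_apply, smul_eq_mul] at h2
  omega

/-- The monomial elements given by sign changes and permutations. -/
theorem central_cases {g : ↥Co0} (hg : g ∈ Subgroup.center ↥Co0) : g = 1 ∨ g = negEl := by
  classical
  -- every coordinate vector is mapped to a multiple of itself
  have hcomm : ∀ h : ↥Co0, h * g = g * h := fun h => (Subgroup.mem_center_iff.mp hg h)
  have hsupp : ∀ i j, j ≠ i → ((g • e8 i : leechLattice) : GolayPt → ℤ) j = 0 := by
    intro i j hji
    -- an octad through `j` avoiding `i`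
    obtain ⟨c, hc, hjc, hic⟩ := exists_code_sep hji
    have h1 := hcomm (mono 1 c M24.one_mem hc)
    have h2 : mono 1 c M24.one_mem hc • e8 i = e8 i := by
      apply Subtype.ext
      rw [mono_apply]
      funext k
      by_cases hk : k = i
      · subst hk
        simp [signedPerm, hic]
        rfl
      · simp only [signedPerm]
        have : (e8 i : GolayPt → ℤ) ((1 : Equiv.Perm GolayPt).symm k) = 0 := by
          change (Pi.single i 8 : GolayPt → ℤ) k = 0
          simp [Pi.single_eq_of_ne hk]
        rw [this]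
        simp [e8, Pi.single_eq_of_ne hk]
    have h3 : mono 1 c M24.one_mem hc • (g • e8 i) = g • e8 i := by
      have h4 : (mono 1 c M24.one_mem hc * g) • e8 i = (g * mono 1 c M24.one_mem hc) • e8 i := by rw [h1]
      rw [mul_smul, mul_smul, h2] at h4
      exact h4
    have h5 := congrArg (fun w : leechLattice => (w : GolayPt → ℤ) j) h3
    simp only [mono_apply, signedPerm, hjc, if_true] at h5
    have h6 : ((g • e8 i : leechLattice) : GolayPt → ℤ) ((1 : Equiv.Perm GolayPt).symm j) =
        ((g • e8 i : leechLattice) : GolayPt → ℤ) j := rfl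
    rw [h6] at h5
    omega
  have hval : ∀ i, ((g • e8 i : leechLattice) : GolayPt → ℤ) = Pi.single i (((g • e8 i : leechLattice) : GolayPt → ℤ) i) := by
    intro i
    funext j
    by_cases hj : j = i
    · subst hj; simp
    · rw [hsupp i j hj, Pi.single_eq_of_ne hj]
  have hnorm : ∀ i, ((g • e8 i : leechLattice) : GolayPt → ℤ) i = 8 ∨ ((g • e8 i : leechLattice) : GolayPt → ℤ) i = -8 := by
    intro i
    have h1 := sqNorm_smul_Co0 g (e8 i)
    have h2 : sqNorm ((e8 i : leechLattice) : GolayPt → ℤ) = 64 := by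
      unfold sqNorm
      have : ∀ j, (((e8 i : leechLattice) : GolayPt → ℤ) j) ^ 2 = (Pi.single i 64 : GolayPt → ℤ) j := by
        intro j
        by_cases hj : j = i
        · subst hj; simp [e8]
        · simp [e8, Pi.single_eq_of_ne hj]
      simp only [this, Finset.sum_pi_single', Finset.mem_univ, if_true]
    have h3 : sqNorm ((g • e8 i : leechLattice) : GolayPt → ℤ) = (((g • e8 i : leechLattice) : GolayPt → ℤ) i) ^ 2 := by
      unfold sqNorm
      rw [Finset.sum_eq_single i]
      · intro j _ hj
        rw [hsupp i j hj]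
        norm_num
      · simp
    rw [h1, h2] at h3
    have h4 : (((g • e8 i : leechLattice) : GolayPt → ℤ) i - 8) * (((g • e8 i : leechLattice) : GolayPt → ℤ) i + 8) = 0 := by
      linear_combination -h3
    rcases mul_eq_zero.mp h4 with h5 | h5
    · left; omega
    · right; omega
  -- the sign is constant
  have hconst : ∀ i j, ((g • e8 i : leechLattice) : GolayPt → ℤ) i = ((g • e8 j : leechLattice) : GolayPt → ℤ) j := by
    intro i j
    obtain ⟨σ, hσ, hσi⟩ := M24_pt_trans i j
    have h1 := hcomm (mono σ ∅ hσ sup_empty)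
    have h2 : mono σ ∅ hσ sup_empty • e8 i = e8 j := by
      apply Subtype.ext
      rw [mono_apply]
      funext k
      simp only [signedPerm, Finset.notMem_empty, if_false]
      change (Pi.single i 8 : GolayPt → ℤ) (σ.symm k) = (Pi.single j 8 : GolayPt → ℤ) k
      by_cases hk : k = j
      · subst hk
        rw [← hσi]
        simp
      · have : σ.symm k ≠ i := by
          intro h3
          apply hk
          rw [← hσi, ← h3]
          simp
        rw [Pi.single_eq_of_ne this, Pi.single_eq_of_ne hk]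
    have h3 : mono σ ∅ hσ sup_empty • (g • e8 i) = g • e8 j := by
      have h4 : (mono σ ∅ hσ sup_empty * g) • e8 i = (g * mono σ ∅ hσ sup_empty) • e8 i := by rw [h1]
      rw [mul_smul, mul_smul, h2] at h4
      exact h4
    have h5 := congrArg (fun w : leechLattice => (w : GolayPt → ℤ) j) h3
    simp only [mono_apply, signedPerm, Finset.notMem_empty, if_false] at h5
    rw [← h5, ← hσi]
    simp
  rcases hnorm (pt 0) with h0 | h0
  · left
    apply Co0_ext_e8
    intro i
    apply Subtype.ext
    rw [hval i, hconst i (pt 0), h0, one_smul]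
    rfl
  · right
    apply Co0_ext_e8
    intro i
    apply Subtype.ext
    rw [hval i, hconst i (pt 0), h0, negEl_apply]
    funext j
    by_cases hj : j = i
    · subst hj; simp [e8]
    · simp [e8, Pi.single_eq_of_ne hj]

/-- The centre has order two. -/
theorem card_center_Co0 : Nat.card (Subgroup.center ↥Co0) = 2 := by
  have hn : negEl ∈ Subgroup.center ↥Co0 := Subgroup.mem_center_iff.mpr fun h => (negEl_central h).symm
  have h1 : (↑(Subgroup.center ↥Co0) : Set ↥Co0) = {1, negEl} := by
    ext g
    simp only [SetLike.mem_coe, Set.mem_insert_iff, Set.mem_singleton_iff]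
    constructor
    · exact central_cases
    · rintro (rfl | rfl)
      · exact Subgroup.one_mem _
      · exact hn
  change Nat.card ↥(↑(Subgroup.center ↥Co0) : Set ↥Co0) = 2
  rw [h1, Nat.card_coe_set_eq, Set.ncard_pair negEl_ne_one.symm]

end CfsgLib.Leech
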