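/-
Conway transitivity: normal forms of lattice vectors of norm 32, 48, 64.
-/
import Cfsg.Agent.Lib.Leech.NfData
import Cfsg.Agent.Lib.Golay.Flags

set_option autoImplicit false

namespace CfsgLib.Leech

open Cfsg CfsgLib.Golay
open scoped Pointwise

/-! ### Reduced sign patterns -/

/-- Echelon form check: later words vanish on earlier pivots, each word has its pivot. -/
def echOK : List (ℕ × ℕ) → Bool
  | [] => true
  | e :: E => E.all (fun f => !(f.2.testBit e.1)) && e.2.testBit e.1 && echOK E

theorem wit_xor (E : List (ℕ × ℕ)) (p : ℕ × ℕ) :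
    (E.foldl witStep p).1 ^^^ (E.foldl witStep p).2 = p.1 ^^^ p.2 := by
  induction E generalizing p with
  | nil => rfl
  | cons e E ih =>
    simp only [List.foldl_cons]
    rw [ih]
    unfold witStep
    split_ifs
    · simp only
      rw [Nat.xor_assoc, Nat.xor_comm e.2, Nat.xor_assoc, Nat.xor_self, Nat.xor_zero]
    · rfl

theorem wit_keep (E : List (ℕ × ℕ)) (p : ℕ × ℕ) (b : ℕ) (hE : E.all (fun f => !(f.2.testBit b)) = true)
    (hp : p.1.testBit b = false) : (E.foldl witStep p).1.testBit b = false := by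
  induction E generalizing p with
  | nil => exact hp
  | cons e E ih =>
    simp only [List.all_cons, Bool.and_eq_true, Bool.not_eq_true'] at hE
    simp only [List.foldl_cons]
    apply ih _ hE.2
    unfold witStep
    split_ifs
    · simp only [Nat.testBit_xor, hp, hE.1, Bool.xor_false]
    · exact hp

theorem wit_pivots (E : List (ℕ × ℕ)) (h : echOK E = true) (p : ℕ × ℕ) :
    ∀ e ∈ E, (E.foldl witStep p).1.testBit e.1 = false := by
  induction E generalizing p with
  | nil => simp
  | cons e E ih =>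
    simp only [echOK, Bool.and_eq_true] at h
    obtain ⟨⟨h1, h2⟩, h3⟩ := h
    intro f hf
    simp only [List.foldl_cons]
    rcases List.mem_cons.mp hf with rfl | hf
    · apply wit_keep E _ _ h1
      unfold witStep
      split_ifs with h4
      · simp only [Nat.testBit_xor, h4, h2]
        rfl
      · simpa using h4
    · exact ih h3 _ f hf

/-- Flipping signs on a mask. -/
def flipS (w : ℕ) (x : GolayPt → ℤ) : GolayPt → ℤ := fun q => if q ∈ fs w then -x q else x q

theorem flipS_mem {w : ℕ} (hw : w ∈ allCode) {x : GolayPt → ℤ} (hx : x ∈ leechLattice) :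
    flipS w x ∈ leechLattice := sign_mem (fs_mem_supports hw) hx

theorem flipS_flipS (w w' : ℕ) (x : GolayPt → ℤ) : flipS w' (flipS w x) = flipS (w ^^^ w') x := by
  funext q
  unfold flipS
  simp only [mem_fs, Nat.testBit_xor]
  cases h1 : w.testBit (idx q) <;> cases h2 : w'.testBit (idx q) <;> simp

theorem exists_signs_neg {x : GolayPt → ℤ} (hx : x ∈ leechLattice) {a : List ℤ}
    (habs : ∀ i < 24, |x (pt i)| = getI a i) {bs : List ℕ} (hbs : bs.Nodup)
    (hs : ∀ i < 24, x (pt i) < 0 → i ∈ bs) :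
    ∃ D ∈ subsetsOf bs, vecL (sgnVec a D) = x ∧ lchk (sgnVec a D) = true := by
  classical
  let s : Finset GolayPt := Finset.univ.filter fun q => x q < 0
  have hbit : ∀ q, (mask s).testBit (idx q) = true ↔ x q < 0 := by
    intro q
    rw [← mem_fs, fs_mask]
    simp [s]
  have hm : mask s ∈ subsetsOf bs := by
    rw [mask_eq_sum]
    apply mem_subsetsOf bs hbs
    intro i hi
    obtain ⟨q, hq, rfl⟩ := Finset.mem_image.mp hi
    apply hs _ (idx_lt q)
    rw [pt_idx]
    simpa [s] using hq
  have hv : vecL (sgnVec a (mask s)) = x := by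
    funext q
    rw [vecL_sgnVec]
    have h1 := habs _ (idx_lt q)
    rw [pt_idx] at h1
    have h2 : vecL a q = |x q| := h1.symm
    simp only [mem_fs, hbit, h2]
    by_cases h3 : x q < 0
    · simp [h3, abs_of_neg h3]
    · simp [h3, abs_of_nonneg (not_lt.mp h3)]
  refine ⟨mask s, hm, hv, ?_⟩
  rw [lchk_iff (length_sgnVec _ _), hv]
  exact hx

/-- The full check for the sign reduction. -/
def redChk (a : List ℤ) (E : List (ℕ × ℕ)) (free : List ℕ) : Bool :=
  echOK E && E.all (fun e => isCode e.2) && decide free.Nodup &&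
    (List.range 24).all (fun i => (getI a i == 0) || E.any (fun e => e.1 == i) || free.contains i)

theorem redChk_E {a : List ℤ} {E : List (ℕ × ℕ)} {free : List ℕ} (h : redChk a E free = true) :
    ∀ e ∈ E, e.2 ∈ allCode := by
  simp only [redChk, Bool.and_eq_true] at h
  intro e he
  exact mem_allCode_of_isCode (List.all_eq_true.mp h.1.1.2 e he)

/-- Reduction of the sign pattern of a vector to the free positions. -/
theorem sign_reduce {x : GolayPt → ℤ} (hx : x ∈ leechLattice) {a : List ℤ}
    (habs : ∀ i < 24, |x (pt i)| = getI a i) {E : List (ℕ × ℕ)} {free : List ℕ}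
    (hchk : redChk a E free = true) :
    ∃ w ∈ allCode, ∃ D ∈ subsetsOf free, vecL (sgnVec a D) = flipS w x ∧ lchk (sgnVec a D) = true := by
  classical
  have hE := redChk_E hchk
  simp only [redChk, Bool.and_eq_true, decide_eq_true_eq] at hchk
  obtain ⟨⟨⟨hech, -⟩, hnd⟩, hall⟩ := hchk
  let s : Finset GolayPt := Finset.univ.filter fun q => x q < 0
  have hbit : ∀ q, (mask s).testBit (idx q) = true ↔ x q < 0 := by
    intro q
    rw [← mem_fs, fs_mask]
    simp [s]
  let w := wit E (mask s)
  have hw : w ∈ allCode := wit_mem hE _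
  have hy := flipS_mem hw hx
  have hres : ∀ q, ((E.foldl witStep (mask s, 0)).1).testBit (idx q) = xor ((mask s).testBit (idx q)) (w.testBit (idx q)) := by
    intro q
    have h1 := wit_xor E (mask s, 0)
    simp only [Nat.xor_zero] at h1
    have h2 : (E.foldl witStep (mask s, 0)).1 = mask s ^^^ w := by
      have h3 : w = (E.foldl witStep (mask s, 0)).2 := rfl
      calc (E.foldl witStep (mask s, 0)).1
          = (E.foldl witStep (mask s, 0)).1 ^^^ ((E.foldl witStep (mask s, 0)).2 ^^^ (E.foldl witStep (mask s, 0)).2) := by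
            rw [Nat.xor_self, Nat.xor_zero]
        _ = ((E.foldl witStep (mask s, 0)).1 ^^^ (E.foldl witStep (mask s, 0)).2) ^^^ (E.foldl witStep (mask s, 0)).2 :=
            (Nat.xor_assoc _ _ _).symm
        _ = mask s ^^^ w := by rw [h1, ← h3]
    rw [h2, Nat.testBit_xor]
  refine ⟨w, hw, ?_⟩
  have habs' : ∀ i < 24, |flipS w x (pt i)| = getI a i := by
    intro i hi
    rw [← habs i hi]
    unfold flipS
    split_ifs <;> simp
  have hneg : ∀ i < 24, flipS w x (pt i) < 0 → i ∈ free := by
    intro i hi hlt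
    have hne : getI a i ≠ 0 := by
      rw [← habs' i hi]
      exact abs_ne_zero.mpr hlt.ne
    have h1 := List.all_eq_true.mp hall i (List.mem_range.mpr hi)
    simp only [Bool.or_eq_true, beq_iff_eq, hne, false_or, List.any_eq_true] at h1
    rcases h1 with ⟨e, he, h2⟩ | h2
    · exfalso
      have h3 := wit_pivots E hech (mask s, 0) e he
      rw [h2] at h3
      have h4 := hres (pt i)
      rw [idx_pt hi, h3] at h4
      have h5 : (mask s).testBit i = true ↔ x (pt i) < 0 := by
        have := hbit (pt i)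
        rwa [idx_pt hi] at this
      have h6 : w.testBit i = true ↔ pt i ∈ fs w := (mem_fs_pt hi).symm
      unfold flipS at hlt
      by_cases h7 : pt i ∈ fs w
      · rw [if_pos h7] at hlt
        have h8 : (mask s).testBit i = false := by
          cases h9 : (mask s).testBit i
          · rfl
          · have := h5.mp h9
            omega
        rw [h6.mpr h7, h8] at h4
        simp at h4
      · rw [if_neg h7] at hlt
        have h8 : w.testBit i = false := by
          cases h9 : w.testBit i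
          · rfl
          · exact absurd (h6.mp h9) h7
        rw [h5.mpr hlt, h8] at h4
        simp at h4
    · exact List.contains_iff_mem.mp h2
  obtain ⟨D, hD, hv, hl⟩ := exists_signs_neg hy habs' hnd hneg
  exact ⟨D, hD, hv, hl⟩

/-- Sign adjustment with a reduced check. -/
theorem sign_adjust_red {x : GolayPt → ℤ} (hx : x ∈ leechLattice) {a R : List ℤ} {E : List (ℕ × ℕ)} {free : List ℕ}
    (habs : ∀ i < 24, |x (pt i)| = getI a i) (hred : redChk a E free = true)
    (hchk : signChk a R E free = true) :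
    ∃ w ∈ allCode, flipS w x = vecL R := by
  obtain ⟨w, hw, D, hD, hv, hl⟩ := sign_reduce hx habs hred
  have h1 := List.all_eq_true.mp hchk D hD
  simp only [hl, Bool.not_true, Bool.false_or, beq_iff_eq] at h1
  refine ⟨w ^^^ wit E (D ^^^ negMask R), xor_mem_allCode hw (wit_mem (redChk_E hred) _), ?_⟩
  rw [← flipS_flipS, ← hv]
  have h2 := vecL_sgnVec (sgnVec a D) (wit E (D ^^^ negMask R))
  rw [h1] at h2
  exact h2.symm

/-- Absolute values after moving by `σ`. -/
theorem even_abs {x : GolayPt → ℤ} {c : Finset GolayPt} (hd : LeechData x 0 c)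
    (hN : sqNorm x ≤ 64) {σ : Equiv.Perm GolayPt} {C0 F4 F6 F8 : ℕ} (h1 : σ • c = fs C0)
    (h2 : σ • absS x 4 = fs F4) (h3 : σ • absS x 6 = fs F6) (h4 : σ • absS x 8 = fs F8) :
    ∀ i < 24, |x (σ⁻¹ (pt i))| = getI (prof F8 F4 F6 C0) i := by
  intro i hi
  rw [getI_prof _ _ _ _ hi]
  have e8 : F8.testBit i = true ↔ |x (σ⁻¹ (pt i))| = 8 := by
    rw [← mem_fs_pt hi, ← h4, mem_smul_iff_inv, mem_absS]
  have e4 : F4.testBit i = true ↔ |x (σ⁻¹ (pt i))| = 4 := by
    rw [← mem_fs_pt hi, ← h2, mem_smul_iff_inv, mem_absS]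
  have e6 : F6.testBit i = true ↔ |x (σ⁻¹ (pt i))| = 6 := by
    rw [← mem_fs_pt hi, ← h3, mem_smul_iff_inv, mem_absS]
  have e0 : C0.testBit i = true ↔ σ⁻¹ (pt i) ∈ c := by
    rw [← mem_fs_pt hi, ← h1, mem_smul_iff_inv]
  obtain ⟨v1, v2⟩ := even_values hd hN (σ⁻¹ (pt i))
  by_cases h8 : F8.testBit i = true
  · rw [if_pos h8]; exact e8.mp h8
  rw [if_neg h8]
  by_cases h44 : F4.testBit i = true
  · rw [if_pos h44]; exact e4.mp h44
  rw [if_neg h44]
  by_cases h66 : F6.testBit i = true
  · rw [if_pos h66]; exact e6.mp h66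
  rw [if_neg h66]
  by_cases h00 : C0.testBit i = true
  · rw [if_pos h00]
    rcases v1 (e0.mp h00) with h5 | h5
    · exact h5
    · exact absurd (e6.mpr h5) h66
  · rw [if_neg h00]
    rcases v2 (fun h => h00 (e0.mpr h)) with h5 | h5 | h5
    · rw [h5]; norm_num
    · exact absurd (e4.mpr h5) h44
    · exact absurd (e8.mpr h5) h8

/-- The even step with a reduced check. -/
theorem even_step_red {x : GolayPt → ℤ} (hx : x ∈ leechLattice) {c : Finset GolayPt} (hd : LeechData x 0 c)
    (hN : sqNorm x ≤ 64) {σ : Equiv.Perm GolayPt} (hσ : σ ∈ M24) {C0 F4 F6 F8 : ℕ} (h1 : σ • c = fs C0)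
    (h2 : σ • absS x 4 = fs F4) (h3 : σ • absS x 6 = fs F6) (h4 : σ • absS x 8 = fs F8) {R : List ℤ}
    {E : List (ℕ × ℕ)} {free : List ℕ} (hred : redChk (prof F8 F4 F6 C0) E free = true)
    (hchk : signChk (prof F8 F4 F6 C0) R E free = true) : NEq x R := by
  have hx' : (fun i => x (σ⁻¹ i)) ∈ leechLattice := comp_mem (M24.inv_mem hσ) hx
  obtain ⟨w, hw, he⟩ := sign_adjust_red hx' (even_abs hd hN h1 h2 h3 h4) hred hchk
  exact ⟨σ, hσ, w, hw, he⟩

/-! ### Moving lattice vectors -/

/-- A lattice vector can be moved by the automorphism group to the vector of a list. -/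
def MovesTo (x : leechLattice) (R : List ℤ) : Prop :=
  ∃ g : ↥Co0, ((g • x : leechLattice) : GolayPt → ℤ) = vecL R

theorem NEq.moves {x : leechLattice} {R : List ℤ} (h : NEq (x : GolayPt → ℤ) R) : MovesTo x R := by
  obtain ⟨σ, hσ, w, hw, he⟩ := h
  refine ⟨mono σ (fs w) hσ (fs_mem_supports hw), ?_⟩
  rw [mono_apply]
  exact he

theorem MovesTo.path {x : leechLattice} {R : List ℤ} (h : MovesTo x R) {ss : List (ℕ × ℕ)} {R' : List ℤ}
    (hs : ss.all stepOK = true) (he : ss.foldl (fun M s => stepL s M) R = R') : MovesTo x R' := by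
  obtain ⟨g, hg⟩ := h
  have hR : vecL R ∈ leechLattice := by
    rw [← hg]
    exact (g • x).2
  obtain ⟨g2, hg2⟩ := path_exists ss hs R hR
  refine ⟨g2 * g, ?_⟩
  rw [mul_smul]
  have h3 : g • x = ⟨vecL R, hR⟩ := Subtype.ext hg
  rw [h3, hg2, he]

/-- The set for a small number of points. -/
theorem smul_fs_zero {s : Finset GolayPt} (σ : Equiv.Perm GolayPt) (h : s.card = 0) : σ • s = fs 0 := by
  rw [Finset.card_eq_zero.mp h, fs_zero]
  simp

theorem smul_compl_eq {σ : Equiv.Perm GolayPt} {s : Finset GolayPt} {m : ℕ} (h : σ • sᶜ = fs m) :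
    σ • s = fs (m ^^^ 0xffffff) := by
  ext q
  rw [mem_smul_iff_inv]
  have h1 : q ∈ fs m ↔ σ⁻¹ q ∉ s := by
    rw [← h, mem_smul_iff_inv]
    simp
  rw [mem_fs, Nat.testBit_xor]
  have h2 : (0xffffff : ℕ).testBit (idx q) = true := by
    have := idx_lt q
    interval_cases idx q <;> decide
  rw [h2]
  rw [mem_fs] at h1
  cases h3 : m.testBit (idx q)
  · simp only [h3, Bool.false_eq_true, false_iff, not_not] at h1
    simpa using h1
  · simp only [h3, true_iff] at h1
    simpa using h1

theorem absS_six_subset {x : GolayPt → ℤ} {c : Finset GolayPt} (hd : LeechData x 0 c) (hN : sqNorm x ≤ 64) :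
    absS x 6 ⊆ c := by
  intro q hq
  by_contra h
  rw [mem_absS] at hq
  rcases (even_values hd hN q).2 h with h1 | h1 | h1
  · rw [h1] at hq
    norm_num at hq
  · rw [h1] at hq
    norm_num at hq
  · rw [h1] at hq
    norm_num at hq

theorem absS_four_disj {x : GolayPt → ℤ} {c : Finset GolayPt} (hd : LeechData x 0 c) (hN : sqNorm x ≤ 64)
    {q : GolayPt} (hq : q ∈ absS x 4) : q ∉ c := by
  intro h
  rw [mem_absS] at hq
  rcases (even_values hd hN q).1 h with h1 | h1
  · rw [h1] at hq
    norm_num at hq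
  · rw [h1] at hq
    norm_num at hq

theorem disj_valS {y : GolayPt → ℤ} {u v : ℤ} (h : u ≠ v) : Disjoint (valS y u) (valS y v) := by
  rw [Finset.disjoint_left]
  intro q h1 h2
  rw [mem_valS] at h1 h2
  exact h (h1.symm.trans h2)

theorem card_fs' (m : ℕ) {n : ℕ} (h : pop m = n) : (fs m).card = n := by
  rw [card_fs, h]

theorem fs_disj_of_land {a b : ℕ} (h : a &&& b = 0) : Disjoint (fs a) (fs b) := by
  rw [Finset.disjoint_iff_inter_eq_empty, ← fs_land, h, fs_zero]

/-- The odd step from the counts. -/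
theorem odd_move {x : leechLattice} {c : Finset GolayPt} (hd : LeechData (x : GolayPt → ℤ) 1 c)
    (hN : sqNorm (x : GolayPt → ℤ) ≤ 64) {F3 F5 : ℕ} (h0 : F3 &&& F5 = 0)
    (h1 : (valS (oddY x c) (-3)).card = pop F3) (h2 : (valS (oddY x c) 5).card = pop F5)
    (h3 : pop F3 + pop F5 ≤ 5) : MovesTo x (profOdd F3 F5) := by
  obtain ⟨σ, hσ, e1, e2⟩ := M24_map_two (s := valS (oddY x c) (-3)) (t := valS (oddY x c) 5)
    (s' := fs F3) (t' := fs F5) (disj_valS (by norm_num)) (fs_disj_of_land h0)
    (by rw [card_fs]; exact h1) (by rw [card_fs]; exact h2) (by rw [h1, h2]; exact h3)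
  exact NEq.moves (odd_step hd hN hσ e1 e2)

end CfsgLib.Leech
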