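/-
Packed integer vectors: 24 fields of six bits in one natural number, with an offset of 16.
-/
import Cfsg.Agent.Lib.Leech.Max

set_option autoImplicit false
set_option maxRecDepth 100000

namespace CfsgLib.Leech

open Cfsg CfsgLib.Golay
open scoped Pointwise

/-- A field. -/
def fld (X i : ℕ) : ℕ := Nat.land (Nat.shiftRight X (Nat.mul 6 i)) 63

theorem fld_eq (X i : ℕ) : fld X i = X / 64 ^ i % 64 := by
  have h : fld X i = (X >>> (6 * i)) &&& (2 ^ 6 - 1) := rfl
  rw [h, Nat.and_two_pow_sub_one_eq_mod, Nat.shiftRight_eq_div_pow, pow_mul]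
  norm_num

theorem fld_lt (X i : ℕ) : fld X i < 64 := by
  rw [fld_eq]
  exact Nat.mod_lt _ (by norm_num)

/-- Packing 24 fields. -/
def pk (f : ℕ → ℕ) : ℕ :=
  Nat.add (f 0) (Nat.mul 64 (Nat.add (f 1) (Nat.mul 64 (Nat.add (f 2) (Nat.mul 64 (Nat.add (f 3) (Nat.mul 64 (Nat.add (f 4) (Nat.mul 64 (Nat.add (f 5) (Nat.mul 64 (Nat.add (f 6) (Nat.mul 64 (Nat.add (f 7) (Nat.mul 64 (Nat.add (f 8) (Nat.mul 64 (Nat.add (f 9) (Nat.mul 64 (Nat.add (f 10) (Nat.mul 64 (Nat.add (f 11) (Nat.mul 64 (Nat.add (f 12) (Nat.mul 64 (Nat.add (f 13) (Nat.mul 64 (Nat.add (f 14) (Nat.mul 64 (Nat.add (f 15) (Nat.mul 64 (Nat.add (f 16) (Nat.mul 64 (Nat.add (f 17) (Nat.mul 64 (Nat.add (f 18) (Nat.mul 64 (Nat.add (f 19) (Nat.mul 64 (Nat.add (f 20) (Nat.mul 64 (Nat.add (f 21) (Nat.mul 64 (Nat.add (f 22) (Nat.mul 64 (Nat.add (f 23) (Nat.mul 64 0)))))))))))))))))))))))))))))))))))))))))))))))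

/-- Packing `n` fields. -/
def pkN (f : ℕ → ℕ) : ℕ → ℕ
  | 0 => 0
  | n + 1 => pkN f n + f n * 64 ^ n

/-- Horner form. -/
def pkH : ℕ → (ℕ → ℕ) → ℕ
  | 0, _ => 0
  | n + 1, f => Nat.add (f 0) (Nat.mul 64 (pkH n fun i => f (i + 1)))

theorem pkN_succ' (f : ℕ → ℕ) (n : ℕ) : pkN f (n + 1) = f 0 + 64 * pkN (fun i => f (i + 1)) n := by
  induction n with
  | zero => simp [pkN]
  | succ n ih =>
    rw [pkN, ih]
    simp only [pkN]
    ring

theorem pkH_eq (n : ℕ) (f : ℕ → ℕ) : pkH n f = pkN f n := by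
  induction n generalizing f with
  | zero => rfl
  | succ n ih =>
    rw [pkN_succ', pkH, ih]
    rfl

theorem pk_eq (f : ℕ → ℕ) : pk f = pkN f 24 := by
  rw [← pkH_eq]
  rfl

theorem pkN_lt (f : ℕ → ℕ) (n : ℕ) (h : ∀ j < n, f j < 64) : pkN f n < 64 ^ n := by
  induction n with
  | zero => simp [pkN]
  | succ n ih =>
    simp only [pkN]
    have h1 := ih (fun j hj => h j (by omega))
    have h2 := h n (by omega)
    have h3 : f n * 64 ^ n ≤ 63 * 64 ^ n := Nat.mul_le_mul_right _ (by omega)
    rw [pow_succ]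
    omega

theorem pkN_fld (f : ℕ → ℕ) (n : ℕ) (h : ∀ j < n, f j < 64) : ∀ i < n, pkN f n / 64 ^ i % 64 = f i := by
  induction n with
  | zero => intro i hi; omega
  | succ n ih =>
    intro i hi
    simp only [pkN]
    have h1 := pkN_lt f n (fun j hj => h j (by omega))
    have hp : 0 < 64 ^ i := by positivity
    by_cases hin : i = n
    · subst hin
      rw [Nat.add_mul_div_right _ _ hp, Nat.div_eq_of_lt h1, zero_add]
      exact Nat.mod_eq_of_lt (h i (by omega))
    · have hlt : i < n := by omega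
      obtain ⟨d, rfl⟩ : ∃ d, n = i + (d + 1) := ⟨n - i - 1, by omega⟩
      have e : f (i + (d + 1)) * 64 ^ (i + (d + 1)) = (f (i + (d + 1)) * 64 ^ d * 64) * 64 ^ i := by
        rw [pow_add, pow_succ]; ring
      rw [e, Nat.add_mul_div_right _ _ hp, Nat.add_mul_mod_self_right]
      exact ih (fun j hj => h j (by omega)) i hlt

theorem fld_pk (f : ℕ → ℕ) (h : ∀ j < 24, f j < 64) {i : ℕ} (hi : i < 24) : fld (pk f) i = f i := by
  rw [fld_eq, pk_eq]
  exact pkN_fld f 24 h i hi

/-- The list of coordinates of a packed vector. -/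
def dec (X : ℕ) : List ℤ := (List.range 24).map fun i => (fld X i : ℤ) - 16

/-- The vector of a number. -/
def unpk (X : ℕ) : GolayPt → ℤ := vecL (dec X)

theorem getI_dec (X : ℕ) {i : ℕ} (hi : i < 24) : getI (dec X) i = (fld X i : ℤ) - 16 := by
  unfold getI dec
  rw [List.getD_eq_getElem _ _ (by simpa using hi)]
  simp

theorem unpk_apply (X : ℕ) (q : GolayPt) : unpk X q = (fld X (idx q) : ℤ) - 16 :=
  getI_dec X (idx_lt q)

theorem unpk_pt (X : ℕ) {i : ℕ} (hi : i < 24) : unpk X (pt i) = (fld X i : ℤ) - 16 := by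
  rw [unpk_apply, idx_pt hi]

/-- Numbers below this bound are determined by their fields. -/
theorem eq_of_unpk_eq {X Y : ℕ} (hX : X < 64 ^ 24) (hY : Y < 64 ^ 24) (h : unpk X = unpk Y) : X = Y := by
  have hf : ∀ i < 24, X / 64 ^ i % 64 = Y / 64 ^ i % 64 := by
    intro i hi
    have := congrFun h (pt i)
    rw [unpk_pt X hi, unpk_pt Y hi] at this
    rw [← fld_eq, ← fld_eq]
    omega
  have key : ∀ n, n ≤ 24 → ∀ A B : ℕ, A < 64 ^ n → B < 64 ^ n → (∀ i < n, A / 64 ^ i % 64 = B / 64 ^ i % 64) → A = B := by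
    intro n
    induction n with
    | zero =>
      intro _ A B hA hB _
      simp at hA hB
      omega
    | succ n ih =>
      intro hn A B hA hB hi
      have h0 := hi 0 (by omega)
      simp only [pow_zero, Nat.div_one] at h0
      have h1 : A / 64 = B / 64 := by
        apply ih (by omega)
        · rw [Nat.div_lt_iff_lt_mul (by norm_num)]
          rwa [pow_succ] at hA
        · rw [Nat.div_lt_iff_lt_mul (by norm_num)]
          rwa [pow_succ] at hB
        · intro i hin
          have := hi (i + 1) (by omega)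
          rw [pow_succ', ← Nat.div_div_eq_div_mul, ← Nat.div_div_eq_div_mul] at this
          exact this
      omega
  exact key 24 le_rfl X Y hX hY hf

/-! ### Monomial maps -/

/-- The value of a field after a sign change. -/
def sgnV (c i v : ℕ) : ℕ :=
  match Nat.land (Nat.shiftRight c i) 1 with
  | 0 => v
  | _ + 1 => Nat.sub 32 v

theorem sgnV_spec (c i v : ℕ) : sgnV c i v = if c.testBit i = true then 32 - v else v := by
  have h : Nat.land (Nat.shiftRight c i) 1 = c / 2 ^ i % 2 := by
    show (c >>> i) &&& 1 = _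
    rw [Nat.and_one_is_mod, Nat.shiftRight_eq_div_pow]
  unfold sgnV
  rw [h, Nat.testBit_eq_decide_div_mod_eq]
  have h2 : c / 2 ^ i % 2 = 0 ∨ c / 2 ^ i % 2 = 1 := by omega
  rcases h2 with h0 | h1
  · simp [h0]
  · simp [h1]

/-- The packed monomial map with inverse permutation `u`. -/
def monoU (u c X : ℕ) : ℕ := pk fun i => sgnV c i (fld X (pa u i))

theorem unpk_monoU {t : ℕ} (ht : valid t = true) (c X : ℕ) (hb : ∀ i < 24, fld X i ≤ 32) :
    unpk (monoU (pinv t) c X) = vecL (monoL t c (dec X)) := by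
  have hv := valid_pinv ht
  have hf : ∀ j < 24, (fun i => sgnV c i (fld X (pa (pinv t) i))) j < 64 := by
    intro j _
    simp only [sgnV_spec]
    have := fld_lt X (pa (pinv t) j)
    split_ifs <;> omega
  funext q
  have hi := idx_lt q
  rw [unpk_apply]
  show (fld (monoU (pinv t) c X) (idx q) : ℤ) - 16 = getI (monoL t c (dec X)) (idx q)
  rw [monoU, fld_pk _ hf hi, getI_monoL _ _ _ hi, getI_dec _ (pa_lt hv hi), sgnV_spec]
  have h1 := hb _ (pa_lt hv hi)
  by_cases hc : c.testBit (idx q) = true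
  · rw [if_pos hc, if_pos hc]
    omega
  · rw [if_neg hc, if_neg hc]

/-! ### The map outside the monomial group -/

/-- Half the sum of four fields. -/
def xsum (X a b c d : ℕ) : ℕ :=
  Nat.shiftRight (Nat.add (Nat.add (Nat.add (fld X a) (fld X b)) (fld X c)) (fld X d)) 1

/-- The fields of the image. -/
def xiVals (X s0 s1 s2 s3 s4 s5 : ℕ) : ℕ → ℕ
  | 0 => Nat.sub 32 (Nat.sub s0 (fld X 0))
  | 1 => Nat.sub 32 (Nat.sub s0 (fld X 1))
  | 2 => Nat.sub 32 (Nat.sub s0 (fld X 2))
  | 3 => Nat.sub 32 (Nat.sub s0 (fld X 3))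
  | 4 => Nat.sub s1 (fld X 4)
  | 5 => Nat.sub s2 (fld X 5)
  | 6 => Nat.sub s3 (fld X 6)
  | 7 => Nat.sub s1 (fld X 7)
  | 8 => Nat.sub s4 (fld X 8)
  | 9 => Nat.sub s3 (fld X 9)
  | 10 => Nat.sub s1 (fld X 10)
  | 11 => Nat.sub s3 (fld X 11)
  | 12 => Nat.sub s1 (fld X 12)
  | 13 => Nat.sub s5 (fld X 13)
  | 14 => Nat.sub s2 (fld X 14)
  | 15 => Nat.sub s4 (fld X 15)
  | 16 => Nat.sub s4 (fld X 16)
  | 17 => Nat.sub s2 (fld X 17)
  | 18 => Nat.sub s5 (fld X 18)
  | 19 => Nat.sub s4 (fld X 19)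
  | 20 => Nat.sub s5 (fld X 20)
  | 21 => Nat.sub s5 (fld X 21)
  | 22 => Nat.sub s3 (fld X 22)
  | 23 => Nat.sub s2 (fld X 23)
  | _ => 0

/-- The packed map. -/
def xiP (X : ℕ) : ℕ :=
  letN (xsum X 0 1 2 3) fun s0 => letN (xsum X 4 7 10 12) fun s1 => letN (xsum X 5 14 17 23) fun s2 =>
  letN (xsum X 6 9 11 22) fun s3 => letN (xsum X 8 15 16 19) fun s4 => letN (xsum X 13 18 20 21) fun s5 =>
  pk (xiVals X s0 s1 s2 s3 s4 s5)

theorem xsum_eq (X a b c d : ℕ) : xsum X a b c d = (fld X a + fld X b + fld X c + fld X d) / 2 := by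
  have h : xsum X a b c d = (fld X a + fld X b + fld X c + fld X d) >>> 1 := rfl
  rw [h, Nat.shiftRight_one]

theorem getI_xiL (L : List ℤ) {i : ℕ} (hi : i < 24) :
    getI (xiL L) i = sgnXi i * (((blk i).map (getI L)).sum / 2 - getI L i) := by
  unfold xiL
  rw [getI_range_map _ hi]

theorem xi_pos_case {X i a b c d : ℕ} {s : ℕ} (hb : blk i = [a, b, c, d]) (hs : sgnXi i = 1)
    (ha : a < 24) (hb' : b < 24) (hc : c < 24) (hd : d < 24) (hi : i < 24)
    (hy : -8 ≤ getI (xiL (dec X)) i ∧ getI (xiL (dec X)) i ≤ 8)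
    (hss : s = xsum X a b c d) :
    s - fld X i < 64 ∧ (((s - fld X i : ℕ) : ℤ) - 16 = getI (xiL (dec X)) i) := by
  rw [getI_xiL _ hi, hb, hs] at *
  simp only [List.map_cons, List.map_nil, List.sum_cons, List.sum_nil, add_zero, one_mul] at *
  rw [getI_dec _ ha, getI_dec _ hb', getI_dec _ hc, getI_dec _ hd, getI_dec _ hi] at *
  rw [hss, xsum_eq]
  generalize fld X a = fa at *
  generalize fld X b = fb at *
  generalize fld X c = fc at *
  generalize fld X d = fd at *
  generalize fld X i = fi at *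
  omega

theorem xi_neg_case {X i a b c d : ℕ} {s : ℕ} (hb : blk i = [a, b, c, d]) (hs : sgnXi i = -1)
    (ha : a < 24) (hb' : b < 24) (hc : c < 24) (hd : d < 24) (hi : i < 24)
    (hy : -8 ≤ getI (xiL (dec X)) i ∧ getI (xiL (dec X)) i ≤ 8)
    (hss : s = xsum X a b c d) :
    32 - (s - fld X i) < 64 ∧ (((32 - (s - fld X i) : ℕ) : ℤ) - 16 = getI (xiL (dec X)) i) := by
  rw [getI_xiL _ hi, hb, hs] at *
  simp only [List.map_cons, List.map_nil, List.sum_cons, List.sum_nil, add_zero, neg_mul, one_mul] at *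
  rw [getI_dec _ ha, getI_dec _ hb', getI_dec _ hc, getI_dec _ hd, getI_dec _ hi] at *
  rw [hss, xsum_eq]
  generalize fld X a = fa at *
  generalize fld X b = fb at *
  generalize fld X c = fc at *
  generalize fld X d = fd at *
  generalize fld X i = fi at *
  omega

theorem unpk_xiP (X : ℕ) (hb : ∀ i < 24, -8 ≤ getI (xiL (dec X)) i ∧ getI (xiL (dec X)) i ≤ 8) :
    unpk (xiP X) = vecL (xiL (dec X)) := by
  unfold xiP
  simp only [letN_eq]
  set v := xiVals X (xsum X 0 1 2 3) (xsum X 4 7 10 12) (xsum X 5 14 17 23) (xsum X 6 9 11 22)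
    (xsum X 8 15 16 19) (xsum X 13 18 20 21) with hv
  have key : ∀ i < 24, v i < 64 ∧ ((v i : ℕ) : ℤ) - 16 = getI (xiL (dec X)) i := by
    intro i hi
    interval_cases i
    · have h := xi_neg_case (a := 0) (b := 1) (c := 2) (d := 3) (s := xsum X 0 1 2 3) (X := X) (i := 0) (by rfl) (by rfl) (by norm_num) (by norm_num) (by norm_num) (by norm_num) (by norm_num) (hb 0 (by norm_num)) rfl
      exact h
    · have h := xi_neg_case (a := 0) (b := 1) (c := 2) (d := 3) (s := xsum X 0 1 2 3) (X := X) (i := 1) (by rfl) (by rfl) (by norm_num) (by norm_num) (by norm_num) (by norm_num) (by norm_num) (hb 1 (by norm_num)) rfl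
      exact h
    · have h := xi_neg_case (a := 0) (b := 1) (c := 2) (d := 3) (s := xsum X 0 1 2 3) (X := X) (i := 2) (by rfl) (by rfl) (by norm_num) (by norm_num) (by norm_num) (by norm_num) (by norm_num) (hb 2 (by norm_num)) rfl
      exact h
    · have h := xi_neg_case (a := 0) (b := 1) (c := 2) (d := 3) (s := xsum X 0 1 2 3) (X := X) (i := 3) (by rfl) (by rfl) (by norm_num) (by norm_num) (by norm_num) (by norm_num) (by norm_num) (hb 3 (by norm_num)) rfl
      exact h
    · have h := xi_pos_case (a := 4) (b := 7) (c := 10) (d := 12) (s := xsum X 4 7 10 12) (X := X) (i := 4) (by rfl) (by rfl) (by norm_num) (by norm_num) (by norm_num) (by norm_num) (by norm_num) (hb 4 (by norm_num)) rfl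
      exact h
    · have h := xi_pos_case (a := 5) (b := 14) (c := 17) (d := 23) (s := xsum X 5 14 17 23) (X := X) (i := 5) (by rfl) (by rfl) (by norm_num) (by norm_num) (by norm_num) (by norm_num) (by norm_num) (hb 5 (by norm_num)) rfl
      exact h
    · have h := xi_pos_case (a := 6) (b := 9) (c := 11) (d := 22) (s := xsum X 6 9 11 22) (X := X) (i := 6) (by rfl) (by rfl) (by norm_num) (by norm_num) (by norm_num) (by norm_num) (by norm_num) (hb 6 (by norm_num)) rfl
      exact h
    · have h := xi_pos_case (a := 4) (b := 7) (c := 10) (d := 12) (s := xsum X 4 7 10 12) (X := X) (i := 7) (by rfl) (by rfl) (by norm_num) (by norm_num) (by norm_num) (by norm_num) (by norm_num) (hb 7 (by norm_num)) rfl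
      exact h
    · have h := xi_pos_case (a := 8) (b := 15) (c := 16) (d := 19) (s := xsum X 8 15 16 19) (X := X) (i := 8) (by rfl) (by rfl) (by norm_num) (by norm_num) (by norm_num) (by norm_num) (by norm_num) (hb 8 (by norm_num)) rfl
      exact h
    · have h := xi_pos_case (a := 6) (b := 9) (c := 11) (d := 22) (s := xsum X 6 9 11 22) (X := X) (i := 9) (by rfl) (by rfl) (by norm_num) (by norm_num) (by norm_num) (by norm_num) (by norm_num) (hb 9 (by norm_num)) rfl
      exact h
    · have h := xi_pos_case (a := 4) (b := 7) (c := 10) (d := 12) (s := xsum X 4 7 10 12) (X := X) (i := 10) (by rfl) (by rfl) (by norm_num) (by norm_num) (by norm_num) (by norm_num) (by norm_num) (hb 10 (by norm_num)) rfl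
      exact h
    · have h := xi_pos_case (a := 6) (b := 9) (c := 11) (d := 22) (s := xsum X 6 9 11 22) (X := X) (i := 11) (by rfl) (by rfl) (by norm_num) (by norm_num) (by norm_num) (by norm_num) (by norm_num) (hb 11 (by norm_num)) rfl
      exact h
    · have h := xi_pos_case (a := 4) (b := 7) (c := 10) (d := 12) (s := xsum X 4 7 10 12) (X := X) (i := 12) (by rfl) (by rfl) (by norm_num) (by norm_num) (by norm_num) (by norm_num) (by norm_num) (hb 12 (by norm_num)) rfl
      exact h
    · have h := xi_pos_case (a := 13) (b := 18) (c := 20) (d := 21) (s := xsum X 13 18 20 21) (X := X) (i := 13) (by rfl) (by rfl) (by norm_num) (by norm_num) (by norm_num) (by norm_num) (by norm_num) (hb 13 (by norm_num)) rfl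
      exact h
    · have h := xi_pos_case (a := 5) (b := 14) (c := 17) (d := 23) (s := xsum X 5 14 17 23) (X := X) (i := 14) (by rfl) (by rfl) (by norm_num) (by norm_num) (by norm_num) (by norm_num) (by norm_num) (hb 14 (by norm_num)) rfl
      exact h
    · have h := xi_pos_case (a := 8) (b := 15) (c := 16) (d := 19) (s := xsum X 8 15 16 19) (X := X) (i := 15) (by rfl) (by rfl) (by norm_num) (by norm_num) (by norm_num) (by norm_num) (by norm_num) (hb 15 (by norm_num)) rfl
      exact h
    · have h := xi_pos_case (a := 8) (b := 15) (c := 16) (d := 19) (s := xsum X 8 15 16 19) (X := X) (i := 16) (by rfl) (by rfl) (by norm_num) (by norm_num) (by norm_num) (by norm_num) (by norm_num) (hb 16 (by norm_num)) rfl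
      exact h
    · have h := xi_pos_case (a := 5) (b := 14) (c := 17) (d := 23) (s := xsum X 5 14 17 23) (X := X) (i := 17) (by rfl) (by rfl) (by norm_num) (by norm_num) (by norm_num) (by norm_num) (by norm_num) (hb 17 (by norm_num)) rfl
      exact h
    · have h := xi_pos_case (a := 13) (b := 18) (c := 20) (d := 21) (s := xsum X 13 18 20 21) (X := X) (i := 18) (by rfl) (by rfl) (by norm_num) (by norm_num) (by norm_num) (by norm_num) (by norm_num) (hb 18 (by norm_num)) rfl
      exact h
    · have h := xi_pos_case (a := 8) (b := 15) (c := 16) (d := 19) (s := xsum X 8 15 16 19) (X := X) (i := 19) (by rfl) (by rfl) (by norm_num) (by norm_num) (by norm_num) (by norm_num) (by norm_num) (hb 19 (by norm_num)) rfl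
      exact h
    · have h := xi_pos_case (a := 13) (b := 18) (c := 20) (d := 21) (s := xsum X 13 18 20 21) (X := X) (i := 20) (by rfl) (by rfl) (by norm_num) (by norm_num) (by norm_num) (by norm_num) (by norm_num) (hb 20 (by norm_num)) rfl
      exact h
    · have h := xi_pos_case (a := 13) (b := 18) (c := 20) (d := 21) (s := xsum X 13 18 20 21) (X := X) (i := 21) (by rfl) (by rfl) (by norm_num) (by norm_num) (by norm_num) (by norm_num) (by norm_num) (hb 21 (by norm_num)) rfl
      exact h
    · have h := xi_pos_case (a := 6) (b := 9) (c := 11) (d := 22) (s := xsum X 6 9 11 22) (X := X) (i := 22) (by rfl) (by rfl) (by norm_num) (by norm_num) (by norm_num) (by norm_num) (by norm_num) (hb 22 (by norm_num)) rfl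
      exact h
    · have h := xi_pos_case (a := 5) (b := 14) (c := 17) (d := 23) (s := xsum X 5 14 17 23) (X := X) (i := 23) (by rfl) (by rfl) (by norm_num) (by norm_num) (by norm_num) (by norm_num) (by norm_num) (hb 23 (by norm_num)) rfl
      exact h
  have hf : ∀ j < 24, v j < 64 := fun j hj => (key j hj).1
  funext q
  have hi := idx_lt q
  rw [unpk_apply, fld_pk _ hf hi]
  exact (key _ hi).2

/-! ### Compiled steps -/

/-- A compiled step: the first component is `0` for the map above. -/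
def stepU (s : ℕ × ℕ) (X : ℕ) : ℕ :=
  match s.1 with
  | 0 => xiP X
  | _ + 1 => monoU s.1 s.2 X

/-- Compiling a step. -/
def compile (s : ℕ × ℕ) : ℕ × ℕ := if s.1 = 0 then (0, 0) else (pinv s.1, s.2)

theorem pinv_ne_zero {t : ℕ} (ht : valid t = true) : pinv t ≠ 0 := by
  intro h
  have hv := valid_pinv ht
  rw [h] at hv
  revert hv
  decide +kernel

/-- Coordinates of vectors of small norm are small. -/
theorem bound_of_norm {x : GolayPt → ℤ} (h : sqNorm x ≤ 64) (q : GolayPt) : -8 ≤ x q ∧ x q ≤ 8 := by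
  have h1 : x q ^ 2 ≤ 64 := by
    have := Finset.single_le_sum (f := fun j => x j ^ 2) (fun j _ => sq_nonneg (x j)) (Finset.mem_univ q)
    have h2 : sqNorm x = ∑ j, x j ^ 2 := rfl
    omega
  constructor <;> nlinarith

theorem stepU_spec {s : ℕ × ℕ} (hs : stepOK s = true) {X : ℕ} (hL : unpk X ∈ leechLattice)
    (hn : sqNorm (unpk X) ≤ 64) :
    ((stepEl s • (⟨unpk X, hL⟩ : leechLattice) : leechLattice) : GolayPt → ℤ) = unpk (stepU (compile s) X) := by
  have h1 := stepEl_apply hs (dec X) hL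
  have h1' : ((stepEl s • (⟨unpk X, hL⟩ : leechLattice) : leechLattice) : GolayPt → ℤ) = vecL (stepL s (dec X)) := h1
  rw [h1']
  by_cases h0 : s.1 = 0
  · have e : compile s = (0, 0) := by simp [compile, h0]
    have e2 : stepL s (dec X) = xiL (dec X) := by simp [stepL, h0]
    rw [e, e2]
    show _ = unpk (xiP X)
    rw [unpk_xiP]
    intro i hi
    have hn2 : sqNorm (vecL (xiL (dec X))) ≤ 64 := by
      rw [← e2, ← h1']
      rw [sqNorm_smul_Co0]
      exact hn
    have := bound_of_norm hn2 (pt i)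
    rwa [vecL_pt _ hi] at this
  · have hv : valid s.1 = true := by
      simp only [stepOK, Bool.or_eq_true, beq_iff_eq, h0, false_or, Bool.and_eq_true] at hs
      exact isAut_valid hs.1
    have e : compile s = (pinv s.1, s.2) := by simp [compile, h0]
    have e2 : stepL s (dec X) = monoL s.1 s.2 (dec X) := by simp [stepL, h0]
    have hu := pinv_ne_zero hv
    rw [e, e2]
    have e3 : stepU (pinv s.1, s.2) X = monoU (pinv s.1) s.2 X := by
      unfold stepU
      obtain ⟨n, hn'⟩ := Nat.exists_eq_succ_of_ne_zero hu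
      simp only [hn']
    rw [e3, unpk_monoU hv]
    intro i hi
    have := bound_of_norm hn (pt i)
    rw [unpk_pt X hi] at this
    omega

/-- A compiled word. -/
def applyW : List (ℕ × ℕ) → ℕ → ℕ
  | [], X => X
  | s :: w, X => letN (stepU s X) (applyW w)

theorem applyW_spec (ss : List (ℕ × ℕ)) (hs : ss.all stepOK = true) (X : ℕ) (hL : unpk X ∈ leechLattice)
    (hn : sqNorm (unpk X) ≤ 64) :
    ((pathEl ss • (⟨unpk X, hL⟩ : leechLattice) : leechLattice) : GolayPt → ℤ) = unpk (applyW (ss.map compile) X) := by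
  induction ss generalizing X with
  | nil => simp [pathEl, applyW]
  | cons s ss ih =>
    simp only [List.all_cons, Bool.and_eq_true] at hs
    have h1 := stepU_spec hs.1 hL hn
    have h2 : unpk (stepU (compile s) X) ∈ leechLattice := by
      rw [← h1]
      exact (stepEl s • (⟨unpk X, hL⟩ : leechLattice)).2
    have h3 : stepEl s • (⟨unpk X, hL⟩ : leechLattice) = ⟨unpk (stepU (compile s) X), h2⟩ := Subtype.ext h1
    have h4 : sqNorm (unpk (stepU (compile s) X)) ≤ 64 := by
      rw [← h1, sqNorm_smul_Co0]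
      exact hn
    simp only [pathEl, mul_smul, List.map_cons, applyW, letN_eq]
    rw [h3]
    exact ih hs.2 _ h2 h4

end CfsgLib.Leech
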