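/-
Merge sort on lists of numbers and the enumeration of the minimal vectors, in packed form.
-/
import Cfsg.Agent.Lib.Leech.Pack

set_option autoImplicit false
set_option maxRecDepth 100000

namespace CfsgLib.Leech

open Cfsg CfsgLib.Golay
open scoped Pointwise

/-! ### Sorting -/

/-- Merging with fuel. -/
def mergeN : ℕ → List ℕ → List ℕ → List ℕ
  | 0, a, b => a ++ b
  | _ + 1, [], b => b
  | _ + 1, x :: a, [] => x :: a
  | k + 1, x :: a, y :: b =>
    match Nat.blt x y with
    | true => x :: mergeN k a (y :: b)
    | false => y :: mergeN k (x :: a) b

theorem mergeN_perm (k : ℕ) (a b : List ℕ) : (mergeN k a b).Perm (a ++ b) := by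
  induction k generalizing a b with
  | zero => exact List.Perm.refl _
  | succ k ih =>
    cases a with
    | nil => simp [mergeN]
    | cons x a =>
      cases b with
      | nil => simp [mergeN]
      | cons y b =>
        simp only [mergeN]
        split
        · exact (ih a (y :: b)).cons x
        · have h1 := (ih (x :: a) b).cons y
          refine h1.trans ?_
          exact List.perm_middle.symm

/-- One pass of merging. -/
def mergePass : List (List ℕ) → List (List ℕ)
  | a :: b :: r => mergeN 1048576 a b :: mergePass r
  | r => r

theorem mergePass_perm (l : List (List ℕ)) : (mergePass l).flatten.Perm l.flatten := by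
  match l with
  | [] => exact List.Perm.refl _
  | [a] => exact List.Perm.refl _
  | a :: b :: r =>
    simp only [mergePass, List.flatten_cons]
    have h1 := mergeN_perm 1048576 a b
    have h2 := mergePass_perm r
    rw [← List.append_assoc]
    exact List.Perm.append h1 h2

/-- Repeated passes. -/
def mergeAll : ℕ → List (List ℕ) → List ℕ
  | 0, l => l.flatten
  | _ + 1, [a] => a
  | k + 1, l => mergeAll k (mergePass l)

theorem mergeAll_perm (k : ℕ) (l : List (List ℕ)) : (mergeAll k l).Perm l.flatten := by
  induction k generalizing l with
  | zero => exact List.Perm.refl _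
  | succ k ih =>
    match l with
    | [a] => simp [mergeAll]
    | [] =>
      simp only [mergeAll]
      exact (ih _).trans (mergePass_perm _)
    | a :: b :: r => exact (ih _).trans (mergePass_perm _)

/-- Sorting. -/
def sortN (l : List ℕ) : List ℕ := mergeAll 24 (l.map fun x => [x])

theorem sortN_perm (l : List ℕ) : (sortN l).Perm l := by
  have e : ∀ l : List ℕ, (l.map fun x => [x]).flatten = l := by
    intro l
    induction l with
    | nil => rfl
    | cons x l ih => simpa using ih
  have h := mergeAll_perm 24 (l.map fun x => [x])
  rw [e] at h
  exact h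

/-- Strictly increasing lists. -/
def strictUp : List ℕ → Bool
  | [] => true
  | [_] => true
  | x :: y :: r => match Nat.blt x y with
    | true => strictUp (y :: r)
    | false => false

theorem strictUp_pairwise (l : List ℕ) (h : strictUp l = true) : l.Pairwise (· < ·) := by
  induction l with
  | nil => exact List.Pairwise.nil
  | cons x l ih =>
    cases l with
    | nil => simp
    | cons y r =>
      simp only [strictUp] at h
      split at h
      · rename_i h1
        have hxy : x < y := by
          have : Nat.blt x y = true := h1
          simpa [Nat.blt_eq] using this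
        have h2 := ih h
        refine List.Pairwise.cons ?_ h2
        intro z hz
        rcases List.mem_cons.mp hz with rfl | hz
        · exact hxy
        · exact lt_trans hxy (List.rel_of_pairwise_cons h2 hz)
      · simp at h

theorem strictUp_nodup (l : List ℕ) (h : strictUp l = true) : l.Nodup :=
  (strictUp_pairwise l h).imp (fun h => ne_of_lt h)

/-- Equality of lists. -/
def eqL : List ℕ → List ℕ → Bool
  | [], [] => true
  | x :: a, y :: b => match Nat.beq x y with
    | true => eqL a b
    | false => false
  | _, _ => false

theorem eqL_eq {a b : List ℕ} (h : eqL a b = true) : a = b := by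
  induction a generalizing b with
  | nil =>
    cases b with
    | nil => rfl
    | cons y b => simp [eqL] at h
  | cons x a ih =>
    cases b with
    | nil => simp [eqL] at h
    | cons y b =>
      simp only [eqL] at h
      split at h
      · rename_i h1
        rw [Nat.eq_of_beq_eq_true h1, ih h]
      · simp at h

/-! ### The enumeration -/

/-- The field pattern with ones everywhere. -/
def onesP : ℕ := 353980082516359097484693940835688277872705

/-- The spread of a mask: bit `i` goes to bit `6 i`. -/
def spread (m : ℕ) : ℕ := pk fun i => Nat.land (Nat.shiftRight m i) 1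

/-- The spreads of all code words. -/
def codeSp : List ℕ := spanList (basis.map spread)

/-- One vector of odd type. -/
def oneP32C (a s p : ℕ) : ℕ :=
  match Nat.land (Nat.shiftRight s (Nat.mul 6 p)) 1 with
  | 0 => Nat.sub a (Nat.shiftLeft 4 (Nat.mul 6 p))
  | _ + 1 => Nat.add a (Nat.shiftLeft 4 (Nat.mul 6 p))

/-- The vectors of odd type of a code word. -/
def loopP32C (a s : ℕ) : ℕ → List ℕ → List ℕ
  | 0, acc => acc
  | p + 1, acc => letN (oneP32C a s p) fun X => loopP32C a s p (X :: acc)

/-- Forcing a list. -/
def forceL {α : Type} (l : List ℕ) (k : List ℕ → α) : α :=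
  match l with
  | [] => k []
  | x :: r => k (x :: r)

theorem forceL_eq {α : Type} (l : List ℕ) (k : List ℕ → α) : forceL l k = k l := by
  cases l <;> rfl

/-- All vectors of odd type. -/
def genP32C : List ℕ → List ℕ → List ℕ
  | [], acc => acc
  | s :: r, acc =>
    letN (Nat.sub (Nat.mul 17 onesP) (Nat.mul 2 s)) fun a =>
      forceL (loopP32C a s 24 acc) fun acc' => genP32C r acc'

/-- The vectors on an octad with given signs. -/
def loopP32B (a : ℕ) : List ℕ → List ℕ → List ℕ
  | [], acc => acc
  | d :: r, acc => letN (Nat.sub a (Nat.mul 4 d)) fun X => loopP32B a r (X :: acc)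

/-- Sign patterns of even size on an octad. -/
def evenSp (c : ℕ) : List ℕ :=
  match (List.range 24).filter (fun i => c.testBit i) with
  | [] => []
  | p :: ps => spanList (ps.map fun q => Nat.xor (Nat.shiftLeft 1 (Nat.mul 6 p)) (Nat.shiftLeft 1 (Nat.mul 6 q)))

/-- All vectors on octads. -/
def genP32B : List ℕ → List ℕ → List ℕ
  | [], acc => acc
  | c :: r, acc =>
    letN (Nat.add (Nat.mul 16 onesP) (Nat.mul 2 (spread c))) fun a =>
      forceL (loopP32B a (evenSp c) acc) fun acc' => genP32B r acc'

/-- The vectors with two nonzero entries at `i` and `j`. -/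
def loopP32A (b i : ℕ) : ℕ → List ℕ → List ℕ
  | 0, acc => acc
  | j + 1, acc =>
    letN (Nat.shiftLeft 4 (Nat.mul 6 j)) fun e =>
    letN (Nat.sub b e) fun X1 => letN (Nat.add b e) fun X2 =>
      loopP32A b i j (X1 :: X2 :: acc)

/-- All vectors with two nonzero entries. -/
def genP32A : ℕ → List ℕ → List ℕ
  | 0, acc => acc
  | i + 1, acc =>
    letN (Nat.shiftLeft 4 (Nat.mul 6 i)) fun e =>
    letN (Nat.sub (Nat.mul 16 onesP) e) fun b1 => letN (Nat.add (Nat.mul 16 onesP) e) fun b2 =>
      forceL (loopP32A b1 i i (loopP32A b2 i i acc)) fun acc' => genP32A i acc'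

/-- The packed minimal vectors. -/
def L32 : List ℕ := genP32A 24 (genP32B octadList (genP32C codeSp []))

end CfsgLib.Leech
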