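/-
A merge sort written with recursors (lazy merges), and a scan for strictly increasing lists with a
bounded depth of evaluation.
-/
import Cfsg.Agent.Lib.Leech.PackList

set_option autoImplicit false
set_option maxRecDepth 100000

namespace CfsgLib.Leech

/-- Merging two lists. -/
noncomputable def mergeL : List ℕ → List ℕ → List ℕ :=
  fun a => List.rec (motive := fun _ => List ℕ → List ℕ)
    (fun b => b)
    (fun x a' iha b => List.rec (motive := fun _ => List ℕ)
      (x :: a')
      (fun y b' ihb => Bool.rec (y :: ihb) (x :: iha (y :: b')) (Nat.ble x y))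
      b)
    a

theorem mergeL_nil (b : List ℕ) : mergeL [] b = b := rfl
theorem mergeL_cons_nil (x : ℕ) (a : List ℕ) : mergeL (x :: a) [] = x :: a := rfl
theorem mergeL_cons_cons (x y : ℕ) (a b : List ℕ) :
    mergeL (x :: a) (y :: b) =
      Bool.rec (y :: mergeL (x :: a) b) (x :: mergeL a (y :: b)) (Nat.ble x y) := rfl

theorem mergeL_perm (a b : List ℕ) : (mergeL a b).Perm (a ++ b) := by
  induction a generalizing b with
  | nil => rw [mergeL_nil]; exact List.Perm.refl _
  | cons x a iha =>
    induction b with
    | nil => rw [mergeL_cons_nil]; simp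
    | cons y b ihb =>
      rw [mergeL_cons_cons]
      cases Nat.ble x y with
      | true => exact (iha _).cons x
      | false =>
        refine (ihb.cons y).trans ?_
        exact List.perm_middle.symm

/-- One pass of merging. -/
noncomputable def passL : List (List ℕ) → List (List ℕ)
  | a :: b :: r => mergeL a b :: passL r
  | r => r

theorem passL_perm (l : List (List ℕ)) : (passL l).flatten.Perm l.flatten := by
  match l with
  | [] => exact List.Perm.refl _
  | [a] => exact List.Perm.refl _
  | a :: b :: r =>
    simp only [passL, List.flatten_cons]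
    have h1 := mergeL_perm a b
    have h2 := passL_perm r
    rw [← List.append_assoc]
    exact List.Perm.append h1 h2

/-- Repeated passes. -/
noncomputable def sortLv : ℕ → List (List ℕ) → List ℕ
  | 0, l => l.flatten
  | _ + 1, [a] => a
  | k + 1, l => sortLv k (passL l)

theorem sortLv_perm (k : ℕ) (l : List (List ℕ)) : (sortLv k l).Perm l.flatten := by
  induction k generalizing l with
  | zero => exact List.Perm.refl _
  | succ k ih =>
    match l with
    | [a] => simp [sortLv]
    | [] =>
      simp only [sortLv]
      exact (ih _).trans (passL_perm _)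
    | a :: b :: r => exact (ih _).trans (passL_perm _)

/-- Sorting. -/
noncomputable def sortL (l : List ℕ) : List ℕ := sortLv 24 (l.map fun x => [x])

theorem sortL_perm (l : List ℕ) : (sortL l).Perm l := by
  have e : ∀ l : List ℕ, (l.map fun x => [x]).flatten = l := by
    intro l
    induction l with
    | nil => rfl
    | cons x l ih => simpa using ih
  have h := sortLv_perm 24 (l.map fun x => [x])
  rw [e] at h
  exact h

/-- A state of the scan: the last value, the number of values seen, and the rest of the list. -/
inductive ScanSt : Type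
  | fail : ScanSt
  | st : ℕ → ℕ → List ℕ → ScanSt

/-- Scanning `2 ^ k` entries; the depth of evaluation is linear in `k`. -/
def scanK : ℕ → ScanSt → ScanSt
  | 0, ScanSt.fail => ScanSt.fail
  | 0, ScanSt.st lo c l =>
    match l with
    | [] => ScanSt.st lo c []
    | x :: r =>
      match Nat.blt lo x with
      | true => letN (Nat.succ c) fun c' => ScanSt.st x c' r
      | false => ScanSt.fail
  | k + 1, s =>
    match scanK k s with
    | ScanSt.fail => ScanSt.fail
    | ScanSt.st lo c [] => ScanSt.st lo c []
    | ScanSt.st lo c (x :: r) => scanK k (ScanSt.st lo c (x :: r))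

/-- The property of a run of the scan. -/
def ScanOK (lo c : ℕ) (l : List ℕ) (hi n : ℕ) (r : List ℕ) : Prop :=
  ∃ pre : List ℕ, l = pre ++ r ∧ (lo :: pre).Pairwise (· < ·) ∧ n = c + pre.length ∧ ∀ x ∈ lo :: pre, x ≤ hi

theorem scanK_spec (k : ℕ) {s : ScanSt} {lo c : ℕ} {l : List ℕ} (hs : s = ScanSt.st lo c l)
    {hi n : ℕ} {r : List ℕ} (h : scanK k s = ScanSt.st hi n r) : ScanOK lo c l hi n r := by
  induction k generalizing s lo c l hi n r with
  | zero =>
    subst hs
    cases l with
    | nil =>
      simp only [scanK] at h
      injection h with h1 h2 h3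
      subst h1 h2 h3
      exact ⟨[], rfl, by simp, rfl, by simp⟩
    | cons x t =>
      simp only [scanK] at h
      split at h
      · rename_i hb
        rw [letN_eq] at h
        injection h with h1 h2 h3
        subst h1 h2 h3
        have hlt : lo < x := by
          have : Nat.blt lo x = true := hb
          simpa [Nat.blt_eq] using this
        refine ⟨[x], rfl, by simpa using hlt, by simp, ?_⟩
        intro z hz
        simp only [List.mem_cons, List.not_mem_nil, or_false] at hz
        rcases hz with rfl | rfl
        · exact le_of_lt hlt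
        · exact le_rfl
      · simp at h
  | succ k ih =>
    subst hs
    simp only [scanK] at h
    split at h
    · simp at h
    · rename_i h1
      injection h with e1 e2 e3
      subst e1 e2 e3
      exact ih rfl h1
    · rename_i lo1 c1 x1 r1 h1
      obtain ⟨pre1, e1, p1, n1, b1⟩ := ih rfl h1
      obtain ⟨pre2, e2, p2, n2, b2⟩ := ih rfl h
      refine ⟨pre1 ++ pre2, ?_, ?_, ?_, ?_⟩
      · rw [e1, e2, List.append_assoc]
      · have hlast : ∀ x ∈ lo :: pre1, x ≤ lo1 := b1
        rw [← List.cons_append, List.pairwise_append]
        refine ⟨p1, (List.pairwise_cons.mp p2).2, ?_⟩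
        intro a ha b hb
        have h2 := (List.pairwise_cons.mp p2).1 b hb
        exact lt_of_le_of_lt (hlast a ha) h2
      · rw [List.length_append, n2, n1]
        ring
      · intro z hz
        rw [← List.cons_append, List.mem_append] at hz
        rcases hz with hz | hz
        · exact le_trans (b1 z hz) (b2 lo1 List.mem_cons_self)
        · exact b2 z (List.mem_cons_of_mem _ hz)

/-- The outcome of a successful scan of a sorted list. -/
theorem scan_result {l : List ℕ} {k hi n : ℕ} (h : scanK k (ScanSt.st 0 0 (sortL l)) = ScanSt.st hi n []) :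
    l.Nodup ∧ l.length = n ∧ ∀ x ∈ l, x ≤ hi := by
  obtain ⟨pre, e, p, n1, b⟩ := scanK_spec k rfl h
  rw [List.append_nil] at e
  have hp := sortL_perm l
  rw [e] at hp
  have hp2 := (List.pairwise_cons.mp p).2
  refine ⟨(hp.nodup_iff).mp (hp2.imp (fun h => ne_of_lt h)), ?_, ?_⟩
  · rw [← hp.length_eq, n1]
    simp
  · intro x hx
    exact b x (List.mem_cons_of_mem _ (hp.mem_iff.mpr hx))

/-- The test in the form of a Boolean value. -/
noncomputable def scanChk (k hi n : ℕ) (l : List ℕ) : Bool :=
  match scanK k (ScanSt.st 0 0 (sortL l)) with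
  | ScanSt.st h c [] => Nat.ble h hi && Nat.beq c n
  | _ => false

theorem scanChk_spec {k hi n : ℕ} {l : List ℕ} (h : scanChk k hi n l = true) :
    l.Nodup ∧ l.length = n ∧ ∀ x ∈ l, x ≤ hi := by
  unfold scanChk at h
  split at h
  · rename_i h0 c hs
    simp only [Bool.and_eq_true] at h
    obtain ⟨h1, h2⟩ := h
    obtain ⟨a, b, c'⟩ := scan_result hs
    have h3 : h0 ≤ hi := Nat.le_of_ble_eq_true h1
    have h4 : c = n := Nat.eq_of_beq_eq_true h2
    exact ⟨a, by rw [b, h4], fun x hx => le_trans (c' x hx) h3⟩
  · simp at h

end CfsgLib.Leech
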