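/-
A test for membership in the lattice on packed vectors, bounded-depth scans of long lists, and the
list of all minimal vectors.
-/
import Cfsg.Agent.Lib.Leech.PackSort

set_option autoImplicit false
set_option maxRecDepth 100000

namespace CfsgLib.Leech

open Cfsg CfsgLib.Golay
open scoped Pointwise

/-! ### Scans with bounded depth -/

/-- All entries satisfy a test; the depth of evaluation is linear in `k`. -/
def allK (f : ℕ → Bool) : ℕ → List ℕ → Option (List ℕ)
  | 0, [] => some []
  | 0, x :: r => match f x with
    | true => some r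
    | false => none
  | k + 1, l => match allK f k l with
    | none => none
    | some [] => some []
    | some (x :: r) => allK f k (x :: r)

theorem allK_spec (f : ℕ → Bool) (k : ℕ) (l r : List ℕ) (h : allK f k l = some r) :
    ∃ pre, l = pre ++ r ∧ ∀ x ∈ pre, f x = true := by
  induction k generalizing l r with
  | zero =>
    cases l with
    | nil =>
      simp only [allK, Option.some.injEq] at h
      subst h
      exact ⟨[], rfl, by simp⟩
    | cons x t =>
      simp only [allK] at h
      split at h
      · rename_i hf
        simp only [Option.some.injEq] at h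
        subst h
        exact ⟨[x], rfl, by simpa using hf⟩
      · simp at h
  | succ k ih =>
    simp only [allK] at h
    split at h
    · simp at h
    · rename_i h1
      simp only [Option.some.injEq] at h
      subst h
      exact ih l [] h1
    · rename_i x1 r1 h1
      obtain ⟨pre1, e1, p1⟩ := ih l _ h1
      obtain ⟨pre2, e2, p2⟩ := ih _ r h
      refine ⟨pre1 ++ pre2, ?_, ?_⟩
      · rw [e1, e2, List.append_assoc]
      · intro y hy
        rcases List.mem_append.mp hy with hy | hy
        · exact p1 y hy
        · exact p2 y hy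

/-- The test in Boolean form. -/
def allChk (f : ℕ → Bool) (k : ℕ) (l : List ℕ) : Bool :=
  match allK f k l with
  | some [] => true
  | _ => false

theorem allChk_spec {f : ℕ → Bool} {k : ℕ} {l : List ℕ} (h : allChk f k l = true) : ∀ x ∈ l, f x = true := by
  unfold allChk at h
  split at h
  · rename_i h1
    obtain ⟨pre, e, p⟩ := allK_spec f k l [] h1
    rw [List.append_nil] at e
    rw [e]
    exact p
  · simp at h

/-- Counting the entries satisfying a test. -/
def cntK (f : ℕ → Bool) : ℕ → ℕ → List ℕ → ℕ × List ℕ
  | 0, c, [] => (c, [])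
  | 0, c, x :: r => match f x with
    | true => letN (Nat.succ c) fun c' => (c', r)
    | false => (c, r)
  | k + 1, c, l => match cntK f k c l with
    | (c', []) => (c', [])
    | (c', x :: r) => cntK f k c' (x :: r)

theorem cntK_spec (f : ℕ → Bool) (k c : ℕ) (l : List ℕ) {n : ℕ} {r : List ℕ} (h : cntK f k c l = (n, r)) :
    ∃ pre, l = pre ++ r ∧ n = c + (pre.filter f).length := by
  induction k generalizing c l n r with
  | zero =>
    cases l with
    | nil =>
      simp only [cntK, Prod.mk.injEq] at h
      obtain ⟨rfl, rfl⟩ := h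
      exact ⟨[], rfl, by simp⟩
    | cons x t =>
      simp only [cntK] at h
      split at h
      · rename_i hf
        rw [letN_eq] at h
        simp only [Prod.mk.injEq] at h
        obtain ⟨rfl, rfl⟩ := h
        exact ⟨[x], rfl, by simp [List.filter, hf]⟩
      · rename_i hf
        simp only [Prod.mk.injEq] at h
        obtain ⟨rfl, rfl⟩ := h
        exact ⟨[x], rfl, by simp [List.filter, hf]⟩
  | succ k ih =>
    simp only [cntK] at h
    split at h
    · rename_i c' h1
      simp only [Prod.mk.injEq] at h
      obtain ⟨rfl, rfl⟩ := h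
      exact ih c l h1
    · rename_i c' x1 r1 h1
      obtain ⟨pre1, e1, p1⟩ := ih c l h1
      obtain ⟨pre2, e2, p2⟩ := ih c' _ h
      refine ⟨pre1 ++ pre2, ?_, ?_⟩
      · rw [e1, e2, List.append_assoc]
      · rw [List.filter_append, List.length_append, p2, p1]
        ring

/-- The count in Boolean form. -/
def cntChk (f : ℕ → Bool) (k : ℕ) (l : List ℕ) (n : ℕ) : Bool :=
  match cntK f k 0 l with
  | (c, []) => Nat.beq c n
  | _ => false

theorem cntChk_spec {f : ℕ → Bool} {k : ℕ} {l : List ℕ} {n : ℕ} (h : cntChk f k l n = true) :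
    (l.filter f).length = n := by
  unfold cntChk at h
  split at h
  · rename_i c h1
    obtain ⟨pre, e, p⟩ := cntK_spec f k 0 l h1
    rw [List.append_nil] at e
    rw [e, ← Nat.eq_of_beq_eq_true h, p]
    simp
  · simp at h

/-! ### The membership test -/

/-- All fields have the given parity. -/
def allFields (X par : ℕ) : ℕ → Bool
  | 0 => true
  | k + 1 => match Nat.beq (Nat.mod (fld X k) 2) par with
    | true => allFields X par k
    | false => false

theorem allFields_spec {X par k : ℕ} (h : allFields X par k = true) : ∀ i < k, fld X i % 2 = par := by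
  induction k with
  | zero => intro i hi; omega
  | succ k ih =>
    simp only [allFields] at h
    split at h
    · rename_i h1
      intro i hi
      by_cases hik : i = k
      · subst hik
        exact Nat.eq_of_beq_eq_true h1
      · exact ih h i (by omega)
    · simp at h

/-- The code word of a packed vector. -/
def cmask (X par : ℕ) : ℕ :=
  bitsOf (fun i => Nat.beq (Nat.mod (Nat.sub (Nat.add (fld X i) 4) par) 4) 2) 24

/-- The sum of fields. -/
def sumF (X : ℕ) : ℕ → ℕ
  | 0 => 0
  | k + 1 => Nat.add (sumF X k) (fld X k)

/-- The square of a coordinate. -/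
def sqF (f : ℕ) : ℕ := Nat.add (Nat.mul (Nat.sub f 16) (Nat.sub f 16)) (Nat.mul (Nat.sub 16 f) (Nat.sub 16 f))

/-- The sum of squares of coordinates. -/
def normF (X : ℕ) : ℕ → ℕ
  | 0 => 0
  | k + 1 => Nat.add (normF X k) (sqF (fld X k))

/-- The test. -/
def chkP (N X : ℕ) : Bool :=
  letN (Nat.mod (fld X 0) 2) fun par =>
    allFields X par 24 && isCode (cmask X par) &&
      Nat.beq (Nat.mod (Nat.sub (Nat.add (sumF X 24) 8) (Nat.mul 4 par)) 8) 0 &&
      Nat.beq (normF X 24) N && Nat.ble (Nat.succ X) 22300745198530623141535718272648361505980416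

theorem bitsOf_congr {f g : ℕ → Bool} {n : ℕ} (h : ∀ i < n, f i = g i) : bitsOf f n = bitsOf g n := by
  induction n with
  | zero => rfl
  | succ n ih =>
    simp only [bitsOf]
    rw [ih (fun i hi => h i (by omega)), h n (by omega)]

theorem sum_dec (X n : ℕ) (hn : n ≤ 24) :
    ((List.range n).map (getI (dec X))).sum = (sumF X n : ℤ) - 16 * n := by
  induction n with
  | zero => simp [sumF]
  | succ n ih =>
    rw [List.range_succ, List.map_append, List.sum_append, ih (by omega)]
    simp only [List.map_cons, List.map_nil, List.sum_cons, List.sum_nil, add_zero, sumF]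
    rw [getI_dec X (by omega)]
    have : ((Nat.add (sumF X n) (fld X n) : ℕ) : ℤ) = (sumF X n : ℤ) + fld X n := by
      simp
    rw [this]
    push_cast
    ring

theorem norm_dec (X n : ℕ) (hn : n ≤ 24) :
    ((List.range n).map fun i => getI (dec X) i ^ 2).sum = (normF X n : ℤ) := by
  induction n with
  | zero => simp [normF]
  | succ n ih =>
    rw [List.range_succ, List.map_append, List.sum_append, ih (by omega)]
    simp only [List.map_cons, List.map_nil, List.sum_cons, List.sum_nil, add_zero, normF]
    rw [getI_dec X (by omega)]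
    have h1 : ((Nat.add (normF X n) (sqF (fld X n)) : ℕ) : ℤ) = (normF X n : ℤ) + (sqF (fld X n) : ℤ) := by
      simp
    rw [h1]
    congr 1
    generalize fld X n = f
    unfold sqF
    by_cases hf : f ≤ 16
    · have e1 : Nat.sub f 16 = 0 := by show f - 16 = 0; omega
      have e2 : Nat.sub 16 f = 16 - f := rfl
      rw [e1, e2]
      simp only [Nat.mul_eq, Nat.add_eq, Nat.zero_mul, Nat.zero_add]
      push_cast
      rw [Nat.cast_sub hf]
      push_cast
      ring
    · have e1 : Nat.sub 16 f = 0 := by show 16 - f = 0; omega
      obtain ⟨d, rfl⟩ : ∃ d, f = 16 + d := ⟨f - 16, by omega⟩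
      have e2 : Nat.sub (16 + d) 16 = d := by show 16 + d - 16 = d; omega
      rw [e1, e2]
      simp only [Nat.mul_eq, Nat.add_eq, Nat.zero_mul, Nat.add_zero]
      push_cast
      ring

theorem chkP_spec {N X : ℕ} (h : chkP N X = true) :
    unpk X ∈ leechLattice ∧ sqNorm (unpk X) = N ∧ X < 64 ^ 24 := by
  unfold chkP at h
  rw [letN_eq] at h
  generalize hpar : Nat.mod (fld X 0) 2 = par at h
  simp only [Bool.and_eq_true] at h
  obtain ⟨⟨⟨⟨h1, h2⟩, h3⟩, h4⟩, h5⟩ := h
  have hf := allFields_spec h1
  have hpar' : fld X 0 % 2 = par := hpar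
  have hp2 : par < 2 := by rw [← hpar']; exact Nat.mod_lt _ (by norm_num)
  have hpL : parL (dec X) = (par : ℤ) := by
    unfold parL
    rw [getI_dec X (by norm_num)]
    omega
  have hcode : codeL (dec X) = cmask X par := by
    unfold codeL cmask
    apply bitsOf_congr
    intro i hi
    rw [hpL, getI_dec X hi]
    have h6 := hf i hi
    have h7 : Nat.mod (Nat.sub (Nat.add (fld X i) 4) par) 4 = (fld X i + 4 - par) % 4 := rfl
    rw [h7]
    have h8 : (((fld X i : ℤ) - 16 - (par : ℤ)) % 4 = 2) ↔ ((fld X i + 4 - par) % 4 = 2) := by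
      omega
    by_cases h9 : (fld X i + 4 - par) % 4 = 2
    · have h10 := h8.mpr h9
      rw [h9]
      simp [h10]
    · have h10 : ¬ (((fld X i : ℤ) - 16 - (par : ℤ)) % 4 = 2) := fun h => h9 (h8.mp h)
      rw [decide_eq_false h10]
      symm
      rw [Bool.eq_false_iff]
      intro h11
      exact h9 (Nat.eq_of_beq_eq_true h11)
  have hl : lchk (dec X) = true := by
    simp only [lchk, Bool.and_eq_true, List.all_eq_true, decide_eq_true_eq, List.mem_range]
    refine ⟨⟨?_, ?_⟩, ?_⟩
    · intro i hi
      rw [hpL, getI_dec X hi]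
      have h6 := hf i hi
      omega
    · rw [hcode]
      exact h2
    · have h6 : sumL (dec X) = (sumF X 24 : ℤ) - 16 * 24 := by
        unfold sumL
        exact_mod_cast sum_dec X 24 le_rfl
      rw [h6, hpL]
      have h7 : (sumF X 24 + 8 - 4 * par) % 8 = 0 := Nat.eq_of_beq_eq_true h3
      omega
  refine ⟨mem_of_lchk hl, ?_, ?_⟩
  · unfold unpk
    rw [sqNorm_vecL]
    unfold normL
    rw [norm_dec X 24 le_rfl, Nat.eq_of_beq_eq_true h4]
  · have h6 := Nat.le_of_ble_eq_true h5
    have h7 : (64 : ℕ) ^ 24 = 22300745198530623141535718272648361505980416 := by norm_num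
    rw [h7]
    exact h6

/-! ### A faster form of the test -/

/-- The final part of the test. -/
def finQ (N par X m s n : ℕ) : Bool :=
  isCode m && Nat.beq (Nat.mod (Nat.sub (Nat.add s 8) (Nat.mul 4 par)) 8) 0 && Nat.beq n N &&
    Nat.ble (Nat.succ X) 22300745198530623141535718272648361505980416

/-- The bit of a coordinate. -/
def bitQ (par f : ℕ) : Bool := Nat.beq (Nat.mod (Nat.sub (Nat.add f 4) par) 4) 2

/-- The loop over the coordinates. -/
noncomputable def loopQ (N par X : ℕ) (k : ℕ) : ℕ → ℕ → ℕ → Bool :=
  Nat.rec (motive := fun _ => ℕ → ℕ → ℕ → Bool)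
    (fun m s n => finQ N par X m s n)
    (fun k ih m s n =>
      letN (fld X k) fun f =>
        Bool.rec false
          (letN (Nat.add m (Bool.rec 0 (Nat.shiftLeft 1 k) (bitQ par f))) fun m' =>
            letN (Nat.add s f) fun s' =>
              letN (Nat.add n (sqF f)) fun n' => ih m' s' n')
          (Nat.beq (Nat.mod f 2) par))
    k

/-- The faster test. -/
noncomputable def chkQ (N X : ℕ) : Bool :=
  letN (Nat.mod (fld X 0) 2) fun par => loopQ N par X 24 0 0 0

theorem loopQ_spec (N par X k m s n : ℕ) (h : loopQ N par X k m s n = true) :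
    allFields X par k = true ∧
      finQ N par X (m + bitsOf (fun i => bitQ par (fld X i)) k) (s + sumF X k) (n + normF X k) = true := by
  induction k generalizing m s n with
  | zero => exact ⟨rfl, h⟩
  | succ k ih =>
    have h1 : loopQ N par X (k + 1) m s n =
        letN (fld X k) fun f =>
        Bool.rec false
          (letN (Nat.add m (Bool.rec 0 (Nat.shiftLeft 1 k) (bitQ par f))) fun m' =>
            letN (Nat.add s f) fun s' =>
              letN (Nat.add n (sqF f)) fun n' => loopQ N par X k m' s' n')
          (Nat.beq (Nat.mod f 2) par) := rfl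
    rw [h1, letN_eq] at h
    cases hb : Nat.beq (Nat.mod (fld X k) 2) par with
    | false =>
      rw [hb] at h
      simp at h
    | true =>
      rw [hb] at h
      simp only [letN_eq] at h
      obtain ⟨h2, h3⟩ := ih _ _ _ h
      refine ⟨?_, ?_⟩
      · simp only [allFields, hb]
        exact h2
      · convert h3 using 2
        · simp only [bitsOf, Nat.add_eq]
          have e : (Bool.rec 0 (Nat.shiftLeft 1 k) (bitQ par (fld X k)) : ℕ) =
              if bitQ par (fld X k) = true then 2 ^ k else 0 := by
            cases bitQ par (fld X k) with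
            | false => rfl
            | true =>
              show 1 <<< k = _
              simp [Nat.one_shiftLeft]
          rw [e]
          ring
        · simp only [sumF, Nat.add_eq]
          ring
        · simp only [normF, Nat.add_eq]
          ring

theorem chkQ_spec {N X : ℕ} (h : chkQ N X = true) : chkP N X = true := by
  unfold chkQ at h
  rw [letN_eq] at h
  obtain ⟨h1, h2⟩ := loopQ_spec _ _ _ _ _ _ _ h
  unfold chkP
  rw [letN_eq]
  simp only [Nat.zero_add, finQ, Bool.and_eq_true] at h2
  obtain ⟨⟨⟨h3, h4⟩, h5⟩, h6⟩ := h2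
  simp only [Bool.and_eq_true]
  exact ⟨⟨⟨⟨h1, h3⟩, h4⟩, h5⟩, h6⟩

end CfsgLib.Leech
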