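/-
Walking through an orbit on packed vectors with an explicit program, and the resulting transitivity
statements.
-/
import Cfsg.Agent.Lib.Leech.PackChk
import Cfsg.Agent.Lib.Leech.GL23

set_option autoImplicit false
set_option maxRecDepth 100000

namespace CfsgLib.Leech

open Cfsg CfsgLib.Golay
open scoped Pointwise

/-- The digits of one chunk of a program: `0` removes the top of the stack, `e + 1` pushes the image of the
top under the generator `e`. -/
def digitLoop (gens : List (List (ℕ × ℕ))) : ℕ → ℕ → List ℕ → List ℕ → List ℕ × List ℕ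
  | 0, _, st, o => (st, o)
  | k + 1, c, st, o =>
    letN (Nat.land c 15) fun d =>
    letN (Nat.shiftRight c 4) fun c' =>
    match d, st with
    | _, [] => digitLoop gens k c' [] o
    | 0, _ :: r => digitLoop gens k c' r o
    | e + 1, x :: r =>
      letN (applyW (gens.getD e []) x) fun Y => digitLoop gens k c' (Y :: x :: r) (Y :: o)

/-- All chunks of a program. -/
def runChunks (gens : List (List (ℕ × ℕ))) : List ℕ → List ℕ → List ℕ → List ℕ
  | [], _, o => o
  | c :: cs, st, o =>
    match digitLoop gens 64 c st o with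
    | (st', o') => runChunks gens cs st' o'

theorem digitLoop_sound {gens : List (List (ℕ × ℕ))} {P : ℕ → Prop}
    (hg : ∀ e X, P X → P (applyW (gens.getD e []) X)) (k c : ℕ) (st o : List ℕ)
    (h1 : ∀ x ∈ st, P x) (h2 : ∀ x ∈ o, P x) :
    (∀ x ∈ (digitLoop gens k c st o).1, P x) ∧ ∀ x ∈ (digitLoop gens k c st o).2, P x := by
  induction k generalizing c st o with
  | zero => exact ⟨h1, h2⟩
  | succ k ih =>
    simp only [digitLoop, letN_eq]
    cases st with
    | nil => exact ih _ _ _ (by simp) h2
    | cons x r =>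
      generalize Nat.land c 15 = d
      cases d with
      | zero => exact ih _ _ _ (fun y hy => h1 y (List.mem_cons_of_mem _ hy)) h2
      | succ e =>
        have hY : P (applyW (gens.getD e []) x) := hg e x (h1 x List.mem_cons_self)
        simp only [letN_eq]
        refine ih _ _ _ ?_ ?_
        · intro y hy
          rcases List.mem_cons.mp hy with rfl | hy
          · exact hY
          · exact h1 y hy
        · intro y hy
          rcases List.mem_cons.mp hy with rfl | hy
          · exact hY
          · exact h2 y hy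

theorem runChunks_sound {gens : List (List (ℕ × ℕ))} {P : ℕ → Prop}
    (hg : ∀ e X, P X → P (applyW (gens.getD e []) X)) (cs : List ℕ) (st o : List ℕ)
    (h1 : ∀ x ∈ st, P x) (h2 : ∀ x ∈ o, P x) : ∀ x ∈ runChunks gens cs st o, P x := by
  induction cs generalizing st o with
  | nil => exact h2
  | cons c cs ih =>
    simp only [runChunks]
    have := digitLoop_sound hg 64 c st o h1 h2
    exact ih _ _ this.1 this.2

/-- Automorphisms fixing all vectors of a list. -/
def FixL (bs : List leechLattice) (g : ↥Co0) : Prop := ∀ β ∈ bs, g • β = β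

theorem FixL.one (bs : List leechLattice) : FixL bs 1 := fun β _ => one_smul _ β

theorem FixL.mul {bs : List leechLattice} {g h : ↥Co0} (hg : FixL bs g) (hh : FixL bs h) : FixL bs (g * h) :=
  fun β hβ => by rw [mul_smul, hh β hβ, hg β hβ]

theorem FixL.inv {bs : List leechLattice} {g : ↥Co0} (hg : FixL bs g) : FixL bs g⁻¹ :=
  fun β hβ => by
    conv_lhs => rw [← hg β hβ]
    rw [inv_smul_smul]

/-- The packed vectors in the orbit of `b` under the automorphisms fixing `bs`. -/
def OrbP (bs : List leechLattice) (b : leechLattice) (X : ℕ) : Prop :=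
  ∃ g : ↥Co0, FixL bs g ∧ ((g • b : leechLattice) : GolayPt → ℤ) = unpk X

/-- The generators given by paths. -/
def PathsOK (bs : List leechLattice) (paths : List (List (ℕ × ℕ))) : Prop :=
  ∀ ss ∈ paths, ss.all stepOK = true ∧ FixL bs (pathEl ss)

theorem OrbP_step {bs : List leechLattice} {b : leechLattice} (hn : sqNorm (b : GolayPt → ℤ) ≤ 64)
    {paths : List (List (ℕ × ℕ))} (hp : PathsOK bs paths) {gens : List (List (ℕ × ℕ))}
    (hg : paths.map (fun ss => ss.map compile) = gens) (e X : ℕ) (hX : OrbP bs b X) :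
    OrbP bs b (applyW (gens.getD e []) X) := by
  obtain ⟨g, hg1, hg2⟩ := hX
  by_cases he : e < paths.length
  · have e1 : gens.getD e [] = (paths[e]).map compile := by
      rw [← hg]
      simp [List.getD_eq_getElem, he]
    rw [e1]
    obtain ⟨h1, h2⟩ := hp _ (List.getElem_mem he)
    have hmem : unpk X ∈ leechLattice := by
      rw [← hg2]
      exact (g • b).2
    have hnorm : sqNorm (unpk X) ≤ 64 := by
      rw [← hg2, sqNorm_smul_Co0]
      exact hn
    have h3 := applyW_spec (paths[e]) h1 X hmem hnorm
    refine ⟨pathEl (paths[e]) * g, h2.mul hg1, ?_⟩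
    rw [← h3, mul_smul]
    have h4 : g • b = ⟨unpk X, hmem⟩ := Subtype.ext hg2
    rw [h4]
  · have e1 : gens.getD e [] = [] := by
      rw [← hg]
      rw [List.getD_eq_default]
      simpa using he
    rw [e1]
    exact ⟨g, hg1, hg2⟩

/-- Everything produced by a program lies in the orbit. -/
theorem run_orbit {bs : List leechLattice} {b : leechLattice} (hn : sqNorm (b : GolayPt → ℤ) ≤ 64)
    {paths : List (List (ℕ × ℕ))} (hp : PathsOK bs paths) {gens : List (List (ℕ × ℕ))}
    (hg : paths.map (fun ss => ss.map compile) = gens) {B : ℕ} (hB : (b : GolayPt → ℤ) = unpk B) (cs : List ℕ) :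
    ∀ X ∈ runChunks gens cs [B] [B], OrbP bs b X := by
  have hb : OrbP bs b B := ⟨1, FixL.one bs, by rw [one_smul]; exact hB⟩
  apply runChunks_sound (fun e X hX => OrbP_step hn hp hg e X hX)
  · intro x hx
    rw [List.mem_singleton] at hx
    rw [hx]
    exact hb
  · intro x hx
    rw [List.mem_singleton] at hx
    rw [hx]
    exact hb

/-- The packed bound. -/
def hiP : ℕ := 22300745198530623141535718272648361505980415

theorem hiP_lt : hiP < 64 ^ 24 := by
  unfold hiP
  norm_num

/-- Coverage: if a program produces as many distinct vectors as there are in a set containing the orbit,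
then the orbit is the whole set. -/
theorem orbit_cover {bs : List leechLattice} {b : leechLattice} (hn : sqNorm (b : GolayPt → ℤ) ≤ 64)
    {paths : List (List (ℕ × ℕ))} (hp : PathsOK bs paths) {gens : List (List (ℕ × ℕ))}
    (hg : paths.map (fun ss => ss.map compile) = gens) {B : ℕ} (hB : (b : GolayPt → ℤ) = unpk B) {cs : List ℕ}
    {k n : ℕ} (hs : scanChk k hiP n (runChunks gens cs [B] [B]) = true)
    {T : Set (GolayPt → ℤ)} (hTn : T.ncard = n) (hTf : T.Finite)
    (hcl : ∀ g : ↥Co0, FixL bs g → ((g • b : leechLattice) : GolayPt → ℤ) ∈ T) :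
    ∀ x ∈ T, ∃ g : ↥Co0, FixL bs g ∧ ((g • b : leechLattice) : GolayPt → ℤ) = x := by
  obtain ⟨h1, h2, h3⟩ := scanChk_spec hs
  set O := runChunks gens cs [B] [B] with hO
  have horb := run_orbit hn hp hg hB cs
  rw [← hO] at horb
  have hbound : ∀ X ∈ O, X < 64 ^ 24 := fun X hX => lt_of_le_of_lt (h3 X hX) hiP_lt
  have hinj : Set.InjOn unpk (O.toFinset : Set ℕ) := by
    intro X hX Y hY he
    simp only [List.coe_toFinset, Set.mem_ofPred_eq] at hX hY
    exact eq_of_unpk_eq (hbound X hX) (hbound Y hY) he
  have hsub : unpk '' (O.toFinset : Set ℕ) ⊆ T := by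
    rintro x ⟨X, hX, rfl⟩
    simp only [List.coe_toFinset, Set.mem_ofPred_eq] at hX
    obtain ⟨g, hg1, hg2⟩ := horb X hX
    rw [← hg2]
    exact hcl g hg1
  have hcard : (unpk '' (O.toFinset : Set ℕ)).ncard = n := by
    rw [hinj.ncard_image, Set.ncard_coe_finset, List.toFinset_card_of_nodup h1, h2]
  have heq : unpk '' (O.toFinset : Set ℕ) = T :=
    Set.eq_of_subset_of_ncard_le hsub (by rw [hTn, hcard]) hTf
  intro x hx
  rw [← heq] at hx
  obtain ⟨X, hX, rfl⟩ := hx
  simp only [List.coe_toFinset, Set.mem_ofPred_eq] at hX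
  obtain ⟨g, hg1, hg2⟩ := horb X hX
  exact ⟨g, hg1, hg2⟩

/-! ### Sparse vectors and inner products -/

/-- The vector with prescribed entries. -/
def vecS (B : List (ℕ × ℤ)) : GolayPt → ℤ := fun q => (B.map fun p => if p.1 = idx q then p.2 else 0).sum

theorem dot_vecS (B : List (ℕ × ℤ)) (hB : ∀ p ∈ B, p.1 < 24) (y : GolayPt → ℤ) :
    dotInt (vecS B) y = (B.map fun p => p.2 * y (pt p.1)).sum := by
  induction B with
  | nil => simp [dotInt, vecS]
  | cons p B ih =>
    have h1 : dotInt (vecS (p :: B)) y = p.2 * y (pt p.1) + dotInt (vecS B) y := by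
      unfold dotInt
      have h2 : ∀ q, vecS (p :: B) q * y q = (if p.1 = idx q then p.2 * y q else 0) + vecS B q * y q := by
        intro q
        simp only [vecS, List.map_cons, List.sum_cons, add_mul]
        congr 1
        split_ifs <;> simp
      simp only [h2]
      rw [Finset.sum_add_distrib]
      congr 1
      rw [Finset.sum_eq_single (pt p.1)]
      · rw [idx_pt (hB p List.mem_cons_self), if_pos rfl]
      · intro q _ hq
        rw [if_neg]
        intro he
        apply hq
        rw [he, pt_idx]
      · simp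
    rw [h1, ih (fun r hr => hB r (List.mem_cons_of_mem _ hr))]
    simp

/-- The packed inner product with a sparse vector. -/
def dotS : List (ℕ × ℤ) → ℕ → ℤ
  | [], _ => 0
  | p :: B, X => Int.add (Int.mul p.2 (Int.sub (Int.ofNat (fld X p.1)) 16)) (dotS B X)

theorem dotS_eq (B : List (ℕ × ℤ)) (hB : ∀ p ∈ B, p.1 < 24) (X : ℕ) :
    dotInt (vecS B) (unpk X) = dotS B X := by
  rw [dot_vecS B hB]
  induction B with
  | nil => rfl
  | cons p B ih =>
    simp only [List.map_cons, List.sum_cons, dotS]
    rw [ih (fun r hr => hB r (List.mem_cons_of_mem _ hr)), unpk_pt X (hB p List.mem_cons_self)]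
    rfl

/-- Test of an inner product. -/
def dotT (B : List (ℕ × ℤ)) (k : ℤ) (X : ℕ) : Bool := decide (dotS B X = k)

theorem dotT_iff (B : List (ℕ × ℤ)) (hB : ∀ p ∈ B, p.1 < 24) (k : ℤ) (X : ℕ) :
    dotT B k X = true ↔ dotInt (vecS B) (unpk X) = k := by
  rw [dotS_eq B hB]
  simp [dotT]

end CfsgLib.Leech
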