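/-
General lemmas on moving configurations of lattice vectors, and counting.
-/
import Cfsg.Agent.Lib.Leech.PackRun

set_option autoImplicit false
set_option maxRecDepth 100000

namespace CfsgLib.Leech

open Cfsg CfsgLib.Golay
open scoped Pointwise

theorem conj_fix {h g : ↥Co0} {v β : leechLattice} (hv : h • v = β) (hg : g • β = β) : (h⁻¹ * g * h) • v = v := by
  rw [mul_smul, mul_smul, hv, hg, ← hv, inv_smul_smul]

theorem conj_map {h g : ↥Co0} {w w' : leechLattice} (hg : g • (h • w) = h • w') : (h⁻¹ * g * h) • w = w' := by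
  rw [mul_smul, mul_smul, hg, inv_smul_smul]

/-- From coverage to transitivity. -/
theorem orb_trans {bs : List leechLattice} {b : leechLattice} {P : (GolayPt → ℤ) → Prop}
    (R : ∀ x : GolayPt → ℤ, x ∈ leechLattice → P x → ∃ g : ↥Co0, FixL bs g ∧ ((g • b : leechLattice) : GolayPt → ℤ) = x)
    {a a' : leechLattice} (ha : P a) (ha' : P a') : ∃ g : ↥Co0, FixL bs g ∧ g • a = a' := by
  obtain ⟨g1, hg1, e1⟩ := R a a.2 ha
  obtain ⟨g2, hg2, e2⟩ := R a' a'.2 ha'
  refine ⟨g2 * g1⁻¹, hg2.mul hg1.inv, ?_⟩
  have e3 : g1 • b = a := Subtype.ext e1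
  have e4 : g2 • b = a' := Subtype.ext e2
  rw [mul_smul, ← e3, inv_smul_smul, e4]

/-- The inner product is preserved. -/
theorem dot_smul (g : ↥Co0) (a b : leechLattice) :
    dotInt ((g • a : leechLattice) : GolayPt → ℤ) ((g • b : leechLattice) : GolayPt → ℤ) = dotInt (a : GolayPt → ℤ) (b : GolayPt → ℤ) :=
  dotInt_smul g a b

/-- Sets of lattice vectors as sets of functions. -/
theorem ncard_sub_val (Q : (GolayPt → ℤ) → Prop) :
    {a : leechLattice | Q a}.ncard = {x : GolayPt → ℤ | x ∈ leechLattice ∧ Q x}.ncard := by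
  have : {x : GolayPt → ℤ | x ∈ leechLattice ∧ Q x} = Subtype.val '' {a : leechLattice | Q a} := by
    ext x
    simp only [Set.mem_ofPred_eq, Set.mem_image]
    constructor
    · rintro ⟨h1, h2⟩
      exact ⟨⟨x, h1⟩, h2, rfl⟩
    · rintro ⟨a, h, rfl⟩
      exact ⟨a.2, h⟩
  rw [this, Set.ncard_image_of_injective _ Subtype.val_injective]

/-- Moving a set of lattice vectors by an automorphism. -/
theorem ncard_move (h : ↥Co0) (Q : leechLattice → Prop) :
    {a : leechLattice | Q (h • a)}.ncard = {a : leechLattice | Q a}.ncard := by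
  have : {a : leechLattice | Q a} = (fun a => h • a) '' {a : leechLattice | Q (h • a)} := by
    ext x
    simp only [Set.mem_ofPred_eq, Set.mem_image]
    constructor
    · intro hx
      exact ⟨h⁻¹ • x, by rwa [smul_inv_smul], smul_inv_smul _ _⟩
    · rintro ⟨a, ha, rfl⟩
      exact ha
  rw [this, Set.ncard_image_of_injective _ (MulAction.injective h)]

/-- The norm of a difference. -/
theorem sqNorm_sub_eq (x y : GolayPt → ℤ) : sqNorm (x - y) = sqNorm x + sqNorm y - 2 * dotInt x y := by
  unfold sqNorm dotInt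
  rw [Finset.mul_sum, ← Finset.sum_add_distrib, ← Finset.sum_sub_distrib]
  refine Finset.sum_congr rfl fun i _ => ?_
  simp only [Pi.sub_apply]
  ring

theorem sqNorm_add_eq (x y : GolayPt → ℤ) : sqNorm (x + y) = sqNorm x + sqNorm y + 2 * dotInt x y := by
  unfold sqNorm dotInt
  rw [Finset.mul_sum, ← Finset.sum_add_distrib, ← Finset.sum_add_distrib]
  refine Finset.sum_congr rfl fun i _ => ?_
  simp only [Pi.add_apply]
  ring

theorem dot_comm (x y : GolayPt → ℤ) : dotInt x y = dotInt y x := by
  unfold dotInt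
  exact Finset.sum_congr rfl fun i _ => mul_comm _ _

theorem dot_add_right (x y z : GolayPt → ℤ) : dotInt x (y + z) = dotInt x y + dotInt x z := by
  unfold dotInt
  rw [← Finset.sum_add_distrib]
  refine Finset.sum_congr rfl fun i _ => ?_
  simp only [Pi.add_apply]
  ring

theorem dot_sub_right (x y z : GolayPt → ℤ) : dotInt x (y - z) = dotInt x y - dotInt x z := by
  unfold dotInt
  rw [← Finset.sum_sub_distrib]
  refine Finset.sum_congr rfl fun i _ => ?_
  simp only [Pi.sub_apply]
  ring

theorem dot_self (x : GolayPt → ℤ) : dotInt x x = sqNorm x := by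
  unfold dotInt sqNorm
  exact Finset.sum_congr rfl fun i _ => by ring

theorem sqNorm_neg (x : GolayPt → ℤ) : sqNorm (-x) = sqNorm x := by
  unfold sqNorm
  exact Finset.sum_congr rfl fun i _ => by simp

theorem dot_neg_right (x y : GolayPt → ℤ) : dotInt x (-y) = -dotInt x y := by
  unfold dotInt
  rw [← Finset.sum_neg_distrib]
  exact Finset.sum_congr rfl fun i _ => by simp

end CfsgLib.Leech
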