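/-
The base vectors used for orbits on minimal vectors.
-/
import Cfsg.Agent.Lib.Leech.Orb.Data
import Cfsg.Agent.Lib.Leech.OrbUse

set_option autoImplicit false
set_option maxRecDepth 100000
set_option maxHeartbeats 0

namespace CfsgLib.Leech.Orb

open Cfsg CfsgLib.Golay CfsgLib.Leech

theorem unpk_eq_vecS {X : ℕ} {sp : List (ℕ × ℤ)}
    (h : (List.range 24).all (fun i => decide ((fld X i : ℤ) - 16 = (sp.map fun p => if p.1 = i then p.2 else 0).sum)) = true) :
    unpk X = vecS sp := by
  simp only [List.all_eq_true, decide_eq_true_eq, List.mem_range] at h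
  funext q
  rw [unpk_apply, h (idx q) (idx_lt q)]
  rfl

theorem PrC_nil (x : GolayPt → ℤ) : PrC [] x ↔ True := by simp [PrC]

theorem PrC_cons (c : ℕ × List (ℕ × ℤ) × ℤ) (l : List (ℕ × List (ℕ × ℤ) × ℤ)) (x : GolayPt → ℤ) :
    PrC (c :: l) x ↔ dotInt (vecS c.2.1) x = c.2.2 ∧ PrC l x := by
  simp [PrC]

/-- Fixed vectors from a list. -/
theorem FixL_cons {a : leechLattice} {l : List leechLattice} {g : ↥Co0} :
    FixL (a :: l) g ↔ g • a = a ∧ FixL l g := by
  simp [FixL]

/-- The lattice vector. -/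
noncomputable abbrev lV0 : leechLattice := liftP V0
theorem vecV0 : unpk V0 = vecS spV0 := unpk_eq_vecS (by decide +kernel)
theorem memV0 : unpk V0 ∈ leechLattice := (chkP_spec chkV0).1
theorem coeV0 : ((lV0 : leechLattice) : GolayPt → ℤ) = vecS spV0 := (liftP_coe memV0).trans vecV0
theorem coeUV0 : ((lV0 : leechLattice) : GolayPt → ℤ) = unpk V0 := liftP_coe memV0
theorem normV0 : sqNorm ((lV0 : leechLattice) : GolayPt → ℤ) = 32 := by
  rw [coeUV0]
  exact_mod_cast (chkP_spec chkV0).2.1

/-- The lattice vector. -/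
noncomputable abbrev lU0 : leechLattice := liftP U0
theorem vecU0 : unpk U0 = vecS spU0 := unpk_eq_vecS (by decide +kernel)
theorem memU0 : unpk U0 ∈ leechLattice := (chkP_spec chkU0).1
theorem coeU0 : ((lU0 : leechLattice) : GolayPt → ℤ) = vecS spU0 := (liftP_coe memU0).trans vecU0
theorem coeUU0 : ((lU0 : leechLattice) : GolayPt → ℤ) = unpk U0 := liftP_coe memU0
theorem normU0 : sqNorm ((lU0 : leechLattice) : GolayPt → ℤ) = 48 := by
  rw [coeUU0]
  exact_mod_cast (chkP_spec chkU0).2.1

/-- The lattice vector. -/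
noncomputable abbrev lX0 : leechLattice := liftP X0
theorem vecX0 : unpk X0 = vecS spX0 := unpk_eq_vecS (by decide +kernel)
theorem memX0 : unpk X0 ∈ leechLattice := (chkP_spec chkX0).1
theorem coeX0 : ((lX0 : leechLattice) : GolayPt → ℤ) = vecS spX0 := (liftP_coe memX0).trans vecX0
theorem coeUX0 : ((lX0 : leechLattice) : GolayPt → ℤ) = unpk X0 := liftP_coe memX0
theorem normX0 : sqNorm ((lX0 : leechLattice) : GolayPt → ℤ) = 32 := by
  rw [coeUX0]
  exact_mod_cast (chkP_spec chkX0).2.1

/-- The lattice vector. -/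
noncomputable abbrev lW0 : leechLattice := liftP W0
theorem vecW0 : unpk W0 = vecS spW0 := unpk_eq_vecS (by decide +kernel)
theorem memW0 : unpk W0 ∈ leechLattice := (chkP_spec chkW0).1
theorem coeW0 : ((lW0 : leechLattice) : GolayPt → ℤ) = vecS spW0 := (liftP_coe memW0).trans vecW0
theorem coeUW0 : ((lW0 : leechLattice) : GolayPt → ℤ) = unpk W0 := liftP_coe memW0
theorem normW0 : sqNorm ((lW0 : leechLattice) : GolayPt → ℤ) = 32 := by
  rw [coeUW0]
  exact_mod_cast (chkP_spec chkW0).2.1

/-- The lattice vector. -/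
noncomputable abbrev lX20 : leechLattice := liftP X20
theorem vecX20 : unpk X20 = vecS spX20 := unpk_eq_vecS (by decide +kernel)
theorem memX20 : unpk X20 ∈ leechLattice := (chkP_spec chkX20).1
theorem coeX20 : ((lX20 : leechLattice) : GolayPt → ℤ) = vecS spX20 := (liftP_coe memX20).trans vecX20
theorem coeUX20 : ((lX20 : leechLattice) : GolayPt → ℤ) = unpk X20 := liftP_coe memX20
theorem normX20 : sqNorm ((lX20 : leechLattice) : GolayPt → ℤ) = 32 := by
  rw [coeUX20]
  exact_mod_cast (chkP_spec chkX20).2.1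

/-- The lattice vector. -/
noncomputable abbrev lMT0 : leechLattice := liftP MT0
theorem vecMT0 : unpk MT0 = vecS spMT0 := unpk_eq_vecS (by decide +kernel)
theorem memMT0 : unpk MT0 ∈ leechLattice := (chkP_spec chkMT0).1
theorem coeMT0 : ((lMT0 : leechLattice) : GolayPt → ℤ) = vecS spMT0 := (liftP_coe memMT0).trans vecMT0
theorem coeUMT0 : ((lMT0 : leechLattice) : GolayPt → ℤ) = unpk MT0 := liftP_coe memMT0
theorem normMT0 : sqNorm ((lMT0 : leechLattice) : GolayPt → ℤ) = 32 := by
  rw [coeUMT0]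
  exact_mod_cast (chkP_spec chkMT0).2.1

/-- The lattice vector. -/
noncomputable abbrev lWH0 : leechLattice := liftP WH0
theorem vecWH0 : unpk WH0 = vecS spWH0 := unpk_eq_vecS (by decide +kernel)
theorem memWH0 : unpk WH0 ∈ leechLattice := (chkP_spec chkWH0).1
theorem coeWH0 : ((lWH0 : leechLattice) : GolayPt → ℤ) = vecS spWH0 := (liftP_coe memWH0).trans vecWH0
theorem coeUWH0 : ((lWH0 : leechLattice) : GolayPt → ℤ) = unpk WH0 := liftP_coe memWH0
theorem normWH0 : sqNorm ((lWH0 : leechLattice) : GolayPt → ℤ) = 48 := by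
  rw [coeUWH0]
  exact_mod_cast (chkP_spec chkWH0).2.1

/-- The lattice vector. -/
noncomputable abbrev lX1 : leechLattice := liftP X1
theorem vecX1 : unpk X1 = vecS spX1 := unpk_eq_vecS (by decide +kernel)
theorem memX1 : unpk X1 ∈ leechLattice := (chkP_spec chkX1).1
theorem coeX1 : ((lX1 : leechLattice) : GolayPt → ℤ) = vecS spX1 := (liftP_coe memX1).trans vecX1
theorem coeUX1 : ((lX1 : leechLattice) : GolayPt → ℤ) = unpk X1 := liftP_coe memX1
theorem normX1 : sqNorm ((lX1 : leechLattice) : GolayPt → ℤ) = 32 := by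
  rw [coeUX1]
  exact_mod_cast (chkP_spec chkX1).2.1

theorem unpk_sub_check {A B C : ℕ}
    (h : (List.range 24).all (fun i => decide (fld A i + fld C i = fld B i + 16)) = true) :
    unpk A = unpk B - unpk C := by
  simp only [List.all_eq_true, decide_eq_true_eq, List.mem_range] at h
  funext q
  have := h (idx q) (idx_lt q)
  simp only [Pi.sub_apply, unpk_apply]
  omega

theorem W0_eq : (lW0 : GolayPt → ℤ) = (lU0 : GolayPt → ℤ) - (lV0 : GolayPt → ℤ) := by
  rw [coeUW0, coeUU0, coeUV0]
  exact unpk_sub_check (by decide +kernel)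

theorem lW0_eq : lW0 = lU0 - lV0 := Subtype.ext W0_eq

theorem WH0_eq : (lWH0 : GolayPt → ℤ) = -(lMT0 : GolayPt → ℤ) - (lU0 : GolayPt → ℤ) := by
  rw [coeUWH0, coeUMT0, coeUU0]
  funext q
  have h : (List.range 24).all (fun i => decide (fld WH0 i + fld MT0 i + fld U0 i = 48)) = true := by decide +kernel
  simp only [List.all_eq_true, decide_eq_true_eq, List.mem_range] at h
  have := h (idx q) (idx_lt q)
  simp only [Pi.sub_apply, Pi.neg_apply, unpk_apply]
  omega

theorem lWH0_eq : lWH0 = -lMT0 - lU0 := Subtype.ext WH0_eq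

end CfsgLib.Leech.Orb
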