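/-
Generic lemmas turning orbit runs into statements about moved configurations.
-/
import Cfsg.Agent.Lib.Leech.OrbBase

set_option autoImplicit false
set_option maxRecDepth 100000

namespace CfsgLib.Leech.Orb

open Cfsg CfsgLib.Golay CfsgLib.Leech

/-- A counted set seen through an automorphism. -/
theorem orb_count {conds : List (ℕ × List (ℕ × ℤ) × ℤ)} {n : ℕ}
    (R : {x : GolayPt → ℤ | x ∈ leechLattice ∧ sqNorm x = 32 ∧ PrC conds x}.ncard = n) (h : ↥Co0)
    (Q : leechLattice → Prop)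
    (hQ : ∀ a : leechLattice, Q a ↔ (sqNorm (a : GolayPt → ℤ) = 32 ∧ PrC conds ((h • a : leechLattice) : GolayPt → ℤ))) :
    {a : leechLattice | Q a}.ncard = n := by
  have h1 := ncard_sub_val (fun x => sqNorm x = 32 ∧ PrC conds x)
  rw [R] at h1
  rw [← h1, ← ncard_move h (fun a : leechLattice => sqNorm (a : GolayPt → ℤ) = 32 ∧ PrC conds (a : GolayPt → ℤ))]
  congr 1
  ext a
  simp only [Set.mem_ofPred_eq]
  rw [hQ a, sqNorm_smul_Co0]

/-- Transitivity seen through an automorphism. -/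
theorem orb_trans' {conds : List (ℕ × List (ℕ × ℤ) × ℤ)} {bs : List leechLattice} {b : leechLattice}
    (R : ∀ x : GolayPt → ℤ, x ∈ leechLattice → sqNorm x = 32 → PrC conds x →
      ∃ g : ↥Co0, FixL bs g ∧ ((g • b : leechLattice) : GolayPt → ℤ) = x) (h : ↥Co0)
    {a a' : leechLattice} (ha : sqNorm (a : GolayPt → ℤ) = 32) (ha' : sqNorm (a' : GolayPt → ℤ) = 32)
    (hP : PrC conds ((h • a : leechLattice) : GolayPt → ℤ)) (hP' : PrC conds ((h • a' : leechLattice) : GolayPt → ℤ)) :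
    ∃ k : ↥Co0, FixL bs k ∧ (h⁻¹ * k * h) • a = a' := by
  obtain ⟨k, hk, e⟩ := orb_trans (P := fun x => sqNorm x = 32 ∧ PrC conds x)
    (fun x hx hh2 => R x hx hh2.1 hh2.2)
    (a := h • a) (a' := h • a') ⟨by rw [sqNorm_smul_Co0]; exact ha, hP⟩ ⟨by rw [sqNorm_smul_Co0]; exact ha', hP'⟩
  exact ⟨k, hk, conj_map e⟩

/-- An orbit of a subgroup that is described by a set. -/
theorem orbit_eq_of {S : Subgroup ↥Co0} {y : leechLattice} {O : Set leechLattice}
    (h1 : ∀ g ∈ S, g • y ∈ O) (h2 : ∀ z ∈ O, ∃ g ∈ S, g • y = z) : MulAction.orbit ↥S y = O := by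
  ext z
  constructor
  · rintro ⟨g, rfl⟩
    exact h1 g.1 g.2
  · intro hz
    obtain ⟨g, hg, rfl⟩ := h2 z hz
    exact ⟨⟨g, hg⟩, rfl⟩

/-- The square of the norm vanishes only at zero. -/
theorem eq_of_dot_eq_norm {x y : GolayPt → ℤ} (hx : sqNorm x = 32) (hy : sqNorm y = 32) (hd : dotInt x y = 32) : y = x := by
  have h := sqNorm_sub_eq x y
  rw [hx, hy, hd] at h
  have h0 : sqNorm (x - y) = 0 := by rw [h]; norm_num
  unfold sqNorm at h0
  have h1 := (Finset.sum_eq_zero_iff_of_nonneg (fun i _ => sq_nonneg _)).mp h0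
  funext i
  have := h1 i (Finset.mem_univ i)
  have h2 : (x - y) i = 0 := pow_eq_zero_iff (two_ne_zero) |>.mp this
  simp only [Pi.sub_apply] at h2
  omega

/-- All values taken by a linear form on a list. -/
def valChk (sp : List (ℕ × ℤ)) (vals : List ℤ) (X : ℕ) : Bool := vals.contains (dotS sp X)

/-- Values of a form on a set described by a list. -/
theorem dot_values {conds : List (ℕ × List (ℕ × ℤ) × ℤ)} {L : List ℕ} (hL : ListOf conds L)
    {sp : List (ℕ × ℤ)} (hsp : ∀ p ∈ sp, p.1 < 24) {vals : List ℤ} (h : L.all (valChk sp vals) = true)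
    {x : GolayPt → ℤ} (hx : x ∈ leechLattice) (hn : sqNorm x = 32) (hP : PrC conds x) :
    dotInt (vecS sp) x ∈ vals := by
  have h1 : x ∈ {x : GolayPt → ℤ | x ∈ leechLattice ∧ sqNorm x = 32 ∧ PrC conds x} := ⟨hx, hn, hP⟩
  rw [hL.1] at h1
  obtain ⟨X, hX, rfl⟩ := h1
  rw [dotS_eq sp hsp]
  have := List.all_eq_true.mp h X hX
  simpa [valChk] using this

end CfsgLib.Leech.Orb

namespace CfsgLib.Leech.Orb

open Cfsg CfsgLib.Golay CfsgLib.Leech

theorem sub32_iff {u x : leechLattice} (hu : sqNorm (u : GolayPt → ℤ) = 48) (hx : sqNorm (x : GolayPt → ℤ) = 32) :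
    sqNorm ((u : GolayPt → ℤ) - (x : GolayPt → ℤ)) = 32 ↔ dotInt (u : GolayPt → ℤ) (x : GolayPt → ℤ) = 24 := by
  rw [sqNorm_sub_eq, hu, hx]
  omega

theorem dot_fix {g : ↥Co0} {v : leechLattice} (hg : g • v = v) (a : leechLattice) :
    dotInt (v : GolayPt → ℤ) ((g • a : leechLattice) : GolayPt → ℤ) = dotInt (v : GolayPt → ℤ) (a : GolayPt → ℤ) := by
  conv_lhs => rw [← hg]
  exact dot_smul g v a

/-- A suborbit from a run. -/
theorem sub_orbit {conds : List (ℕ × List (ℕ × ℤ) × ℤ)} {bs : List leechLattice} {b : leechLattice} {n : ℕ}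
    (Rn : {x : GolayPt → ℤ | x ∈ leechLattice ∧ sqNorm x = 32 ∧ PrC conds x}.ncard = n)
    (Rt : ∀ x : GolayPt → ℤ, x ∈ leechLattice → sqNorm x = 32 → PrC conds x →
      ∃ g : ↥Co0, FixL bs g ∧ ((g • b : leechLattice) : GolayPt → ℤ) = x) (h : ↥Co0)
    (S : Subgroup ↥Co0) (O : Set leechLattice)
    (hO : ∀ a : leechLattice, a ∈ O ↔ (sqNorm (a : GolayPt → ℤ) = 32 ∧ PrC conds ((h • a : leechLattice) : GolayPt → ℤ)))
    (hS : ∀ k : ↥Co0, FixL bs k → h⁻¹ * k * h ∈ S) (hI : ∀ g ∈ S, ∀ a ∈ O, g • a ∈ O) (hn : n ≠ 0) :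
    ∃ y ∈ O, (MulAction.orbit ↥S y).ncard = n ∧ MulAction.orbit ↥S y = O := by
  have hc : O.ncard = n := orb_count Rn h (fun a => a ∈ O) hO
  obtain ⟨y, hy⟩ := Set.nonempty_of_ncard_ne_zero (s := O) (by rw [hc]; exact hn)
  have he : MulAction.orbit ↥S y = O := by
    refine orbit_eq_of (fun g hg => hI g hg y hy) (fun z hz => ?_)
    obtain ⟨k, hk, e⟩ := orb_trans' Rt h ((hO y).mp hy).1 ((hO z).mp hz).1 ((hO y).mp hy).2 ((hO z).mp hz).2
    exact ⟨_, hS k hk, e⟩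
  exact ⟨y, hy, by rw [he, hc], he⟩

end CfsgLib.Leech.Orb
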