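/-
Moving a vector of norm 48 and a minimal summand to the base vectors.
-/
import Cfsg.Agent.Lib.Leech.Orb.R4
import Cfsg.Agent.Lib.Leech.OrbBase

set_option autoImplicit false
set_option maxRecDepth 100000

namespace CfsgLib.Leech.Orb

open Cfsg CfsgLib.Golay CfsgLib.Leech

theorem fixG3 {g : ↥Co0} (h : FixL (bsOf vsG3) g) : g • lU0 = lU0 := h _ (by simp [bsOf, vsG3])

theorem frame_uv (u v : leechLattice) (hu : sqNorm (u : GolayPt → ℤ) = 48) (hv : sqNorm (v : GolayPt → ℤ) = 32)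
    (huv : dotInt (u : GolayPt → ℤ) (v : GolayPt → ℤ) = 24) : ∃ h : ↥Co0, h • u = lU0 ∧ h • v = lV0 := by
  obtain ⟨h1, e1⟩ := trans48 u lU0 hu normU0
  have hP : PrC condsR4 ((h1 • v : leechLattice) : GolayPt → ℤ) := by
    simp only [condsR4, PrC_cons, PrC_nil, and_true]
    rw [← coeU0, ← e1, dot_smul]
    exact huv
  obtain ⟨k, hk, e⟩ := orbR4.2 _ (h1 • v).2 (by rw [sqNorm_smul_Co0]; exact hv) hP
  have hB : liftP BR4 = lV0 := rfl
  rw [hB] at e
  have e2 : k • lV0 = h1 • v := Subtype.ext e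
  refine ⟨k⁻¹ * h1, ?_, ?_⟩
  · rw [mul_smul, e1]
    exact fixG3 hk.inv
  · rw [mul_smul, ← e2, inv_smul_smul]

end CfsgLib.Leech.Orb
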