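/-
Moving a vector of norm 48 and a minimal vector of inner product -16 with it to the base vectors.
-/
import Cfsg.Agent.Lib.Leech.Orb.R8
import Cfsg.Agent.Lib.Leech.OrbBase

set_option autoImplicit false
set_option maxRecDepth 100000

namespace CfsgLib.Leech.Orb

open Cfsg CfsgLib.Golay CfsgLib.Leech

theorem fixG3' {g : ↥Co0} (h : FixL (bsOf vsG3) g) : g • lU0 = lU0 := h _ (by simp [bsOf, vsG3])

theorem frame_ux (u x : leechLattice) (hu : sqNorm (u : GolayPt → ℤ) = 48) (hx : sqNorm (x : GolayPt → ℤ) = 32)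
    (hux : dotInt (u : GolayPt → ℤ) (x : GolayPt → ℤ) = -16) : ∃ h : ↥Co0, h • u = lU0 ∧ h • x = lMT0 := by
  obtain ⟨h1, e1⟩ := trans48 u lU0 hu normU0
  have hP : PrC condsR8 ((h1 • x : leechLattice) : GolayPt → ℤ) := by
    simp only [condsR8, PrC_cons, PrC_nil, and_true]
    rw [← coeU0, ← e1, dot_smul]
    exact hux
  obtain ⟨k, hk, e⟩ := orbR8.2 _ (h1 • x).2 (by rw [sqNorm_smul_Co0]; exact hx) hP
  have hB : liftP BR8 = lMT0 := rfl
  rw [hB] at e
  have e2 : k • lMT0 = h1 • x := Subtype.ext e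
  refine ⟨k⁻¹ * h1, ?_, ?_⟩
  · rw [mul_smul, e1]
    exact fixG3' hk.inv
  · rw [mul_smul, ← e2, inv_smul_smul]

/-- The pair of vectors of norm 48 with inner product -32. -/
theorem frame_hs (v w : leechLattice) (hv : sqNorm (v : GolayPt → ℤ) = 48) (hw : sqNorm (w : GolayPt → ℤ) = 48)
    (hvw : dotInt (v : GolayPt → ℤ) (w : GolayPt → ℤ) = -32) : ∃ h : ↥Co0, h • v = lU0 ∧ h • w = lWH0 := by
  have hx : sqNorm ((-(v + w) : leechLattice) : GolayPt → ℤ) = 32 := by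
    show sqNorm (-((v : GolayPt → ℤ) + (w : GolayPt → ℤ))) = 32
    rw [sqNorm_neg, sqNorm_add_eq, hv, hw, hvw]
    norm_num
  have hd : dotInt (v : GolayPt → ℤ) ((-(v + w) : leechLattice) : GolayPt → ℤ) = -16 := by
    show dotInt (v : GolayPt → ℤ) (-((v : GolayPt → ℤ) + (w : GolayPt → ℤ))) = -16
    rw [dot_neg_right, dot_add_right, dot_self, hv, hvw]
    norm_num
  obtain ⟨h, e1, e2⟩ := frame_ux v (-(v + w)) hv hx hd
  refine ⟨h, e1, ?_⟩
  rw [smul_neg_Co0, smul_add_Co0, e1] at e2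
  have e3 : h • w = -lMT0 - lU0 := by
    have : h • w = -(-(lU0 + h • w)) - lU0 := by abel
    rw [this, e2]
  rw [e3, lWH0_eq]

end CfsgLib.Leech.Orb
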