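/-
Moving a pair of minimal vectors of inner product -8, and a third vector (the 2025 points), to the base vectors.
-/
import Cfsg.Agent.Lib.Leech.Orb.R12
import Cfsg.Agent.Lib.Leech.OrbF1

set_option autoImplicit false
set_option maxRecDepth 100000

namespace CfsgLib.Leech.Orb

open Cfsg CfsgLib.Golay CfsgLib.Leech

theorem frame_vw (v w : leechLattice) (hv : sqNorm (v : GolayPt → ℤ) = 32) (hw : sqNorm (w : GolayPt → ℤ) = 32)
    (hvw : dotInt (v : GolayPt → ℤ) (w : GolayPt → ℤ) = -8) : ∃ h : ↥Co0, h • v = lV0 ∧ h • w = lW0 := by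
  have hu : sqNorm ((v + w : leechLattice) : GolayPt → ℤ) = 48 := by
    show sqNorm ((v : GolayPt → ℤ) + (w : GolayPt → ℤ)) = 48
    rw [sqNorm_add_eq, hv, hw, hvw]
    norm_num
  have hd : dotInt ((v + w : leechLattice) : GolayPt → ℤ) (v : GolayPt → ℤ) = 24 := by
    show dotInt ((v : GolayPt → ℤ) + (w : GolayPt → ℤ)) (v : GolayPt → ℤ) = 24
    rw [dot_comm, dot_add_right, dot_self, hv, hvw]
    norm_num
  obtain ⟨h, e1, e2⟩ := frame_uv (v + w) v hu hv hd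
  refine ⟨h, e2, ?_⟩
  rw [smul_add_Co0, e2] at e1
  rw [lW0_eq, ← e1]
  abel

theorem frame_vwx (v w x : leechLattice) (hv : sqNorm (v : GolayPt → ℤ) = 32) (hw : sqNorm (w : GolayPt → ℤ) = 32)
    (hvw : dotInt (v : GolayPt → ℤ) (w : GolayPt → ℤ) = -8) (hx : sqNorm (x : GolayPt → ℤ) = 32)
    (hvx : dotInt (v : GolayPt → ℤ) (x : GolayPt → ℤ) = 0) (hwx : dotInt (w : GolayPt → ℤ) (x : GolayPt → ℤ) = 16) :
    ∃ h : ↥Co0, h • v = lV0 ∧ h • w = lW0 ∧ h • x = lX20 := by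
  obtain ⟨h1, e1, e2⟩ := frame_vw v w hv hw hvw
  have hP : PrC condsR12 ((h1 • x : leechLattice) : GolayPt → ℤ) := by
    simp only [condsR12, PrC_cons, PrC_nil, and_true]
    rw [← coeV0, ← coeW0, ← e1, ← e2, dot_smul, dot_smul]
    exact ⟨hvx, hwx⟩
  obtain ⟨k, hk, e⟩ := orbR12.2 _ (h1 • x).2 (by rw [sqNorm_smul_Co0]; exact hx) hP
  have hB : liftP BR12 = lX20 := rfl
  rw [hB] at e
  have e3 : k • lX20 = h1 • x := Subtype.ext e
  have hk' := hk.inv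
  refine ⟨k⁻¹ * h1, ?_, ?_, ?_⟩
  · rw [mul_smul, e1]
    exact hk' _ (by simp [bsOf, vsGM])
  · rw [mul_smul, e2]
    exact hk' _ (by simp [bsOf, vsGM])
  · rw [mul_smul, ← e3, inv_smul_smul]

end CfsgLib.Leech.Orb
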