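/-
Moving a triple to the base vectors (the 100 points).
-/
import Cfsg.Agent.Lib.Leech.Orb.R9
import Cfsg.Agent.Lib.Leech.OrbF2

set_option autoImplicit false
set_option maxRecDepth 100000

namespace CfsgLib.Leech.Orb

open Cfsg CfsgLib.Golay CfsgLib.Leech

theorem frame_hsx (v w x : leechLattice) (hv : sqNorm (v : GolayPt → ℤ) = 48) (hw : sqNorm (w : GolayPt → ℤ) = 48)
    (hvw : dotInt (v : GolayPt → ℤ) (w : GolayPt → ℤ) = -32) (hx : sqNorm (x : GolayPt → ℤ) = 32)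
    (hvx : dotInt (v : GolayPt → ℤ) (x : GolayPt → ℤ) = 24) (hwx : dotInt (w : GolayPt → ℤ) (x : GolayPt → ℤ) = -24) :
    ∃ h : ↥Co0, h • v = lU0 ∧ h • w = lWH0 ∧ h • x = lX1 := by
  obtain ⟨h1, e1, e2⟩ := frame_hs v w hv hw hvw
  have hP : PrC condsR9 ((h1 • x : leechLattice) : GolayPt → ℤ) := by
    simp only [condsR9, PrC_cons, PrC_nil, and_true]
    rw [← coeU0, ← coeWH0, ← e1, ← e2, dot_smul, dot_smul]
    exact ⟨hvx, hwx⟩
  obtain ⟨k, hk, e⟩ := orbR9.2 _ (h1 • x).2 (by rw [sqNorm_smul_Co0]; exact hx) hP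
  have hB : liftP BR9 = lX1 := rfl
  rw [hB] at e
  have e3 : k • lX1 = h1 • x := Subtype.ext e
  have hk' := hk.inv
  refine ⟨k⁻¹ * h1, ?_, ?_, ?_⟩
  · rw [mul_smul, e1]
    exact hk' _ (by simp [bsOf, vsGH])
  · rw [mul_smul, e2]
    exact hk' _ (by simp [bsOf, vsGH])
  · rw [mul_smul, ← e3, inv_smul_smul]

end CfsgLib.Leech.Orb
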