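/-
An involution of the stabiliser of the pair of norm-48 vectors, moving all hundred points.
-/
import Cfsg.Agent.Lib.Leech.Orb.R9
import Cfsg.Agent.Lib.Leech.OrbBase

set_option autoImplicit false
set_option maxRecDepth 100000
set_option maxHeartbeats 0

namespace CfsgLib.Leech.Orb

open Cfsg CfsgLib.Golay CfsgLib.Leech

/-- The steps of the involution. -/
def ssI : List (ℕ × ℕ) := [(693602930886756641434741208677158240, 14619276)]

/-- The compiled steps. -/
def gI : List (ℕ × ℕ) := [(693602930886756641434741208677158240, 14619276)]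

/-- The vectors fixed. -/
def vsI : List (ℕ × ℕ) := [(48, U0), (48, WH0)]

theorem okI : pathsChk vsI [ssI] = true := by decide +kernel

theorem eqI : ssI.map compile = gI := by decide +kernel

theorem stepsI : ssI.all stepOK = true := by decide +kernel

/-- Packed eight times a unit vector. -/
def E8 (i : ℕ) : ℕ := Nat.add 5663681320261745559755103053371012445963280 (Nat.mul 8 (Nat.pow 64 i))

theorem fld_E8 : ∀ i : Fin 24, ∀ j : Fin 24, fld (E8 i.val) j.val = if i = j then 24 else 16 := by decide +kernel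

theorem unpk_E8 (q : GolayPt) : unpk (E8 (idx q)) = Pi.single q 8 := by
  funext r
  rw [unpk_apply]
  have h := fld_E8 ⟨idx q, idx_lt q⟩ ⟨idx r, idx_lt r⟩
  simp only at h
  rw [h]
  by_cases hq : r = q
  · subst hq
    simp
  · have hne : (⟨idx q, idx_lt q⟩ : Fin 24) ≠ ⟨idx r, idx_lt r⟩ := by
      intro e
      exact hq (idx_inj (Fin.mk.inj e)).symm
    rw [if_neg hne, Pi.single_eq_of_ne hq]
    norm_num

theorem mem_E8 (q : GolayPt) : unpk (E8 (idx q)) ∈ leechLattice := by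
  rw [unpk_E8]
  exact (e8 q).2

theorem norm_E8 (q : GolayPt) : sqNorm (unpk (E8 (idx q))) ≤ 64 := by
  rw [unpk_E8, sqNorm_single]
  norm_num

theorem sqI : ∀ i : Fin 24, applyW gI (applyW gI (E8 i.val)) = E8 i.val := by decide +kernel

/-- The involution. -/
noncomputable def g0I : ↥Co0 := pathEl ssI

theorem g0I_apply (X : ℕ) (hL : unpk X ∈ leechLattice) (hn : sqNorm (unpk X) ≤ 64) :
    ((g0I • (⟨unpk X, hL⟩ : leechLattice) : leechLattice) : GolayPt → ℤ) = unpk (applyW gI X) := by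
  have := applyW_spec ssI stepsI X hL hn
  rwa [eqI] at this

theorem g0I_sq : g0I * g0I = 1 := by
  apply Co0_ext_e8
  intro q
  rw [mul_smul, one_smul]
  have e : e8 q = ⟨unpk (E8 (idx q)), mem_E8 q⟩ := Subtype.ext (unpk_E8 q).symm
  rw [e]
  have h1 := g0I_apply _ (mem_E8 q) (norm_E8 q)
  have hA : g0I • (⟨unpk (E8 (idx q)), mem_E8 q⟩ : leechLattice) =
      ⟨unpk (applyW gI (E8 (idx q))), h1 ▸ (g0I • (⟨unpk (E8 (idx q)), mem_E8 q⟩ : leechLattice)).2⟩ := Subtype.ext h1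
  rw [hA]
  have hn : sqNorm (unpk (applyW gI (E8 (idx q)))) ≤ 64 := by
    rw [← h1, sqNorm_smul_Co0]
    exact norm_E8 q
  apply Subtype.ext
  rw [g0I_apply _ _ hn]
  have := sqI ⟨idx q, idx_lt q⟩
  simp only at this
  rw [this]

theorem g0I_fix : FixL (bsOf vsI) g0I := (pathsOK_of_chk okI ssI (by simp)).2

theorem noFixI : runR9.all (fun Y => Nat.ble (applyW gI Y) hiP && !Nat.beq (applyW gI Y) Y) = true := by decide +kernel

theorem g0I_noFix {y : leechLattice} (hn : sqNorm (y : GolayPt → ℤ) = 32)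
    (hP : PrC condsR9 (y : GolayPt → ℤ)) : g0I • y ≠ y := by
  intro he
  have h1 : (y : GolayPt → ℤ) ∈ {x : GolayPt → ℤ | x ∈ leechLattice ∧ sqNorm x = 32 ∧ PrC condsR9 x} := ⟨y.2, hn, hP⟩
  rw [resR9.2.2.1] at h1
  obtain ⟨Y, hY, hYe⟩ := h1
  have hL : unpk Y ∈ leechLattice := hYe ▸ y.2
  have hy : y = ⟨unpk Y, hL⟩ := Subtype.ext hYe.symm
  have hn2 : sqNorm (unpk Y) ≤ 64 := by
    rw [hYe, hn]
    norm_num
  have h2 := g0I_apply Y hL hn2
  rw [← hy, he, ← hYe] at h2
  have h3 := List.all_eq_true.mp noFixI Y hY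
  simp only [Bool.and_eq_true, Nat.ble_eq, Bool.not_eq_true', Nat.beq_eq_true_eq] at h3
  obtain ⟨h4, h5⟩ := h3
  have h6 : applyW gI Y = Y := eq_of_unpk_eq (lt_of_le_of_lt h4 hiP_lt) (resR9.2.2.2.2 Y hY) h2.symm
  rw [h6] at h5
  simp at h5

theorem g0I_ne_one : g0I ≠ 1 := by
  intro h1
  obtain ⟨x, hx⟩ := Set.nonempty_of_ncard_ne_zero (s := {x : GolayPt → ℤ | x ∈ leechLattice ∧ sqNorm x = 32 ∧ PrC condsR9 x})
    (by rw [orbR9.1]; norm_num)
  exact g0I_noFix (y := ⟨x, hx.1⟩) hx.2.1 hx.2.2 (by rw [h1, one_smul])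

end CfsgLib.Leech.Orb
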