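/-
The packed vectors of odd type pass the membership test, in sixteen portions.
-/
import Cfsg.Agent.Lib.Leech.PackChk

set_option autoImplicit false
set_option maxRecDepth 100000
set_option maxHeartbeats 0

namespace CfsgLib.Leech

/-- A portion of a list. -/
def portion (w i : ℕ) (l : List ℕ) : List ℕ := (l.drop (w * i)).take w

theorem mem_portion {w n : ℕ} (hw : 0 < w) {l : List ℕ} (hl : l.length ≤ w * n) {x : ℕ} (hx : x ∈ l) :
    ∃ i < n, x ∈ portion w i l := by
  obtain ⟨j, hj, rfl⟩ := List.mem_iff_getElem.mp hx
  have h1 : j / w < n := by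
    apply Nat.div_lt_of_lt_mul
    omega
  refine ⟨j / w, h1, ?_⟩
  unfold portion
  have h2 : w * (j / w) + j % w = j := Nat.div_add_mod j w
  have h3 : j % w < w := Nat.mod_lt _ hw
  apply List.mem_iff_getElem.mpr
  refine ⟨j % w, ?_, ?_⟩
  · simp only [List.length_take, List.length_drop]
    omega
  · simp only [List.getElem_take, List.getElem_drop]
    congr 1

theorem chkC_0 : allChk (chkQ 32) 14 (genP32C (portion 256 0 codeSp) []) = true := by decide +kernel
theorem chkC_1 : allChk (chkQ 32) 14 (genP32C (portion 256 1 codeSp) []) = true := by decide +kernel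
theorem chkC_2 : allChk (chkQ 32) 14 (genP32C (portion 256 2 codeSp) []) = true := by decide +kernel
theorem chkC_3 : allChk (chkQ 32) 14 (genP32C (portion 256 3 codeSp) []) = true := by decide +kernel
theorem chkC_4 : allChk (chkQ 32) 14 (genP32C (portion 256 4 codeSp) []) = true := by decide +kernel
theorem chkC_5 : allChk (chkQ 32) 14 (genP32C (portion 256 5 codeSp) []) = true := by decide +kernel
theorem chkC_6 : allChk (chkQ 32) 14 (genP32C (portion 256 6 codeSp) []) = true := by decide +kernel
theorem chkC_7 : allChk (chkQ 32) 14 (genP32C (portion 256 7 codeSp) []) = true := by decide +kernel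
theorem chkC_8 : allChk (chkQ 32) 14 (genP32C (portion 256 8 codeSp) []) = true := by decide +kernel
theorem chkC_9 : allChk (chkQ 32) 14 (genP32C (portion 256 9 codeSp) []) = true := by decide +kernel
theorem chkC_10 : allChk (chkQ 32) 14 (genP32C (portion 256 10 codeSp) []) = true := by decide +kernel
theorem chkC_11 : allChk (chkQ 32) 14 (genP32C (portion 256 11 codeSp) []) = true := by decide +kernel
theorem chkC_12 : allChk (chkQ 32) 14 (genP32C (portion 256 12 codeSp) []) = true := by decide +kernel
theorem chkC_13 : allChk (chkQ 32) 14 (genP32C (portion 256 13 codeSp) []) = true := by decide +kernel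
theorem chkC_14 : allChk (chkQ 32) 14 (genP32C (portion 256 14 codeSp) []) = true := by decide +kernel
theorem chkC_15 : allChk (chkQ 32) 14 (genP32C (portion 256 15 codeSp) []) = true := by decide +kernel

theorem chkC_portions : ∀ i < 16, allChk (chkQ 32) 14 (genP32C (portion 256 i codeSp) []) = true := by
  intro i hi
  interval_cases i
  · exact chkC_0
  · exact chkC_1
  · exact chkC_2
  · exact chkC_3
  · exact chkC_4
  · exact chkC_5
  · exact chkC_6
  · exact chkC_7
  · exact chkC_8
  · exact chkC_9
  · exact chkC_10
  · exact chkC_11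
  · exact chkC_12
  · exact chkC_13
  · exact chkC_14
  · exact chkC_15

end CfsgLib.Leech
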