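/-
The packed vectors of even type pass the membership test, in portions.
-/
import Cfsg.Agent.Lib.Leech.PackL32C

set_option autoImplicit false
set_option maxRecDepth 100000
set_option maxHeartbeats 0

namespace CfsgLib.Leech

open CfsgLib.Golay

theorem chkB_0 : allChk (chkQ 32) 14 (genP32B (portion 64 0 octadList) []) = true := by decide +kernel
theorem chkB_1 : allChk (chkQ 32) 14 (genP32B (portion 64 1 octadList) []) = true := by decide +kernel
theorem chkB_2 : allChk (chkQ 32) 14 (genP32B (portion 64 2 octadList) []) = true := by decide +kernel
theorem chkB_3 : allChk (chkQ 32) 14 (genP32B (portion 64 3 octadList) []) = true := by decide +kernel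
theorem chkB_4 : allChk (chkQ 32) 14 (genP32B (portion 64 4 octadList) []) = true := by decide +kernel
theorem chkB_5 : allChk (chkQ 32) 14 (genP32B (portion 64 5 octadList) []) = true := by decide +kernel
theorem chkB_6 : allChk (chkQ 32) 14 (genP32B (portion 64 6 octadList) []) = true := by decide +kernel
theorem chkB_7 : allChk (chkQ 32) 14 (genP32B (portion 64 7 octadList) []) = true := by decide +kernel
theorem chkB_8 : allChk (chkQ 32) 14 (genP32B (portion 64 8 octadList) []) = true := by decide +kernel
theorem chkB_9 : allChk (chkQ 32) 14 (genP32B (portion 64 9 octadList) []) = true := by decide +kernel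
theorem chkB_10 : allChk (chkQ 32) 14 (genP32B (portion 64 10 octadList) []) = true := by decide +kernel
theorem chkB_11 : allChk (chkQ 32) 14 (genP32B (portion 64 11 octadList) []) = true := by decide +kernel

theorem chkB_portions : ∀ i < 12, allChk (chkQ 32) 14 (genP32B (portion 64 i octadList) []) = true := by
  intro i hi
  interval_cases i
  · exact chkB_0
  · exact chkB_1
  · exact chkB_2
  · exact chkB_3
  · exact chkB_4
  · exact chkB_5
  · exact chkB_6
  · exact chkB_7
  · exact chkB_8
  · exact chkB_9
  · exact chkB_10
  · exact chkB_11

theorem chkA_all : allChk (chkQ 32) 17 (genP32A 24 []) = true := by decide +kernel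

end CfsgLib.Leech
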