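/-
The list of all minimal vectors of the lattice in packed form.
-/
import Cfsg.Agent.Lib.Leech.PackL32B
import Cfsg.Agent.Lib.Leech.Shells

set_option autoImplicit false
set_option maxRecDepth 100000
set_option maxHeartbeats 0

namespace CfsgLib.Leech

open Cfsg CfsgLib.Golay
open scoped Pointwise

theorem L32_scan : scanChk 18 22300745198530623141535718272648361505980416 196560 L32 = true := by decide +kernel

theorem loopC_acc (a s p : ℕ) (acc : List ℕ) : loopP32C a s p acc = loopP32C a s p [] ++ acc := by
  induction p generalizing acc with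
  | zero => rfl
  | succ p ih =>
    simp only [loopP32C, letN_eq]
    rw [ih, ih [oneP32C a s p]]
    simp

theorem genC_acc (l acc : List ℕ) : genP32C l acc = genP32C l [] ++ acc := by
  induction l generalizing acc with
  | nil => rfl
  | cons s r ih =>
    simp only [genP32C, letN_eq, forceL_eq]
    rw [ih, ih (loopP32C _ s 24 []), loopC_acc _ s 24 acc]
    simp

theorem loopB_acc (a : ℕ) (l acc : List ℕ) : loopP32B a l acc = loopP32B a l [] ++ acc := by
  induction l generalizing acc with
  | nil => rfl
  | cons d r ih =>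
    simp only [loopP32B, letN_eq]
    rw [ih, ih [_]]
    simp

theorem genB_acc (l acc : List ℕ) : genP32B l acc = genP32B l [] ++ acc := by
  induction l generalizing acc with
  | nil => rfl
  | cons s r ih =>
    simp only [genP32B, letN_eq, forceL_eq]
    rw [ih, ih (loopP32B _ _ []), loopB_acc _ _ acc]
    simp

theorem loopA_acc (b i j : ℕ) (acc : List ℕ) : loopP32A b i j acc = loopP32A b i j [] ++ acc := by
  induction j generalizing acc with
  | zero => rfl
  | succ j ih =>
    simp only [loopP32A, letN_eq]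
    rw [ih, ih [_, _]]
    simp

theorem genA_acc (i : ℕ) (acc : List ℕ) : genP32A i acc = genP32A i [] ++ acc := by
  induction i generalizing acc with
  | zero => rfl
  | succ i ih =>
    simp only [genP32A, letN_eq, forceL_eq]
    rw [ih, ih (loopP32A _ i i (loopP32A _ i i [])), loopA_acc _ i i (loopP32A _ i i acc),
      loopA_acc _ i i (loopP32A _ i i []), loopA_acc _ i i acc]
    simp

theorem L32_decomp : L32 = genP32A 24 [] ++ (genP32B octadList [] ++ genP32C codeSp []) := by
  unfold L32
  rw [genA_acc, genB_acc]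

theorem mem_genC {l : List ℕ} {X : ℕ} (h : X ∈ genP32C l []) : ∃ s ∈ l, X ∈ genP32C [s] [] := by
  induction l with
  | nil => simp [genP32C] at h
  | cons s r ih =>
    rw [show genP32C (s :: r) [] = genP32C r (genP32C [s] []) by
      simp only [genP32C, letN_eq, forceL_eq], genC_acc] at h
    rcases List.mem_append.mp h with h | h
    · obtain ⟨t, ht, h2⟩ := ih h
      exact ⟨t, List.mem_cons_of_mem _ ht, h2⟩
    · exact ⟨s, List.mem_cons_self, h⟩

theorem genC_sub {l : List ℕ} {s X : ℕ} (hs : s ∈ l) (h : X ∈ genP32C [s] []) : X ∈ genP32C l [] := by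
  induction l with
  | nil => simp at hs
  | cons t r ih =>
    rw [show genP32C (t :: r) [] = genP32C r (genP32C [t] []) by
      simp only [genP32C, letN_eq, forceL_eq], genC_acc]
    rcases List.mem_cons.mp hs with rfl | hs
    · exact List.mem_append_right _ h
    · exact List.mem_append_left _ (ih hs)

theorem mem_genB {l : List ℕ} {X : ℕ} (h : X ∈ genP32B l []) : ∃ s ∈ l, X ∈ genP32B [s] [] := by
  induction l with
  | nil => simp [genP32B] at h
  | cons s r ih =>
    rw [show genP32B (s :: r) [] = genP32B r (genP32B [s] []) by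
      simp only [genP32B, letN_eq, forceL_eq], genB_acc] at h
    rcases List.mem_append.mp h with h | h
    · obtain ⟨t, ht, h2⟩ := ih h
      exact ⟨t, List.mem_cons_of_mem _ ht, h2⟩
    · exact ⟨s, List.mem_cons_self, h⟩

theorem genB_sub {l : List ℕ} {s X : ℕ} (hs : s ∈ l) (h : X ∈ genP32B [s] []) : X ∈ genP32B l [] := by
  induction l with
  | nil => simp at hs
  | cons t r ih =>
    rw [show genP32B (t :: r) [] = genP32B r (genP32B [t] []) by
      simp only [genP32B, letN_eq, forceL_eq], genB_acc]
    rcases List.mem_cons.mp hs with rfl | hs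
    · exact List.mem_append_right _ h
    · exact List.mem_append_left _ (ih hs)

theorem codeSp_length : codeSp.length ≤ 256 * 16 := by decide +kernel

theorem octadList_length' : octadList.length ≤ 64 * 12 := by decide +kernel

theorem L32_chk {X : ℕ} (hX : X ∈ L32) : unpk X ∈ leechLattice ∧ sqNorm (unpk X) = 32 ∧ X < 64 ^ 24 := by
  have h : chkQ 32 X = true := by
    rw [L32_decomp] at hX
    rcases List.mem_append.mp hX with h | h
    · exact allChk_spec chkA_all X h
    · rcases List.mem_append.mp h with h | h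
      · obtain ⟨s, hs, h2⟩ := mem_genB h
        obtain ⟨i, hi, h3⟩ := mem_portion (by norm_num) octadList_length' hs
        exact allChk_spec (chkB_portions i hi) X (genB_sub h3 h2)
      · obtain ⟨s, hs, h2⟩ := mem_genC h
        obtain ⟨i, hi, h3⟩ := mem_portion (by norm_num) codeSp_length hs
        exact allChk_spec (chkC_portions i hi) X (genC_sub h3 h2)
  have := chkP_spec (chkQ_spec h)
  exact_mod_cast this

theorem L32_nodup : L32.Nodup := (scanChk_spec L32_scan).1

theorem L32_length : L32.length = 196560 := (scanChk_spec L32_scan).2.1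

theorem unpk_injOn_L32 : Set.InjOn unpk {X | X ∈ L32} := fun _ hX _ hY h =>
  eq_of_unpk_eq (L32_chk hX).2.2 (L32_chk hY).2.2 h

/-- The minimal vectors are exactly the vectors of the list. -/
theorem S32_eq : {x : GolayPt → ℤ | x ∈ leechLattice ∧ sqNorm x = 32} = unpk '' {X | X ∈ L32} := by
  symm
  apply Set.eq_of_subset_of_ncard_le
  · rintro x ⟨X, hX, rfl⟩
    have := L32_chk hX
    exact ⟨this.1, by exact_mod_cast this.2.1⟩
  · rw [shell32, unpk_injOn_L32.ncard_image]
    have : {X | X ∈ L32} = (L32.toFinset : Set ℕ) := by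
      ext X
      simp
    rw [this, Set.ncard_coe_finset, List.toFinset_card_of_nodup L32_nodup, L32_length]
  · have h : {x : GolayPt → ℤ | x ∈ leechLattice ∧ sqNorm x = 32}.ncard = 196560 := shell32
    by_contra hf
    rw [Set.Infinite.ncard (fun hh => hf hh)] at h
    omega

theorem mem_S32_iff {x : GolayPt → ℤ} : (x ∈ leechLattice ∧ sqNorm x = 32) ↔ ∃ X ∈ L32, unpk X = x := by
  have : x ∈ {x : GolayPt → ℤ | x ∈ leechLattice ∧ sqNorm x = 32} ↔ x ∈ unpk '' {X | X ∈ L32} := by rw [S32_eq]
  simpa using this

/-- Counting minimal vectors with a property. -/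
theorem ncard_S32_filter (pred : ℕ → Bool) (Pr : (GolayPt → ℤ) → Prop)
    (h : ∀ X ∈ L32, pred X = true ↔ Pr (unpk X)) :
    {x : GolayPt → ℤ | x ∈ leechLattice ∧ sqNorm x = 32 ∧ Pr x}.ncard = (L32.filter pred).length := by
  have e : {x : GolayPt → ℤ | x ∈ leechLattice ∧ sqNorm x = 32 ∧ Pr x} = unpk '' ((L32.filter pred).toFinset : Set ℕ) := by
    ext x
    simp only [Set.mem_ofPred_eq, Set.mem_image, List.coe_toFinset, List.mem_filter]
    constructor
    · rintro ⟨h1, h2, h3⟩
      obtain ⟨X, hX, rfl⟩ := mem_S32_iff.mp ⟨h1, h2⟩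
      exact ⟨X, ⟨hX, (h X hX).mpr h3⟩, rfl⟩
    · rintro ⟨X, ⟨hX, hp⟩, rfl⟩
      have h2 := (mem_S32_iff (x := unpk X)).mpr ⟨X, hX, rfl⟩
      exact ⟨h2.1, h2.2, (h X hX).mp hp⟩
  rw [e, Set.InjOn.ncard_image, Set.ncard_coe_finset, List.toFinset_card_of_nodup (L32_nodup.filter _)]
  intro X hX Y hY he
  simp only [List.coe_toFinset, List.mem_filter, Set.mem_ofPred_eq] at hX hY
  exact unpk_injOn_L32 hX.1 hY.1 he

end CfsgLib.Leech
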