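/-
Orbits on minimal vectors: a general statement from explicit checks.
-/
import Cfsg.Agent.Lib.Leech.PackL32
import Cfsg.Agent.Lib.Leech.PackRun

set_option autoImplicit false
set_option maxRecDepth 100000

namespace CfsgLib.Leech

open Cfsg CfsgLib.Golay
open scoped Pointwise

/-- The lattice vector of a packed vector. -/
noncomputable def liftP (X : ℕ) : leechLattice :=
  open Classical in if h : unpk X ∈ leechLattice then ⟨unpk X, h⟩ else 0

theorem liftP_coe {X : ℕ} (h : unpk X ∈ leechLattice) : ((liftP X : leechLattice) : GolayPt → ℤ) = unpk X := by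
  unfold liftP
  rw [dif_pos h]

/-- A list of fixed vectors with their norms, and generators fixing them. -/
def pathsChk (Vs : List (ℕ × ℕ)) (paths : List (List (ℕ × ℕ))) : Bool :=
  Vs.all (fun p => Nat.ble p.1 64 && chkP p.1 p.2) &&
    paths.all fun ss => ss.all stepOK && Vs.all fun p => Nat.beq (applyW (ss.map compile) p.2) p.2

/-- The vectors fixed. -/
noncomputable def bsOf (Vs : List (ℕ × ℕ)) : List leechLattice := Vs.map fun p => liftP p.2

theorem pathsOK_of_chk {Vs : List (ℕ × ℕ)} {paths : List (List (ℕ × ℕ))} (h : pathsChk Vs paths = true) :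
    PathsOK (bsOf Vs) paths := by
  simp only [pathsChk, Bool.and_eq_true, List.all_eq_true, decide_eq_true_eq] at h
  obtain ⟨h1, h2⟩ := h
  intro ss hss
  obtain ⟨h3, h4⟩ := h2 ss hss
  refine ⟨by simpa using h3, ?_⟩
  intro β hβ
  simp only [bsOf, List.mem_map] at hβ
  obtain ⟨p, hp, rfl⟩ := hβ
  obtain ⟨h5, h6⟩ := h1 p hp
  obtain ⟨h7, h8, -⟩ := chkP_spec h6
  have h9 := applyW_spec ss (by simpa using h3) p.2 h7 (by rw [h8]; exact_mod_cast Nat.le_of_ble_eq_true h5)
  rw [Nat.eq_of_beq_eq_true (h4 p hp)] at h9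
  apply Subtype.ext
  rw [liftP_coe h7]
  have h10 : liftP p.2 = ⟨unpk p.2, h7⟩ := Subtype.ext (liftP_coe h7)
  rw [h10]
  exact h9

/-- A condition: a fixed vector with a sparse description and an inner product. -/
def condChk (Vs : List (ℕ × ℕ)) (B0 : ℕ) (c : ℕ × List (ℕ × ℤ) × ℤ) : Bool :=
  Vs.any (fun p => Nat.beq p.2 c.1) && c.2.1.all (fun p => decide (p.1 < 24)) &&
    (List.range 24).all (fun i => decide ((fld c.1 i : ℤ) - 16 = (c.2.1.map fun p => if p.1 = i then p.2 else 0).sum)) &&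
    dotT c.2.1 c.2.2 B0

/-- The property given by a list of conditions. -/
def PrC (conds : List (ℕ × List (ℕ × ℤ) × ℤ)) (x : GolayPt → ℤ) : Prop :=
  ∀ c ∈ conds, dotInt (vecS c.2.1) x = c.2.2

/-- The test for the conditions on packed vectors. -/
def predC (conds : List (ℕ × List (ℕ × ℤ) × ℤ)) (X : ℕ) : Bool :=
  conds.all fun c => dotT c.2.1 c.2.2 X

/-- A linear form with natural coefficients on the fields. -/
def dotP : List (ℕ × ℕ) → ℕ → ℕ
  | [], _ => 0
  | p :: B, X => Nat.add (Nat.mul p.2 (fld X p.1)) (dotP B X)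

/-- The positive coefficients. -/
def posOf : List (ℕ × ℤ) → List (ℕ × ℕ)
  | [] => []
  | p :: B => if 0 < p.2 then (p.1, p.2.toNat) :: posOf B else posOf B

/-- The negative coefficients. -/
def negOf : List (ℕ × ℤ) → List (ℕ × ℕ)
  | [] => []
  | p :: B => if p.2 < 0 then (p.1, (-p.2).toNat) :: negOf B else negOf B

/-- The sum of the coefficients. -/
def coefSum : List (ℕ × ℤ) → ℤ
  | [] => 0
  | p :: B => p.2 + coefSum B

theorem dotS_split (B : List (ℕ × ℤ)) (X : ℕ) :
    dotS B X = (dotP (posOf B) X : ℤ) - dotP (negOf B) X - 16 * coefSum B := by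
  induction B with
  | nil => simp [dotS, dotP, posOf, negOf, coefSum]
  | cons p B ih =>
    have e : dotS (p :: B) X = p.2 * ((fld X p.1 : ℤ) - 16) + dotS B X := rfl
    rw [e, ih]
    rcases lt_trichotomy p.2 0 with h | h | h
    · have h1 : ¬ (0 < p.2) := by omega
      simp only [posOf, negOf, coefSum, if_neg h1, if_pos h]
      have e2 : dotP ((p.1, (-p.2).toNat) :: negOf B) X =
          (-p.2).toNat * fld X p.1 + dotP (negOf B) X := rfl
      rw [e2]
      have h2 : (((-p.2).toNat : ℕ) : ℤ) = -p.2 := Int.toNat_of_nonneg (by omega)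
      push_cast
      rw [h2]
      ring
    · have h0 : p.2 = 0 := h
      simp only [posOf, negOf, coefSum, h0, lt_irrefl, if_false]
      ring
    · have h1 : ¬ (p.2 < 0) := by omega
      simp only [posOf, negOf, coefSum, if_neg h1, if_pos h]
      have e2 : dotP ((p.1, p.2.toNat) :: posOf B) X =
          p.2.toNat * fld X p.1 + dotP (posOf B) X := rfl
      rw [e2]
      have h2 : ((p.2.toNat : ℕ) : ℤ) = p.2 := Int.toNat_of_nonneg (by omega)
      push_cast
      rw [h2]
      ring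

/-- One compiled condition. -/
def compC1 (c : ℕ × List (ℕ × ℤ) × ℤ) : List (ℕ × ℕ) × List (ℕ × ℕ) × ℕ × ℕ :=
  (posOf c.2.1, negOf c.2.1, (-(16 * coefSum c.2.1 + c.2.2)).toNat, (16 * coefSum c.2.1 + c.2.2).toNat)

/-- Compiled conditions. -/
def compC (conds : List (ℕ × List (ℕ × ℤ) × ℤ)) : List (List (ℕ × ℕ) × List (ℕ × ℕ) × ℕ × ℕ) :=
  conds.map compC1

/-- The fast test. -/
def predD (cc : List (List (ℕ × ℕ) × List (ℕ × ℕ) × ℕ × ℕ)) (X : ℕ) : Bool :=
  cc.all fun c => Nat.beq (Nat.add (dotP c.1 X) c.2.2.1) (Nat.add (dotP c.2.1 X) c.2.2.2)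

theorem predD_iff (conds : List (ℕ × List (ℕ × ℤ) × ℤ)) (X : ℕ) :
    predD (compC conds) X = predC conds X := by
  simp only [predD, compC, predC, List.all_map]
  congr 1
  funext c
  simp only [Function.comp, compC1, dotT]
  rw [Bool.eq_iff_iff]
  simp only [decide_eq_true_eq, Nat.beq_eq, Nat.add_eq]
  rw [dotS_split]
  omega

/-- A list of packed vectors describing the minimal vectors with given conditions. -/
def ListOf (conds : List (ℕ × List (ℕ × ℤ) × ℤ)) (L : List ℕ) : Prop :=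
  {x : GolayPt → ℤ | x ∈ leechLattice ∧ sqNorm x = 32 ∧ PrC conds x} = unpk '' {X | X ∈ L} ∧ L.Nodup ∧
    ∀ X ∈ L, X < 64 ^ 24

theorem listOf_L32 : ListOf [] L32 := by
  refine ⟨?_, L32_nodup, fun X hX => (L32_chk hX).2.2⟩
  rw [← S32_eq]
  ext x
  simp [PrC]

theorem PrC_append {a b : List (ℕ × List (ℕ × ℤ) × ℤ)} {x : GolayPt → ℤ} :
    PrC (a ++ b) x ↔ PrC a x ∧ PrC b x := by
  simp only [PrC, List.mem_append]
  constructor
  · intro h
    exact ⟨fun c hc => h c (Or.inl hc), fun c hc => h c (Or.inr hc)⟩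
  · rintro ⟨h1, h2⟩ c (hc | hc)
    · exact h1 c hc
    · exact h2 c hc

theorem predC_iff {conds : List (ℕ × List (ℕ × ℤ) × ℤ)} (hsp : ∀ c ∈ conds, ∀ p ∈ c.2.1, p.1 < 24) (X : ℕ) :
    predC conds X = true ↔ PrC conds (unpk X) := by
  simp only [predC, PrC, List.all_eq_true]
  constructor
  · intro h c hcc
    exact (dotT_iff _ (hsp c hcc) _ _).mp (h c hcc)
  · intro h c hcc
    exact (dotT_iff _ (hsp c hcc) _ _).mpr (h c hcc)

/-- Counting inside a list. -/
theorem count_child {parent extra : List (ℕ × List (ℕ × ℤ) × ℤ)} {L : List ℕ} (hL : ListOf parent L)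
    (hsp : ∀ c ∈ extra, ∀ p ∈ c.2.1, p.1 < 24)
    {cc : List (List (ℕ × ℕ) × List (ℕ × ℕ) × ℕ × ℕ)} (hcc : compC extra = cc) {k n : ℕ}
    (hcnt : cntChk (predD cc) k L n = true) :
    {x : GolayPt → ℤ | x ∈ leechLattice ∧ sqNorm x = 32 ∧ PrC (parent ++ extra) x}.ncard = n := by
  have e : predD cc = predC extra := by
    funext X
    rw [← hcc, predD_iff]
  rw [e] at hcnt
  have hlen := cntChk_spec hcnt
  obtain ⟨h1, h2, h3⟩ := hL
  have hS : {x : GolayPt → ℤ | x ∈ leechLattice ∧ sqNorm x = 32 ∧ PrC (parent ++ extra) x} =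
      unpk '' (((L.filter (predC extra)).toFinset : Finset ℕ) : Set ℕ) := by
    ext x
    simp only [Set.mem_ofPred_eq, Set.mem_image, List.coe_toFinset, List.mem_filter, PrC_append]
    constructor
    · rintro ⟨h4, h5, h6, h7⟩
      have h8 : x ∈ {x : GolayPt → ℤ | x ∈ leechLattice ∧ sqNorm x = 32 ∧ PrC parent x} := ⟨h4, h5, h6⟩
      rw [h1] at h8
      obtain ⟨X, hX, rfl⟩ := h8
      exact ⟨X, ⟨hX, (predC_iff hsp X).mpr h7⟩, rfl⟩
    · rintro ⟨X, ⟨hX, hp⟩, rfl⟩
      have h8 : unpk X ∈ {x : GolayPt → ℤ | x ∈ leechLattice ∧ sqNorm x = 32 ∧ PrC parent x} := by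
        rw [h1]
        exact ⟨X, hX, rfl⟩
      exact ⟨h8.1, h8.2.1, h8.2.2, (predC_iff hsp X).mp hp⟩
  rw [hS, Set.InjOn.ncard_image, Set.ncard_coe_finset, List.toFinset_card_of_nodup (h2.filter _), hlen]
  intro X hX Y hY he
  simp only [List.coe_toFinset, List.mem_filter, Set.mem_ofPred_eq] at hX hY
  exact eq_of_unpk_eq (h3 X hX.1) (h3 Y hY.1) he

/-- What a run establishes. -/
def OrbRes (Vs : List (ℕ × ℕ)) (B : ℕ) (conds : List (ℕ × List (ℕ × ℤ) × ℤ)) (n : ℕ) (run : List ℕ) : Prop :=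
  {x : GolayPt → ℤ | x ∈ leechLattice ∧ sqNorm x = 32 ∧ PrC conds x}.ncard = n ∧
    (∀ x : GolayPt → ℤ, x ∈ leechLattice → sqNorm x = 32 → PrC conds x →
      ∃ g : ↥Co0, FixL (bsOf Vs) g ∧ ((g • liftP B : leechLattice) : GolayPt → ℤ) = x) ∧
    ListOf conds run

/-- The main statement: a program walking through all minimal vectors satisfying the conditions shows that
the automorphisms fixing the given vectors are transitive on them. -/
theorem orbit_S32 {Vs : List (ℕ × ℕ)} {paths gens : List (List (ℕ × ℕ))} {B : ℕ} {cs : List ℕ} {k n : ℕ}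
    {conds parent extra : List (ℕ × List (ℕ × ℤ) × ℤ)} {L : List ℕ}
    (hp : pathsChk Vs paths = true) (hg : paths.map (fun ss => ss.map compile) = gens)
    (hB : chkP 32 B = true) (hc : conds.all (condChk Vs B) = true)
    (hs : scanChk k hiP n (runChunks gens cs [B] [B]) = true)
    (hL : ListOf parent L) (he : conds = parent ++ extra)
    {cc : List (List (ℕ × ℕ) × List (ℕ × ℕ) × ℕ × ℕ)} (hcc : compC extra = cc)
    (hcnt : cntChk (predD cc) 18 L n = true) :
    OrbRes Vs B conds n (runChunks gens cs [B] [B]) := by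
  have hc' : ∀ c ∈ conds, condChk Vs B c = true := by simpa using hc
  have hsp : ∀ c ∈ conds, ∀ p ∈ c.2.1, p.1 < 24 := by
    intro c hcc p hpp
    have := hc' c hcc
    simp only [condChk, Bool.and_eq_true, List.all_eq_true, decide_eq_true_eq] at this
    exact this.1.1.2 p hpp
  have hcount : {x : GolayPt → ℤ | x ∈ leechLattice ∧ sqNorm x = 32 ∧ PrC conds x}.ncard = n := by
    rw [he]
    refine count_child hL ?_ hcc hcnt
    intro c hcc' p hpp
    exact hsp c (he ▸ List.mem_append_right _ hcc') p hpp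
  obtain ⟨hB1, hB2, -⟩ := chkP_spec hB
  have hBc : ((liftP B : leechLattice) : GolayPt → ℤ) = unpk B := liftP_coe hB1
  have hf : {x : GolayPt → ℤ | x ∈ leechLattice ∧ sqNorm x = 32 ∧ PrC conds x}.Finite := by
    apply Set.Finite.subset (s := unpk '' {X | X ∈ L32})
    · exact (List.finite_toSet L32).image _
    · rintro x ⟨h1, h2, -⟩
      obtain ⟨X, hX, rfl⟩ := mem_S32_iff.mp ⟨h1, h2⟩
      exact ⟨X, hX, rfl⟩
  have hcl : ∀ g : ↥Co0, FixL (bsOf Vs) g →
      ((g • liftP B : leechLattice) : GolayPt → ℤ) ∈ {x : GolayPt → ℤ | x ∈ leechLattice ∧ sqNorm x = 32 ∧ PrC conds x} := by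
    intro g hg'
    refine ⟨(g • liftP B).2, ?_, ?_⟩
    · rw [sqNorm_smul_Co0, hBc]
      exact_mod_cast hB2
    · intro c hcc
      have h1 := hc' c hcc
      simp only [condChk, Bool.and_eq_true, List.any_eq_true, List.all_eq_true, decide_eq_true_eq, List.mem_range] at h1
      obtain ⟨⟨⟨⟨p, hp1, hp2⟩, h2⟩, h3⟩, h4⟩ := h1
      have hcV : c.1 = p.2 := (Nat.eq_of_beq_eq_true hp2).symm
      obtain ⟨h5, h6, -⟩ := chkP_spec (show chkP p.1 p.2 = true by
        have := hp
        simp only [pathsChk, Bool.and_eq_true, List.all_eq_true] at this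
        exact (this.1 p hp1).2)
      have hvec : unpk p.2 = vecS c.2.1 := by
        funext q
        rw [unpk_apply, ← hcV, h3 (idx q) (idx_lt q)]
        rfl
      have hβ : liftP p.2 ∈ bsOf Vs := List.mem_map.mpr ⟨p, hp1, rfl⟩
      have h7 : dotInt (vecS c.2.1) ((g • liftP B : leechLattice) : GolayPt → ℤ) = dotInt (vecS c.2.1) (unpk B) := by
        rw [← hBc, ← hvec]
        have h8 := dotInt_smul g (liftP p.2) (liftP B)
        rw [hg' _ hβ, liftP_coe h5] at h8
        exact h8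
      rw [h7]
      exact (dotT_iff _ (hsp c hcc) _ _).mp h4
  have hnorm : sqNorm ((liftP B : leechLattice) : GolayPt → ℤ) ≤ 64 := by
    rw [hBc, hB2]
    norm_num
  have hPO := pathsOK_of_chk hp
  have hcov := orbit_cover hnorm hPO hg hBc hs hcount hf hcl
  refine ⟨hcount, fun x h1 h2 h3 => hcov x ⟨h1, h2, h3⟩, ?_⟩
  obtain ⟨h1, h2, h3⟩ := scanChk_spec hs
  have hbd : ∀ X ∈ runChunks gens cs [B] [B], X < 64 ^ 24 := fun X hX => lt_of_le_of_lt (h3 X hX) hiP_lt
  refine ⟨?_, h1, hbd⟩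
  have hinj : Set.InjOn unpk ({X | X ∈ runChunks gens cs [B] [B]} : Set ℕ) :=
    fun X hX Y hY he => eq_of_unpk_eq (hbd X hX) (hbd Y hY) he
  symm
  apply Set.eq_of_subset_of_ncard_le
  · rintro x ⟨X, hX, rfl⟩
    obtain ⟨g, hg1, hg2⟩ := run_orbit hnorm hPO hg hBc cs X hX
    rw [← hg2]
    exact hcl g hg1
  · rw [hcount, hinj.ncard_image]
    have : ({X | X ∈ runChunks gens cs [B] [B]} : Set ℕ) = ((runChunks gens cs [B] [B]).toFinset : Set ℕ) := by
      ext X
      simp
    rw [this, Set.ncard_coe_finset, List.toFinset_card_of_nodup h1, h2]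
  · exact hf

end CfsgLib.Leech
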