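/-
A subgroup of index `2 ^ 12` of the lattice containing twice the lattice on which norms are divisible by 32.
-/
import Cfsg.Agent.Lib.Leech.Index
import Cfsg.Agent.Lib.Leech.Gens

set_option autoImplicit false

namespace CfsgLib.Leech

open Cfsg CfsgLib.Golay

/-- The constant vector two modulo four. -/
def two4 : GolayPt → ZMod 4 := fun _ => 2

theorem two4_add : two4 + two4 = 0 := by
  funext i
  simp only [two4, Pi.add_apply, Pi.zero_apply]
  decide

/-- The subgroup of order two. -/
def DD : AddSubgroup (GolayPt → ZMod 4) where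
  carrier := {0, two4}
  zero_mem' := by simp
  add_mem' := by
    rintro a b (rfl | rfl) (rfl | rfl)
    · simp
    · simp
    · simp
    · left
      exact two4_add
  neg_mem' := by
    rintro a (rfl | rfl)
    · simp
    · right
      funext i
      simp only [two4, Pi.neg_apply]
      exact (by decide : (-2 : ZMod 4) = 2)

theorem mem_DD {y : GolayPt → ZMod 4} : y ∈ DD ↔ y = 0 ∨ y = two4 := Iff.rfl

/-- The subgroup of the lattice. -/
def A12 : AddSubgroup (GolayPt → ℤ) := leechLattice ⊓ DD.comap rho

theorem two_mem_A12 {v : GolayPt → ℤ} (hv : v ∈ leechLattice) : (2 : ℤ) • v ∈ A12 := by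
  refine ⟨leechLattice.zsmul_mem hv 2, ?_⟩
  obtain ⟨m, c, h⟩ := mem_leech_iff.mp hv
  show rho ((2 : ℤ) • v) ∈ DD
  rcases h.hm with rfl | rfl
  · left
    funext i
    rw [rho_apply]
    have h1 := h.h4 i
    have h2 : (((2 : ℤ) • v) i : ZMod 4) = ((0 : ℤ) : ZMod 4) := by
      rw [ZMod.intCast_eq_intCast_iff _ _ 4]
      simp only [Pi.smul_apply, smul_eq_mul]
      unfold Int.ModEq at h1 ⊢
      omega
    rw [h2]
    simp
  · right
    funext i
    rw [rho_apply]
    have h1 := h.h4 i
    have h2 : (((2 : ℤ) • v) i : ZMod 4) = ((2 : ℤ) : ZMod 4) := by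
      rw [ZMod.intCast_eq_intCast_iff _ _ 4]
      simp only [Pi.smul_apply, smul_eq_mul]
      have h3 := ind_cases c i
      unfold Int.ModEq at h1 ⊢
      rcases h3 with h3 | h3 <;> rw [h3] at h1 <;> omega
    rw [h2]
    rfl

theorem norm_A12 {v : GolayPt → ℤ} (hv : v ∈ A12) : (32 : ℤ) ∣ sqNorm v := by
  obtain ⟨hL, hD⟩ := hv
  obtain ⟨m, c, h⟩ := mem_leech_iff.mp hL
  rcases (mem_DD.mp hD) with h0 | h2
  · have hc : ∀ i, (4 : ℤ) ∣ v i := by
      intro i
      have h1 := congrFun h0 i
      rw [rho_apply] at h1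
      exact (ZMod.intCast_zmod_eq_zero_iff_dvd _ 4).mp h1
    choose z hz using hc
    have h1 : sqNorm v = 16 * ∑ i, z i ^ 2 := by
      unfold sqNorm
      rw [Finset.mul_sum]
      exact Finset.sum_congr rfl fun i _ => by rw [hz i]; ring
    have h3 : (2 : ℤ) ∣ ∑ i, z i := by
      have h4 := h.h8
      have h5 : ∑ i, v i = 4 * ∑ i, z i := by
        rw [Finset.mul_sum]
        exact Finset.sum_congr rfl fun i _ => hz i
      have hm0 : m = 0 := by
        have h6 := h.h4 (pt 0)
        have h7 := ind_cases c (pt 0)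
        have h8 := hz (pt 0)
        unfold Int.ModEq at h6
        rcases h.hm with rfl | rfl
        · rfl
        · rcases h7 with h7 | h7 <;> rw [h7] at h6 <;> omega
      rw [h5, hm0] at h4
      unfold Int.ModEq at h4
      omega
    have h4 : (2 : ℤ) ∣ ∑ i, z i ^ 2 := by
      have h5 : (2 : ℤ) ∣ ∑ i, (z i ^ 2 - z i) := Finset.dvd_sum fun i _ => by
        have : z i ^ 2 - z i = z i * (z i - 1) := by ring
        rw [this]
        exact even_iff_two_dvd.mp (Int.even_mul_pred_self _)
      rw [Finset.sum_sub_distrib] at h5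
      exact (Int.dvd_iff_dvd_of_dvd_sub h5).mpr h3
    rw [h1]
    obtain ⟨k, hk⟩ := h4
    rw [hk]
    exact ⟨k, by ring⟩
  · have hc : ∀ i, (4 : ℤ) ∣ v i - 2 := by
      intro i
      have h1 := congrFun h2 i
      rw [rho_apply] at h1
      have h3 : ((v i - 2 : ℤ) : ZMod 4) = 0 := by
        push_cast
        rw [h1]
        simp only [two4]
        decide
      exact (ZMod.intCast_zmod_eq_zero_iff_dvd _ 4).mp h3
    choose z hz using hc
    have hv' : ∀ i, v i = 4 * z i + 2 := fun i => by linarith [hz i]
    have h1 : sqNorm v = 32 * 3 + 16 * ∑ i, (z i ^ 2 + z i) := by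
      unfold sqNorm
      have h3 : ∀ i, v i ^ 2 = 4 + 16 * (z i ^ 2 + z i) := fun i => by rw [hv' i]; ring
      simp only [h3]
      rw [Finset.sum_add_distrib, ← Finset.mul_sum]
      simp
    have h4 : (2 : ℤ) ∣ ∑ i, (z i ^ 2 + z i) := Finset.dvd_sum fun i _ => by
      have : z i ^ 2 + z i = z i * (z i + 1) := by ring
      rw [this]
      exact even_iff_two_dvd.mp (Int.even_mul_succ_self _)
    rw [h1]
    obtain ⟨k, hk⟩ := h4
    rw [hk]
    exact ⟨3 + k, by ring⟩

/-- The constant vector two as a lattice vector modulo four. -/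
theorem two4_mem_HH : two4 ∈ HH := by
  refine ⟨twoInd Finset.univ, twoInd_mem sup_univ, ?_⟩
  funext i
  rw [rho_apply]
  simp only [twoInd, ind, Finset.mem_univ, if_true]
  rfl

theorem two4_ne : two4 ≠ 0 := by
  intro h
  have := congrFun h (pt 0)
  simp only [two4, Pi.zero_apply] at this
  exact absurd this (by decide)

/-- The index. -/
theorem index_A12 : (A12.addSubgroupOf leechLattice).index = 2 ^ 12 := by
  classical
  -- the reduction from the lattice to its image
  let f : ↥leechLattice →+ ↥HH := (rho.domRestrict leechLattice).codRestrict HH (fun x => ⟨x, x.2, rfl⟩)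
  have hf : Function.Surjective f := by
    rintro ⟨y, x, hx, rfl⟩
    exact ⟨⟨x, hx⟩, rfl⟩
  let D' : AddSubgroup ↥HH := DD.addSubgroupOf HH
  have h1 : A12.addSubgroupOf leechLattice = D'.comap f := by
    ext x
    simp only [AddSubgroup.mem_addSubgroupOf, AddSubgroup.mem_comap]
    constructor
    · intro h
      exact h.2
    · intro h
      exact ⟨x.2, h⟩
  rw [h1, AddSubgroup.index_comap_of_surjective _ hf]
  have h2 := D'.card_mul_index
  have h3 : Nat.card D' = 2 := by
    have h4 : ((D' : Set ↥HH)) = {0, ⟨two4, two4_mem_HH⟩} := by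
      ext y
      simp only [SetLike.mem_coe, Set.mem_insert_iff, Set.mem_singleton_iff]
      change (y : GolayPt → ZMod 4) ∈ DD ↔ _
      rw [mem_DD]
      constructor
      · rintro (h | h)
        · left; exact Subtype.ext h
        · right; exact Subtype.ext h
      · rintro (h | h)
        · left; rw [h]; rfl
        · right; rw [h]
    change Nat.card ↥((D' : Set ↥HH)) = 2
    rw [h4, Nat.card_coe_set_eq, Set.ncard_pair]
    intro h
    exact two4_ne (congrArg Subtype.val h).symm
  rw [h3, card_HH] at h2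
  omega

theorem A12_le : A12 ≤ leechLattice := inf_le_left

end CfsgLib.Leech
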