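/-
Explicit integer vectors as lists; a Boolean test for membership in the lattice.
-/
import Cfsg.Agent.Lib.Leech.Mono
import Cfsg.Agent.Lib.Golay.Elems

set_option autoImplicit false

namespace CfsgLib.Leech

open Cfsg CfsgLib.Golay
open scoped Pointwise

/-- The entries of a list. -/
def getI (L : List ℤ) (i : ℕ) : ℤ := L.getD i 0

/-- The vector given by a list. -/
def vecL (L : List ℤ) : GolayPt → ℤ := fun q => getI L (idx q)

/-- The list of coordinates of a vector. -/
def toL (x : GolayPt → ℤ) : List ℤ := (List.range 24).map fun i => x (pt i)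

theorem getI_toL (x : GolayPt → ℤ) {i : ℕ} (hi : i < 24) : getI (toL x) i = x (pt i) := by
  unfold getI toL
  rw [List.getD_eq_getElem _ _ (by simpa using hi)]
  simp

theorem vecL_toL (x : GolayPt → ℤ) : vecL (toL x) = x := by
  funext q
  unfold vecL
  rw [getI_toL x (idx_lt q), pt_idx]

theorem vecL_pt (L : List ℤ) {i : ℕ} (hi : i < 24) : vecL L (pt i) = getI L i := by
  unfold vecL
  rw [idx_pt hi]

theorem toL_vecL {L : List ℤ} (h : L.length = 24) : toL (vecL L) = L := by
  apply List.ext_getElem
  · simp [toL, h]
  · intro i h1 h2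
    have hi : i < 24 := by simpa [toL] using h1
    simp only [toL, List.getElem_map, List.getElem_range]
    rw [vecL_pt L hi]
    unfold getI
    rw [List.getD_eq_getElem _ _ h2]

/-- A mask from a predicate on the first `n` numbers. -/
def bitsOf (f : ℕ → Bool) : ℕ → ℕ
  | 0 => 0
  | n + 1 => bitsOf f n + (if f n then 2 ^ n else 0)

theorem bitsOf_lt (f : ℕ → Bool) (n : ℕ) : bitsOf f n < 2 ^ n := by
  induction n with
  | zero => simp [bitsOf]
  | succ n ih =>
    simp only [bitsOf]
    split_ifs <;> rw [pow_succ] <;> omega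

theorem testBit_bitsOf (f : ℕ → Bool) (n i : ℕ) : (bitsOf f n).testBit i = (decide (i < n) && f i) := by
  induction n with
  | zero => simp [bitsOf]
  | succ n ih =>
    simp only [bitsOf]
    have hlt := bitsOf_lt f n
    by_cases hf : f n = true
    · rw [if_pos hf]
      have h1 : bitsOf f n + 2 ^ n = 2 ^ n * 1 + bitsOf f n := by ring
      rw [h1, Nat.testBit_two_pow_mul_add _ hlt]
      by_cases hi : i < n
      · rw [if_pos hi, ih]
        have : i < n + 1 := by omega
        simp [hi, this]
      · rw [if_neg hi]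
        by_cases hin : i = n
        · subst hin
          simp [hf]
        · have h2 : ¬ i < n + 1 := by omega
          have h3 : i - n ≠ 0 := by omega
          simp only [h2, decide_false, Bool.false_and]
          rw [Bool.eq_false_iff]
          exact fun h => h3 (Nat.testBit_one_eq_true_iff_self_eq_zero.mp h)
    · rw [if_neg hf, add_zero, ih]
      by_cases hin : i = n
      · subst hin
        simp [hf]
      · by_cases hi : i < n
        · have : i < n + 1 := by omega
          simp [hi, this]
        · have h2 : ¬ i < n + 1 := by omega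
          simp [hi, h2]

/-- The sum of the first 24 entries. -/
def sumL (L : List ℤ) : ℤ := ((List.range 24).map (getI L)).sum

/-- The residue of a list. -/
def parL (L : List ℤ) : ℤ := getI L 0 % 2

/-- The code word of a list. -/
def codeL (L : List ℤ) : ℕ := bitsOf (fun i => decide ((getI L i - parL L) % 4 = 2)) 24

/-- The Boolean membership test for the lattice. -/
def lchk (L : List ℤ) : Bool :=
  (List.range 24).all (fun i => decide ((getI L i - parL L) % 4 = 0 ∨ (getI L i - parL L) % 4 = 2)) &&
    isCode (codeL L) && decide ((sumL L - 4 * parL L) % 8 = 0)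

theorem list_range_sum (f : ℕ → ℤ) (n : ℕ) : ((List.range n).map f).sum = ∑ i ∈ Finset.range n, f i := by
  induction n with
  | zero => simp
  | succ n ih =>
    rw [List.range_succ, List.map_append, List.sum_append, ih, Finset.sum_range_succ]
    simp

/-- Sums over the points as sums over numbers. -/
theorem sum_pts (f : GolayPt → ℤ) : ∑ q, f q = ((List.range 24).map fun i => f (pt i)).sum := by
  rw [list_range_sum]
  have h : (Finset.univ : Finset GolayPt) = (Finset.range 24).image pt := by
    ext q
    simp only [Finset.mem_univ, Finset.mem_image, Finset.mem_range, true_iff]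
    exact ⟨idx q, idx_lt q, pt_idx q⟩
  rw [h, Finset.sum_image]
  intro a ha b hb he
  have := congrArg idx he
  rwa [idx_pt (Finset.mem_range.mp ha), idx_pt (Finset.mem_range.mp hb)] at this

theorem sum_vecL (L : List ℤ) : ∑ q, vecL L q = sumL L := by
  rw [sum_pts]
  unfold sumL
  congr 1

theorem lchk_data {L : List ℤ} (h : lchk L = true) : LeechData (vecL L) (parL L) (fs (codeL L)) := by
  simp only [lchk, Bool.and_eq_true, List.all_eq_true, decide_eq_true_eq, List.mem_range] at h
  obtain ⟨⟨h1, h2⟩, h3⟩ := h
  refine ⟨by unfold parL; omega, fs_mem_supports (mem_allCode_of_isCode h2), fun q => ?_, ?_⟩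
  · have h4 := h1 (idx q) (idx_lt q)
    have h5 : q ∈ fs (codeL L) ↔ (getI L (idx q) - parL L) % 4 = 2 := by
      rw [mem_fs]
      unfold codeL
      rw [testBit_bitsOf]
      simp [idx_lt q]
    unfold ind Int.ModEq
    change getI L (idx q) % 4 = _
    by_cases h6 : q ∈ fs (codeL L)
    · rw [if_pos h6]
      have := h5.mp h6
      omega
    · rw [if_neg h6]
      have h7 : ¬ (getI L (idx q) - parL L) % 4 = 2 := fun h8 => h6 (h5.mpr h8)
      omega
  · rw [sum_vecL]
    unfold Int.ModEq
    omega

theorem mem_of_lchk {L : List ℤ} (h : lchk L = true) : vecL L ∈ leechLattice :=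
  mem_leech_iff.mpr ⟨_, _, lchk_data h⟩

theorem lchk_of_mem {x : GolayPt → ℤ} (hx : x ∈ leechLattice) : lchk (toL x) = true := by
  obtain ⟨m, c, h⟩ := mem_leech_iff.mp hx
  obtain ⟨a, ha, rfl⟩ := (mem_supports_iff c).mp h.hc
  have hg : ∀ i < 24, getI (toL x) i = x (pt i) := fun i hi => getI_toL x hi
  have hp : parL (toL x) = m := by
    unfold parL
    rw [hg 0 (by norm_num)]
    have h4 := h.h4 (pt 0)
    have h5 := ind_cases (fs a) (pt 0)
    unfold Int.ModEq at h4
    rcases h.hm with rfl | rfl <;> rcases h5 with h5 | h5 <;> rw [h5] at h4 <;> omega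
  have hmod : ∀ i < 24, (x (pt i) - m) % 4 = 2 * ind (fs a) (pt i) := by
    intro i _
    have h4 := h.h4 (pt i)
    have h5 := ind_cases (fs a) (pt i)
    unfold Int.ModEq at h4
    rcases h5 with h5 | h5 <;> rw [h5] at h4 ⊢ <;> omega
  have hcode : codeL (toL x) = a := by
    apply eq_of_fs_eq (by unfold codeL; exact bitsOf_lt _ _) (allCode_lt_aux a ha)
    ext q
    rw [mem_fs]
    unfold codeL
    rw [testBit_bitsOf, hp, hg _ (idx_lt q), pt_idx]
    have hq := hmod (idx q) (idx_lt q)
    rw [pt_idx] at hq
    simp only [idx_lt q, decide_true, Bool.true_and, decide_eq_true_eq]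
    rw [hq]
    unfold ind
    by_cases h6 : q ∈ fs a
    · simp [h6]
    · simp [h6]
  simp only [lchk, Bool.and_eq_true, List.all_eq_true, decide_eq_true_eq, List.mem_range]
  refine ⟨⟨fun i hi => ?_, ?_⟩, ?_⟩
  · rw [hg i hi, hp, hmod i hi]
    rcases ind_cases (fs a) (pt i) with h5 | h5 <;> rw [h5] <;> simp
  · rw [hcode]
    exact isCode_of_mem a ha
  · rw [hp]
    have h8 := h.h8
    have h9 : sumL (toL x) = ∑ q, x q := by
      conv_rhs => rw [← vecL_toL x]
      rw [sum_vecL]
    rw [h9]
    unfold Int.ModEq at h8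
    omega

theorem lchk_iff {L : List ℤ} (hL : L.length = 24) : lchk L = true ↔ vecL L ∈ leechLattice := by
  constructor
  · exact mem_of_lchk
  · intro h
    have := lchk_of_mem h
    rwa [toL_vecL hL] at this

/-- Norm of a list. -/
def normL (L : List ℤ) : ℤ := ((List.range 24).map fun i => getI L i ^ 2).sum

theorem sqNorm_vecL (L : List ℤ) : sqNorm (vecL L) = normL L := by
  unfold sqNorm normL
  rw [sum_pts]
  congr 1

/-! ### Monomial maps on lists -/

/-- A monomial map on lists. -/
def monoL (t c : ℕ) (L : List ℤ) : List ℤ :=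
  (List.range 24).map fun i =>
    if c.testBit i then -getI L (pa (pinv t) i) else getI L (pa (pinv t) i)

theorem length_monoL (t c : ℕ) (L : List ℤ) : (monoL t c L).length = 24 := by simp [monoL]

theorem getI_monoL (t c : ℕ) (L : List ℤ) {i : ℕ} (hi : i < 24) :
    getI (monoL t c L) i = if c.testBit i then -getI L (pa (pinv t) i) else getI L (pa (pinv t) i) := by
  unfold getI monoL
  rw [List.getD_eq_getElem _ _ (by simpa using hi)]
  simp only [List.getElem_map, List.getElem_range]
  rfl

theorem signedPerm_vecL {t : ℕ} (ht : valid t = true) (c : ℕ) (L : List ℤ) :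
    signedPerm (CfsgLib.Golay.mk t) (fs c) (vecL L) = vecL (monoL t c L) := by
  funext q
  have h1 : (CfsgLib.Golay.mk t).symm q = CfsgLib.Golay.mk (pinv t) q := by
    rw [mk_pinv ht]
    rfl
  simp only [signedPerm, h1]
  have hv := valid_pinv ht
  have h2 : vecL L (CfsgLib.Golay.mk (pinv t) q) = getI L (pa (pinv t) (idx q)) := by
    unfold vecL
    rw [idx_mk hv]
  rw [h2]
  have h3 : vecL (monoL t c L) q = getI (monoL t c L) (idx q) := rfl
  rw [h3, getI_monoL t c L (idx_lt q)]
  simp [mem_fs]

end CfsgLib.Leech
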