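/-
An automorphism of the lattice outside the monomial group.
-/
import Cfsg.Agent.Lib.Leech.Vec

set_option autoImplicit false

namespace CfsgLib.Leech

open Cfsg CfsgLib.Golay
open scoped Pointwise

/-- The tetrads of a sextet. -/
def P0 : List (List ℕ) :=
  [[0, 1, 2, 3], [4, 7, 10, 12], [5, 14, 17, 23], [6, 9, 11, 22], [8, 15, 16, 19], [13, 18, 20, 21]]

/-- The tetrad of a point. -/
def blk (i : ℕ) : List ℕ := (P0.find? (fun t => t.contains i)).getD []

/-- The sign change on the first tetrad. -/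
def sgnXi (i : ℕ) : ℤ := if i < 4 then -1 else 1

/-- The map on lists. -/
def xiL (L : List ℤ) : List ℤ :=
  (List.range 24).map fun i => sgnXi i * (((blk i).map (getI L)).sum / 2 - getI L i)

/-- The map on vectors. -/
def xiFun (x : GolayPt → ℤ) : GolayPt → ℤ :=
  fun q => sgnXi (idx q) * (((blk (idx q)).map (fun j => x (pt j))).sum / 2 - x q)

/-- The check of a tetrad, as a Boolean. -/
def blkOK (i : ℕ) : Bool :=
  match blk i with
  | [a, b, c, d] =>
    (blk a == [a, b, c, d]) && (blk b == [a, b, c, d]) && (blk c == [a, b, c, d]) && (blk d == [a, b, c, d]) &&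
      decide (a < 24) && decide (b < 24) && decide (c < 24) && decide (d < 24) &&
      decide (sgnXi a = sgnXi i) && decide (sgnXi b = sgnXi i) && decide (sgnXi c = sgnXi i) &&
      decide (sgnXi d = sgnXi i) && decide (sgnXi i = 1 ∨ sgnXi i = -1)
  | _ => false

theorem blk_chk : ∀ i < 24, ∃ a b c d, blk i = [a, b, c, d] ∧ blk a = [a, b, c, d] ∧ blk b = [a, b, c, d] ∧
    blk c = [a, b, c, d] ∧ blk d = [a, b, c, d] ∧ a < 24 ∧ b < 24 ∧ c < 24 ∧ d < 24 ∧
    sgnXi a = sgnXi i ∧ sgnXi b = sgnXi i ∧ sgnXi c = sgnXi i ∧ sgnXi d = sgnXi i ∧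
    (sgnXi i = 1 ∨ sgnXi i = -1) := by
  intro i hi
  have h : (List.range 24).all blkOK = true := by decide +kernel
  have h1 := List.all_eq_true.mp h i (List.mem_range.mpr hi)
  unfold blkOK at h1
  split at h1
  · rename_i a b c d e
    simp only [Bool.and_eq_true, beq_iff_eq, decide_eq_true_eq] at h1
    obtain ⟨⟨⟨⟨⟨⟨⟨⟨⟨⟨⟨⟨h2, h3⟩, h4⟩, h5⟩, h6⟩, h7⟩, h8⟩, h9⟩, h10⟩, h11⟩, h12⟩, h13⟩, h14⟩ := h1
    exact ⟨a, b, c, d, e, h2, h3, h4, h5, h6, h7, h8, h9, h10, h11, h12, h13, h14⟩
  · simp at h1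

theorem P0_perm : (P0.flatten).Perm (List.range 24) := by decide +kernel

theorem P0_aux : ∀ t ∈ P0, t.getD 0 0 < 24 ∧ blk (t.getD 0 0) = t := by decide +kernel

theorem P0_chk : ∀ t ∈ P0, ∃ a b c d, t = [a, b, c, d] ∧ blk a = t ∧ blk b = t ∧ blk c = t ∧ blk d = t ∧
    a < 24 ∧ b < 24 ∧ c < 24 ∧ d < 24 ∧ sgnXi b = sgnXi a ∧ sgnXi c = sgnXi a ∧ sgnXi d = sgnXi a ∧
    (sgnXi a = 1 ∨ sgnXi a = -1) := by
  intro t ht
  obtain ⟨h2, h5⟩ := P0_aux t ht
  obtain ⟨a, b, c, d, e, ea, eb, ec, ed, ha, hb, hc, hd, sa, sb, sc, sd, hs⟩ := blk_chk _ h2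
  have hta : t = [a, b, c, d] := by
    rw [← h5, e]
  refine ⟨a, b, c, d, hta, by rw [ea, hta], by rw [eb, hta], by rw [ec, hta], by rw [ed, hta], ha, hb, hc, hd,
    by rw [sb, sa], by rw [sc, sa], by rw [sd, sa], by rw [sa]; exact hs⟩

theorem xiFun_pt (x : GolayPt → ℤ) {i : ℕ} (hi : i < 24) :
    xiFun x (pt i) = sgnXi i * (((blk i).map (fun j => x (pt j))).sum / 2 - x (pt i)) := by
  unfold xiFun
  rw [idx_pt hi]

theorem xiFun_vecL (L : List ℤ) : xiFun (vecL L) = vecL (xiL L) := by
  funext q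
  have hi := idx_lt q
  have h1 : xiFun (vecL L) q = sgnXi (idx q) * (((blk (idx q)).map (fun j => vecL L (pt j))).sum / 2 - vecL L q) := rfl
  have h2 : vecL (xiL L) q = getI (xiL L) (idx q) := rfl
  rw [h1, h2]
  unfold getI xiL
  rw [List.getD_eq_getElem _ _ (by simpa using hi)]
  simp only [List.getElem_map, List.getElem_range]
  obtain ⟨a, b, c, d, e, -, -, -, -, ha, hb, hc, hd, -⟩ := blk_chk _ hi
  rw [e]
  simp only [List.map_cons, List.map_nil, vecL_pt L ha, vecL_pt L hb, vecL_pt L hc, vecL_pt L hd]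
  rfl

/-- The parity of the tetrad sums. -/
def EvenS (x : GolayPt → ℤ) : Prop := ∀ i < 24, (2 : ℤ) ∣ ((blk i).map (fun j => x (pt j))).sum

theorem evenS_of_mem {x : GolayPt → ℤ} (hx : x ∈ leechLattice) : EvenS x := by
  obtain ⟨m, c, h⟩ := mem_leech_iff.mp hx
  intro i hi
  obtain ⟨a, b, c', d, e, -⟩ := blk_chk i hi
  rw [e]
  simp only [List.map_cons, List.map_nil, List.sum_cons, List.sum_nil, add_zero]
  have key : ∀ q, (x q - m) % 2 = 0 := by
    intro q
    have h4 := h.h4 q
    have h5 := ind_cases c q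
    unfold Int.ModEq at h4
    rcases h5 with h5 | h5 <;> rw [h5] at h4 <;> omega
  have h1 := key (pt a)
  have h2 := key (pt b)
  have h3 := key (pt c')
  have h4 := key (pt d)
  omega

theorem xiFun_add {x y : GolayPt → ℤ} (hx : EvenS x) (hy : EvenS y) : xiFun (x + y) = xiFun x + xiFun y := by
  funext q
  have hi := idx_lt q
  simp only [Pi.add_apply]
  unfold xiFun
  obtain ⟨a, b, c, d, e, -⟩ := blk_chk _ hi
  have h1 := hx _ hi
  have h2 := hy _ hi
  rw [e] at h1 h2 ⊢
  simp only [List.map_cons, List.map_nil, List.sum_cons, List.sum_nil, add_zero, Pi.add_apply] at h1 h2 ⊢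
  have h3 : (x (pt a) + y (pt a) + (x (pt b) + y (pt b) + (x (pt c) + y (pt c) + (x (pt d) + y (pt d))))) / 2 =
      (x (pt a) + (x (pt b) + (x (pt c) + x (pt d)))) / 2 + (y (pt a) + (y (pt b) + (y (pt c) + y (pt d)))) / 2 := by
    omega
  rw [h3]
  ring

theorem xiFun_neg {x : GolayPt → ℤ} (hx : EvenS x) : xiFun (-x) = -xiFun x := by
  funext q
  have hi := idx_lt q
  simp only [Pi.neg_apply]
  unfold xiFun
  obtain ⟨a, b, c, d, e, -⟩ := blk_chk _ hi
  have h1 := hx _ hi
  rw [e] at h1 ⊢
  simp only [List.map_cons, List.map_nil, List.sum_cons, List.sum_nil, add_zero, Pi.neg_apply] at h1 ⊢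
  have h3 : (-x (pt a) + (-x (pt b) + (-x (pt c) + -x (pt d)))) / 2 = -((x (pt a) + (x (pt b) + (x (pt c) + x (pt d)))) / 2) := by
    omega
  rw [h3]
  ring

theorem xiFun_zero : xiFun 0 = 0 := by
  funext q
  have hi := idx_lt q
  unfold xiFun
  obtain ⟨a, b, c, d, e, -⟩ := blk_chk _ hi
  rw [e]
  simp

/-- The subgroup of lattice vectors sent into the lattice. -/
def xiSub : AddSubgroup (GolayPt → ℤ) where
  carrier := {x | x ∈ leechLattice ∧ xiFun x ∈ leechLattice}
  zero_mem' := ⟨leechLattice.zero_mem, by rw [xiFun_zero]; exact leechLattice.zero_mem⟩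
  add_mem' := by
    rintro x y ⟨h1, h2⟩ ⟨h3, h4⟩
    refine ⟨leechLattice.add_mem h1 h3, ?_⟩
    rw [xiFun_add (evenS_of_mem h1) (evenS_of_mem h3)]
    exact leechLattice.add_mem h2 h4
  neg_mem' := by
    rintro x ⟨h1, h2⟩
    refine ⟨leechLattice.neg_mem h1, ?_⟩
    rw [xiFun_neg (evenS_of_mem h1)]
    exact leechLattice.neg_mem h2

/-- Generators as lists. -/
def gen4 (i : ℕ) : List ℤ := (List.range 24).map fun j => if j = i then 4 else if j = 0 then -4 else 0
def gen8 : List ℤ := (List.range 24).map fun j => if j = 0 then 8 else 0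
def genB (b : ℕ) : List ℤ := (List.range 24).map fun j => if b.testBit j then 2 else 0
def genV : List ℤ := (List.range 24).map fun j => if j = 0 then -3 else 1

theorem gens_chk : ((List.range 24).all fun i => i == 0 || (lchk (gen4 i) && lchk (xiL (gen4 i)))) = true ∧
    lchk gen8 = true ∧ lchk (xiL gen8) = true ∧
    (basis.all fun b => lchk (genB b) && lchk (xiL (genB b))) = true ∧
    lchk genV = true ∧ lchk (xiL genV) = true := by decide +kernel

theorem getI_range_map (f : ℕ → ℤ) {i : ℕ} (hi : i < 24) : getI ((List.range 24).map f) i = f i := by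
  unfold getI
  rw [List.getD_eq_getElem _ _ (by simpa using hi)]
  simp

/-- The map preserves the lattice. -/
theorem xiFun_mem {x : GolayPt → ℤ} (hx : x ∈ leechLattice) : xiFun x ∈ leechLattice := by
  obtain ⟨g4, g8a, g8b, gb, gva, gvb⟩ := gens_chk
  have hp0 : idx (pt 0) = 0 := idx_pt (by norm_num)
  have key : ∀ L, lchk L = true → lchk (xiL L) = true → vecL L ∈ xiSub := fun L h1 h2 =>
    ⟨mem_of_lchk h1, by rw [xiFun_vecL]; exact mem_of_lchk h2⟩
  have h : leechLattice ≤ xiSub := by
    apply leech_le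
    · intro q hq
      have hi := idx_lt q
      have h0 : idx q ≠ 0 := fun he => hq (idx_inj (he.trans hp0.symm))
      have h1 := List.all_eq_true.mp g4 (idx q) (List.mem_range.mpr hi)
      simp only [Bool.or_eq_true, Bool.and_eq_true, beq_iff_eq, h0, false_or] at h1
      have e : (Pi.single q 4 - Pi.single (pt 0) 4 : GolayPt → ℤ) = vecL (gen4 (idx q)) := by
        funext r
        have h2 : vecL (gen4 (idx q)) r = getI (gen4 (idx q)) (idx r) := rfl
        rw [h2]
        unfold gen4
        rw [getI_range_map _ (idx_lt r)]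
        simp only [Pi.sub_apply]
        by_cases hrq : r = q
        · subst hrq
          simp [Pi.single_eq_of_ne hq]
        · have h3 : idx r ≠ idx q := fun he => hrq (idx_inj he)
          rw [Pi.single_eq_of_ne hrq, if_neg h3]
          by_cases hr0 : r = pt 0
          · subst hr0
            simp [hp0]
          · have h4 : idx r ≠ 0 := fun he => hr0 (idx_inj (he.trans hp0.symm))
            simp [Pi.single_eq_of_ne hr0, h4]
      rw [e]
      exact key _ h1.1 h1.2
    · have e : (Pi.single (pt 0) 8 : GolayPt → ℤ) = vecL gen8 := by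
        funext r
        have h2 : vecL gen8 r = getI gen8 (idx r) := rfl
        rw [h2]
        unfold gen8
        rw [getI_range_map _ (idx_lt r)]
        by_cases hr0 : r = pt 0
        · subst hr0
          simp [hp0]
        · have h4 : idx r ≠ 0 := fun he => hr0 (idx_inj (he.trans hp0.symm))
          simp [Pi.single_eq_of_ne hr0, h4]
      rw [e]
      exact key _ g8a g8b
    · intro b hb
      have h1 := List.all_eq_true.mp gb b hb
      simp only [Bool.and_eq_true] at h1
      have e : twoInd (fs b) = vecL (genB b) := by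
        funext r
        have h2 : vecL (genB b) r = getI (genB b) (idx r) := rfl
        rw [h2]
        unfold genB
        rw [getI_range_map _ (idx_lt r)]
        simp only [twoInd, ind, mem_fs]
        split_ifs <;> rfl
      rw [e]
      exact key _ h1.1 h1.2
    · have e : vodd = vecL genV := by
        funext r
        have h2 : vecL genV r = getI genV (idx r) := rfl
        rw [h2]
        unfold genV
        rw [getI_range_map _ (idx_lt r)]
        simp only [vodd, Pi.add_apply]
        by_cases hr0 : r = pt 0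
        · subst hr0
          simp [hp0]
        · have h4 : idx r ≠ 0 := fun he => hr0 (idx_inj (he.trans hp0.symm))
          simp [Pi.single_eq_of_ne hr0, h4]
      rw [e]
      exact key _ gva gvb
  exact (h hx).2

theorem xiFun_xiFun {x : GolayPt → ℤ} (hx : EvenS x) : xiFun (xiFun x) = x := by
  funext q
  have hi := idx_lt q
  rw [← pt_idx q]
  generalize idx q = i at hi
  rw [xiFun_pt _ hi]
  obtain ⟨a, b, c, d, e, ea, eb, ec, ed, ha, hb, hc, hd, sa, sb, sc, sd, hs⟩ := blk_chk i hi
  have h1 := hx i hi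
  rw [e] at h1 ⊢
  simp only [List.map_cons, List.map_nil, List.sum_cons, List.sum_nil, add_zero] at h1 ⊢
  rw [xiFun_pt _ ha, xiFun_pt _ hb, xiFun_pt _ hc, xiFun_pt _ hd, xiFun_pt _ hi, e, ea, eb, ec, ed, sa, sb, sc, sd]
  simp only [List.map_cons, List.map_nil, List.sum_cons, List.sum_nil, add_zero]
  generalize x (pt a) = xa at *
  generalize x (pt b) = xb at *
  generalize x (pt c) = xc at *
  generalize x (pt d) = xd at *
  generalize x (pt i) = xi at *
  obtain ⟨h, hh⟩ := h1
  rw [hh]
  have h2 : 2 * h / 2 = h := by omega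
  rw [h2]
  rcases hs with hs | hs <;> rw [hs] <;> omega

theorem sum_P0 (f : ℕ → ℤ) : ((List.range 24).map f).sum = (P0.map fun t => (t.map f).sum).sum := by
  rw [← List.Perm.sum_eq (P0_perm.map f)]
  generalize P0 = P
  induction P with
  | nil => simp
  | cons t P ih =>
    simp only [List.flatten_cons, List.map_append, List.sum_append, List.map_cons, List.sum_cons, ih]

theorem sqNorm_xiFun {x : GolayPt → ℤ} (hx : EvenS x) : sqNorm (xiFun x) = sqNorm x := by
  unfold sqNorm
  rw [sum_pts, sum_pts]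
  rw [sum_P0 (fun i => xiFun x (pt i) ^ 2), sum_P0 (fun i => x (pt i) ^ 2)]
  congr 1
  apply List.map_congr_left
  intro t ht
  obtain ⟨a, b, c, d, rfl, ea, eb, ec, ed, ha, hb, hc, hd, sb, sc, sd, hs⟩ := P0_chk t ht
  have h1 := hx a ha
  rw [ea] at h1
  simp only [List.map_cons, List.map_nil, List.sum_cons, List.sum_nil, add_zero] at h1 ⊢
  rw [xiFun_pt _ ha, xiFun_pt _ hb, xiFun_pt _ hc, xiFun_pt _ hd, ea, eb, ec, ed, sb, sc, sd]
  simp only [List.map_cons, List.map_nil, List.sum_cons, List.sum_nil, add_zero]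
  generalize x (pt a) = xa at *
  generalize x (pt b) = xb at *
  generalize x (pt c) = xc at *
  generalize x (pt d) = xd at *
  obtain ⟨h, hh⟩ := h1
  rw [hh]
  have h2 : 2 * h / 2 = h := by omega
  rw [h2]
  have h3 : xd = 2 * h - xa - xb - xc := by linarith
  subst h3
  rcases hs with hs | hs <;> rw [hs] <;> ring

/-- The automorphism as a permutation of the lattice. -/
def xiPerm : Equiv.Perm leechLattice :=
  Function.Involutive.toPerm (fun v : leechLattice => (⟨xiFun v, xiFun_mem v.2⟩ : leechLattice))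
    (fun v => Subtype.ext (xiFun_xiFun (evenS_of_mem v.2)))

/-- The automorphism. -/
def xiEl : ↥Co0 :=
  ⟨xiPerm, ⟨fun v w => Subtype.ext (xiFun_add (evenS_of_mem v.2) (evenS_of_mem w.2)),
    fun v => sqNorm_xiFun (evenS_of_mem v.2)⟩⟩

theorem xiEl_apply (v : leechLattice) : ((xiEl • v : leechLattice) : GolayPt → ℤ) = xiFun v := rfl

/-! ### Paths of explicit automorphisms -/

/-- One step: `(0, 0)` for the map above, `(t, c)` for a monomial map. -/
def stepL (s : ℕ × ℕ) (L : List ℤ) : List ℤ :=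
  if s.1 == 0 then xiL L else monoL s.1 s.2 L

/-- Validity of a step. -/
def stepOK (s : ℕ × ℕ) : Bool := s.1 == 0 || (isAut s.1 && isCode s.2)

theorem step_exists {s : ℕ × ℕ} (hs : stepOK s = true) (L : List ℤ) (h : vecL L ∈ leechLattice) :
    ∃ g : ↥Co0, ((g • (⟨vecL L, h⟩ : leechLattice) : leechLattice) : GolayPt → ℤ) = vecL (stepL s L) := by
  by_cases h0 : s.1 = 0
  · refine ⟨xiEl, ?_⟩
    rw [xiEl_apply]
    simp only [stepL, h0, beq_self_eq_true, if_true]
    exact xiFun_vecL L
  · simp only [stepOK, Bool.or_eq_true, beq_iff_eq, h0, false_or, Bool.and_eq_true] at hs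
    have hv := isAut_valid hs.1
    refine ⟨mono (CfsgLib.Golay.mk s.1) (fs s.2) (mk_mem_M24 hs.1) (fs_mem_supports (mem_allCode_of_isCode hs.2)), ?_⟩
    rw [mono_apply]
    have h1 : stepL s L = monoL s.1 s.2 L := by
      simp [stepL, h0]
    rw [h1]
    exact signedPerm_vecL hv _ _

/-- Following a path of explicit automorphisms. -/
theorem path_exists (ss : List (ℕ × ℕ)) (hs : ss.all stepOK = true) (L : List ℤ) (h : vecL L ∈ leechLattice) :
    ∃ g : ↥Co0, ((g • (⟨vecL L, h⟩ : leechLattice) : leechLattice) : GolayPt → ℤ) = vecL (ss.foldl (fun M s => stepL s M) L) := by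
  induction ss generalizing L with
  | nil => exact ⟨1, rfl⟩
  | cons s ss ih =>
    simp only [List.all_cons, Bool.and_eq_true] at hs
    obtain ⟨g1, hg1⟩ := step_exists hs.1 L h
    have h2 : vecL (stepL s L) ∈ leechLattice := by
      rw [← hg1]
      exact (g1 • (⟨vecL L, h⟩ : leechLattice)).2
    obtain ⟨g2, hg2⟩ := ih hs.2 (stepL s L) h2
    refine ⟨g2 * g1, ?_⟩
    rw [mul_smul]
    have h3 : g1 • (⟨vecL L, h⟩ : leechLattice) = ⟨vecL (stepL s L), h2⟩ := Subtype.ext hg1
    rw [h3, hg2]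
    rfl

end CfsgLib.Leech
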