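/-
Normal forms of short lattice vectors under the monomial group: signs and shapes.
-/
import Cfsg.Agent.Lib.Leech.Xi
import Cfsg.Agent.Lib.Golay.Trans

set_option autoImplicit false

namespace CfsgLib.Leech

open Cfsg CfsgLib.Golay
open scoped Pointwise

/-- Sign changes on lists. -/
def sgnVec (a : List ℤ) (D : ℕ) : List ℤ :=
  (List.range 24).map fun i => if D.testBit i then -getI a i else getI a i

theorem length_sgnVec (a : List ℤ) (D : ℕ) : (sgnVec a D).length = 24 := by simp [sgnVec]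

theorem vecL_sgnVec (L : List ℤ) (w : ℕ) :
    vecL (sgnVec L w) = fun q => if q ∈ fs w then -vecL L q else vecL L q := by
  funext q
  have h : vecL (sgnVec L w) q = getI (sgnVec L w) (idx q) := rfl
  rw [h]
  unfold sgnVec
  rw [getI_range_map _ (idx_lt q)]
  simp only [mem_fs]
  rfl

/-- All masks with bits in a list. -/
def subsetsOf : List ℕ → List ℕ
  | [] => [0]
  | b :: bs => subsetsOf bs ++ (subsetsOf bs).map (fun d => d + 2 ^ b)

theorem mem_subsetsOf (bs : List ℕ) (hnd : bs.Nodup) (T : Finset ℕ) (hT : ∀ i ∈ T, i ∈ bs) :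
    ∑ i ∈ T, 2 ^ i ∈ subsetsOf bs := by
  induction bs generalizing T with
  | nil =>
    have : T = ∅ := Finset.eq_empty_of_forall_notMem fun i hi => by simpa using hT i hi
    subst this
    simp [subsetsOf]
  | cons b bs ih =>
    have hb : b ∉ bs := (List.nodup_cons.mp hnd).1
    have hnd' := (List.nodup_cons.mp hnd).2
    simp only [subsetsOf, List.mem_append, List.mem_map]
    by_cases hbT : b ∈ T
    · right
      refine ⟨∑ i ∈ T.erase b, 2 ^ i, ih hnd' _ fun i hi => ?_, ?_⟩
      · obtain ⟨h1, h2⟩ := Finset.mem_erase.mp hi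
        exact (List.mem_cons.mp (hT i h2)).resolve_left h1
      · exact Finset.sum_erase_add _ _ hbT
    · left
      refine ih hnd' _ fun i hi => ?_
      refine (List.mem_cons.mp (hT i hi)).resolve_left ?_
      rintro rfl
      exact hbT hi

/-- One step of the reduction. -/
def witStep (p : ℕ × ℕ) (e : ℕ × ℕ) : ℕ × ℕ :=
  if p.1.testBit e.1 then (p.1 ^^^ e.2, p.2 ^^^ e.2) else p

/-- A code word reducing a mask along a list of pivots and code words. -/
def wit (E : List (ℕ × ℕ)) (T : ℕ) : ℕ := (E.foldl witStep (T, 0)).2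

theorem wit_mem {E : List (ℕ × ℕ)} (hE : ∀ e ∈ E, e.2 ∈ allCode) (T : ℕ) : wit E T ∈ allCode := by
  have key : ∀ (E : List (ℕ × ℕ)) (p : ℕ × ℕ), (∀ e ∈ E, e.2 ∈ allCode) → p.2 ∈ allCode →
      (E.foldl witStep p).2 ∈ allCode := by
    intro E
    induction E with
    | nil => intro p _ h; exact h
    | cons e E ih =>
      intro p hE hp
      simp only [List.foldl_cons]
      apply ih _ (fun f hf => hE f (List.mem_cons_of_mem _ hf))
      unfold witStep
      split_ifs
      · exact xor_mem_allCode hp (hE e List.mem_cons_self)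
      · exact hp
  exact key E (T, 0) hE zero_mem_allCode

/-- The mask of negative entries. -/
def negMask (R : List ℤ) : ℕ := bitsOf (fun i => decide (getI R i < 0)) 24

/-- The check that all lattice vectors with prescribed absolute values reach `R` by sign changes. -/
def signChk (a R : List ℤ) (E : List (ℕ × ℕ)) (bs : List ℕ) : Bool :=
  (subsetsOf bs).all fun D =>
    !(lchk (sgnVec a D)) || (sgnVec (sgnVec a D) (wit E (D ^^^ negMask R)) == R)

/-- The check that no lattice vector has prescribed absolute values. -/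
def noSign (a : List ℤ) (bs : List ℕ) : Bool :=
  (subsetsOf bs).all fun D => !(lchk (sgnVec a D))

/-- A lattice vector with prescribed absolute values. -/
theorem exists_signs {x : GolayPt → ℤ} (hx : x ∈ leechLattice) {a : List ℤ}
    (habs : ∀ i < 24, |x (pt i)| = getI a i) {bs : List ℕ} (hbs : bs.Nodup)
    (hs : ∀ i < 24, getI a i ≠ 0 → i ∈ bs) :
    ∃ D ∈ subsetsOf bs, vecL (sgnVec a D) = x ∧ lchk (sgnVec a D) = true := by
  classical
  let s : Finset GolayPt := Finset.univ.filter fun q => x q < 0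
  have hbit : ∀ q, (mask s).testBit (idx q) = true ↔ x q < 0 := by
    intro q
    rw [← mem_fs, fs_mask]
    simp [s]
  have hm : mask s ∈ subsetsOf bs := by
    rw [mask_eq_sum]
    apply mem_subsetsOf bs hbs
    intro i hi
    obtain ⟨q, hq, rfl⟩ := Finset.mem_image.mp hi
    apply hs _ (idx_lt q)
    have h1 := habs _ (idx_lt q)
    rw [pt_idx] at h1
    rw [← h1]
    have h2 : x q < 0 := by simpa [s] using hq
    exact abs_ne_zero.mpr h2.ne
  have hv : vecL (sgnVec a (mask s)) = x := by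
    funext q
    rw [vecL_sgnVec]
    have h1 := habs _ (idx_lt q)
    rw [pt_idx] at h1
    have h2 : vecL a q = |x q| := h1.symm
    simp only [mem_fs, hbit, h2]
    by_cases h3 : x q < 0
    · simp [h3, abs_of_neg h3]
    · simp [h3, abs_of_nonneg (not_lt.mp h3)]
  refine ⟨mask s, hm, hv, ?_⟩
  rw [lchk_iff (length_sgnVec _ _), hv]
  exact hx

theorem sign_adjust {x : GolayPt → ℤ} (hx : x ∈ leechLattice) {a R : List ℤ} {E : List (ℕ × ℕ)} {bs : List ℕ}
    (habs : ∀ i < 24, |x (pt i)| = getI a i) (hbs : bs.Nodup) (hs : ∀ i < 24, getI a i ≠ 0 → i ∈ bs)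
    (hE : ∀ e ∈ E, e.2 ∈ allCode) (hchk : signChk a R E bs = true) :
    ∃ w ∈ allCode, (fun q => if q ∈ fs w then -x q else x q) = vecL R := by
  obtain ⟨D, hD, hv, hl⟩ := exists_signs hx habs hbs hs
  have h1 := List.all_eq_true.mp hchk D hD
  simp only [hl, Bool.not_true, Bool.false_or, beq_iff_eq] at h1
  refine ⟨wit E (D ^^^ negMask R), wit_mem hE _, ?_⟩
  have h2 := vecL_sgnVec (sgnVec a D) (wit E (D ^^^ negMask R))
  rw [h1, hv] at h2
  exact h2.symm

theorem no_signs {x : GolayPt → ℤ} (hx : x ∈ leechLattice) {a : List ℤ} {bs : List ℕ}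
    (habs : ∀ i < 24, |x (pt i)| = getI a i) (hbs : bs.Nodup) (hs : ∀ i < 24, getI a i ≠ 0 → i ∈ bs)
    (hchk : noSign a bs = true) : False := by
  obtain ⟨D, hD, -, hl⟩ := exists_signs hx habs hbs hs
  have h1 := List.all_eq_true.mp hchk D hD
  simp [hl] at h1

/-! ### Normal forms -/

/-- Two vectors related by an element of the monomial group. -/
def NEq (x : GolayPt → ℤ) (R : List ℤ) : Prop :=
  ∃ σ ∈ M24, ∃ w ∈ allCode, signedPerm σ (fs w) x = vecL R

/-- The list with absolute values given by masks. -/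
def prof (F8 F4 F6 C0 : ℕ) : List ℤ :=
  (List.range 24).map fun i =>
    if F8.testBit i then 8 else if F4.testBit i then 4 else if F6.testBit i then 6 else if C0.testBit i then 2 else 0

theorem getI_prof (F8 F4 F6 C0 : ℕ) {i : ℕ} (hi : i < 24) : getI (prof F8 F4 F6 C0) i =
    if F8.testBit i then 8 else if F4.testBit i then 4 else if F6.testBit i then 6 else if C0.testBit i then 2 else 0 :=
  getI_range_map _ hi

/-- Coordinates of small even vectors. -/
theorem even_values {x : GolayPt → ℤ} {c : Finset GolayPt} (hd : LeechData x 0 c) (hN : sqNorm x ≤ 64) (q : GolayPt) :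
    (q ∈ c → |x q| = 2 ∨ |x q| = 6) ∧ (q ∉ c → x q = 0 ∨ |x q| = 4 ∨ |x q| = 8) := by
  have h1 : x q ^ 2 ≤ 64 := (Finset.single_le_sum (f := fun i => x i ^ 2) (fun i _ => sq_nonneg (x i))
    (Finset.mem_univ q)).trans hN
  have h2 : -8 ≤ x q ∧ x q ≤ 8 := by constructor <;> nlinarith
  have h3 := hd.h4 q
  unfold Int.ModEq ind at h3
  constructor
  · intro hq
    rw [if_pos hq] at h3
    have h4 : x q = 2 ∨ x q = -2 ∨ x q = 6 ∨ x q = -6 := by omega
    rcases h4 with h4 | h4 | h4 | h4 <;> rw [h4] <;> norm_num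
  · intro hq
    rw [if_neg hq] at h3
    have h4 : x q = 0 ∨ x q = 4 ∨ x q = -4 ∨ x q = 8 ∨ x q = -8 := by omega
    rcases h4 with h4 | h4 | h4 | h4 | h4 <;> rw [h4] <;> norm_num

/-- Points with a given absolute value. -/
def absS (x : GolayPt → ℤ) (v : ℤ) : Finset GolayPt := Finset.univ.filter fun q => |x q| = v

theorem mem_absS {x : GolayPt → ℤ} {v : ℤ} {q : GolayPt} : q ∈ absS x v ↔ |x q| = v := by simp [absS]

/-- The norm of a small even vector. -/
theorem even_count {x : GolayPt → ℤ} {c : Finset GolayPt} (hd : LeechData x 0 c) (hN : sqNorm x ≤ 64) :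
    sqNorm x = 4 * c.card + 32 * (absS x 6).card + 16 * (absS x 4).card + 64 * (absS x 8).card := by
  have key : ∀ q, x q ^ 2 = 4 * ind c q + 32 * ind (absS x 6) q + 16 * ind (absS x 4) q + 64 * ind (absS x 8) q := by
    intro q
    obtain ⟨h1, h2⟩ := even_values hd hN q
    unfold ind
    simp only [mem_absS]
    have hsq : x q ^ 2 = |x q| ^ 2 := (sq_abs _).symm
    by_cases hq : q ∈ c
    · rw [if_pos hq, hsq]
      rcases h1 hq with h3 | h3 <;> rw [h3] <;> norm_num
    · rw [if_neg hq, hsq]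
      rcases h2 hq with h3 | h3 | h3
      · have : |x q| = 0 := by rw [h3]; norm_num
        rw [this]; norm_num
      · rw [h3]; norm_num
      · rw [h3]; norm_num
  unfold sqNorm
  simp only [key, Finset.sum_add_distrib, ← Finset.mul_sum, sum_ind]

theorem mem_smul_iff_inv {σ : Equiv.Perm GolayPt} {s : Finset GolayPt} {q : GolayPt} :
    q ∈ σ • s ↔ σ⁻¹ q ∈ s := by
  rw [Finset.mem_smul_finset]
  constructor
  · rintro ⟨a, ha, rfl⟩
    have : σ⁻¹ (σ • a) = a := by
      change σ⁻¹ (σ a) = a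
      simp
    rw [this]
    exact ha
  · intro h
    refine ⟨_, h, ?_⟩
    change σ (σ⁻¹ q) = q
    simp

/-- The step for even vectors. -/
theorem even_step {x : GolayPt → ℤ} (hx : x ∈ leechLattice) {c : Finset GolayPt} (hd : LeechData x 0 c)
    (hN : sqNorm x ≤ 64) {σ : Equiv.Perm GolayPt} (hσ : σ ∈ M24) {C0 F4 F6 F8 : ℕ} (h1 : σ • c = fs C0)
    (h2 : σ • absS x 4 = fs F4) (h3 : σ • absS x 6 = fs F6) (h4 : σ • absS x 8 = fs F8) {R : List ℤ}
    {E : List (ℕ × ℕ)} {bs : List ℕ} (hbs : bs.Nodup) (hs : ∀ i < 24, getI (prof F8 F4 F6 C0) i ≠ 0 → i ∈ bs)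
    (hE : ∀ e ∈ E, e.2 ∈ allCode) (hchk : signChk (prof F8 F4 F6 C0) R E bs = true) : NEq x R := by
  have hx' : (fun i => x (σ⁻¹ i)) ∈ leechLattice := comp_mem (M24.inv_mem hσ) hx
  have habs : ∀ i < 24, |x (σ⁻¹ (pt i))| = getI (prof F8 F4 F6 C0) i := by
    intro i hi
    rw [getI_prof _ _ _ _ hi]
    have e8 : F8.testBit i = true ↔ |x (σ⁻¹ (pt i))| = 8 := by
      rw [← mem_fs_pt hi, ← h4, mem_smul_iff_inv, mem_absS]
    have e4 : F4.testBit i = true ↔ |x (σ⁻¹ (pt i))| = 4 := by
      rw [← mem_fs_pt hi, ← h2, mem_smul_iff_inv, mem_absS]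
    have e6 : F6.testBit i = true ↔ |x (σ⁻¹ (pt i))| = 6 := by
      rw [← mem_fs_pt hi, ← h3, mem_smul_iff_inv, mem_absS]
    have e0 : C0.testBit i = true ↔ σ⁻¹ (pt i) ∈ c := by
      rw [← mem_fs_pt hi, ← h1, mem_smul_iff_inv]
    obtain ⟨v1, v2⟩ := even_values hd hN (σ⁻¹ (pt i))
    by_cases h8 : F8.testBit i = true
    · rw [if_pos h8]; exact e8.mp h8
    rw [if_neg h8]
    by_cases h44 : F4.testBit i = true
    · rw [if_pos h44]; exact e4.mp h44
    rw [if_neg h44]
    by_cases h66 : F6.testBit i = true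
    · rw [if_pos h66]; exact e6.mp h66
    rw [if_neg h66]
    by_cases h00 : C0.testBit i = true
    · rw [if_pos h00]
      rcases v1 (e0.mp h00) with h5 | h5
      · exact h5
      · exact absurd (e6.mpr h5) h66
    · rw [if_neg h00]
      rcases v2 (fun h => h00 (e0.mpr h)) with h5 | h5 | h5
      · rw [h5]; norm_num
      · exact absurd (e4.mpr h5) h44
      · exact absurd (e8.mpr h5) h8
  obtain ⟨w, hw, he⟩ := sign_adjust hx' habs hbs hs hE hchk
  exact ⟨σ, hσ, w, hw, he⟩

theorem even_none {x : GolayPt → ℤ} (hx : x ∈ leechLattice) {c : Finset GolayPt} (hd : LeechData x 0 c)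
    (hN : sqNorm x ≤ 64) {σ : Equiv.Perm GolayPt} (hσ : σ ∈ M24) {C0 F4 F6 F8 : ℕ} (h1 : σ • c = fs C0)
    (h2 : σ • absS x 4 = fs F4) (h3 : σ • absS x 6 = fs F6) (h4 : σ • absS x 8 = fs F8)
    {bs : List ℕ} (hbs : bs.Nodup) (hs : ∀ i < 24, getI (prof F8 F4 F6 C0) i ≠ 0 → i ∈ bs)
    (hchk : noSign (prof F8 F4 F6 C0) bs = true) : False := by
  have hx' : (fun i => x (σ⁻¹ i)) ∈ leechLattice := comp_mem (M24.inv_mem hσ) hx
  have habs : ∀ i < 24, |x (σ⁻¹ (pt i))| = getI (prof F8 F4 F6 C0) i := by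
    intro i hi
    rw [getI_prof _ _ _ _ hi]
    have e8 : F8.testBit i = true ↔ |x (σ⁻¹ (pt i))| = 8 := by
      rw [← mem_fs_pt hi, ← h4, mem_smul_iff_inv, mem_absS]
    have e4 : F4.testBit i = true ↔ |x (σ⁻¹ (pt i))| = 4 := by
      rw [← mem_fs_pt hi, ← h2, mem_smul_iff_inv, mem_absS]
    have e6 : F6.testBit i = true ↔ |x (σ⁻¹ (pt i))| = 6 := by
      rw [← mem_fs_pt hi, ← h3, mem_smul_iff_inv, mem_absS]
    have e0 : C0.testBit i = true ↔ σ⁻¹ (pt i) ∈ c := by
      rw [← mem_fs_pt hi, ← h1, mem_smul_iff_inv]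
    obtain ⟨v1, v2⟩ := even_values hd hN (σ⁻¹ (pt i))
    by_cases h8 : F8.testBit i = true
    · rw [if_pos h8]; exact e8.mp h8
    rw [if_neg h8]
    by_cases h44 : F4.testBit i = true
    · rw [if_pos h44]; exact e4.mp h44
    rw [if_neg h44]
    by_cases h66 : F6.testBit i = true
    · rw [if_pos h66]; exact e6.mp h66
    rw [if_neg h66]
    by_cases h00 : C0.testBit i = true
    · rw [if_pos h00]
      rcases v1 (e0.mp h00) with h5 | h5
      · exact h5
      · exact absurd (e6.mpr h5) h66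
    · rw [if_neg h00]
      rcases v2 (fun h => h00 (e0.mpr h)) with h5 | h5 | h5
      · rw [h5]; norm_num
      · exact absurd (e4.mpr h5) h44
      · exact absurd (e8.mpr h5) h8
  exact no_signs hx' habs hbs hs hchk

/-! ### Odd vectors -/

/-- The vector with residues one modulo four attached to an odd vector. -/
def oddY (x : GolayPt → ℤ) (c : Finset GolayPt) : GolayPt → ℤ := fun q => if q ∈ c then -x q else x q

theorem oddY_mod {x : GolayPt → ℤ} {c : Finset GolayPt} (hd : LeechData x 1 c) (q : GolayPt) : oddY x c q % 4 = 1 := by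
  have h3 := hd.h4 q
  unfold Int.ModEq ind at h3
  unfold oddY
  by_cases hq : q ∈ c
  · rw [if_pos hq] at h3 ⊢
    omega
  · rw [if_neg hq] at h3 ⊢
    omega

theorem sqNorm_oddY (x : GolayPt → ℤ) (c : Finset GolayPt) : sqNorm (oddY x c) = sqNorm x := by
  unfold sqNorm oddY
  refine Finset.sum_congr rfl fun q _ => ?_
  split_ifs <;> ring

theorem odd_values {x : GolayPt → ℤ} {c : Finset GolayPt} (hd : LeechData x 1 c) (hN : sqNorm x ≤ 64) (q : GolayPt) :
    oddY x c q = 1 ∨ oddY x c q = -3 ∨ oddY x c q = 5 := by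
  have hm := oddY_mod hd
  have h1 : oddY x c q ^ 2 + 23 ≤ 64 := by
    have h2 : ∑ r ∈ Finset.univ.erase q, (1 : ℤ) ≤ ∑ r ∈ Finset.univ.erase q, oddY x c r ^ 2 :=
      Finset.sum_le_sum fun r _ => by
        have := hm r
        have h3 : oddY x c r ≠ 0 := by
          intro h4
          rw [h4] at this
          norm_num at this
        have h4 : 0 < oddY x c r ^ 2 := by positivity
        omega
    have h3 : ∑ r ∈ Finset.univ.erase q, oddY x c r ^ 2 + oddY x c q ^ 2 = sqNorm (oddY x c) :=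
      Finset.sum_erase_add _ _ (Finset.mem_univ q)
    rw [sqNorm_oddY] at h3
    have h4 : ∑ r ∈ Finset.univ.erase q, (1 : ℤ) = 23 := by
      simp [Finset.card_erase_of_mem, Finset.card_univ]
    omega
  have h2 : -6 ≤ oddY x c q ∧ oddY x c q ≤ 6 := by constructor <;> nlinarith
  have h3 := hm q
  omega

/-- The points of a given value. -/
def valS (y : GolayPt → ℤ) (v : ℤ) : Finset GolayPt := Finset.univ.filter fun q => y q = v

theorem mem_valS {y : GolayPt → ℤ} {v : ℤ} {q : GolayPt} : q ∈ valS y v ↔ y q = v := by simp [valS]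

theorem odd_count {x : GolayPt → ℤ} {c : Finset GolayPt} (hd : LeechData x 1 c) (hN : sqNorm x ≤ 64) :
    sqNorm x = 24 + 8 * (valS (oddY x c) (-3)).card + 24 * (valS (oddY x c) 5).card := by
  have key : ∀ q, oddY x c q ^ 2 = 1 + 8 * ind (valS (oddY x c) (-3)) q + 24 * ind (valS (oddY x c) 5) q := by
    intro q
    unfold ind
    simp only [mem_valS]
    rcases odd_values hd hN q with h | h | h <;> rw [h] <;> norm_num
  rw [← sqNorm_oddY x c]
  unfold sqNorm
  simp only [key, Finset.sum_add_distrib, ← Finset.mul_sum, sum_ind]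
  simp

/-- The list for odd vectors. -/
def profOdd (F3 F5 : ℕ) : List ℤ :=
  (List.range 24).map fun i => if F3.testBit i then -3 else if F5.testBit i then 5 else 1

/-- The step for odd vectors. -/
theorem odd_step {x : GolayPt → ℤ} {c : Finset GolayPt} (hd : LeechData x 1 c)
    (hN : sqNorm x ≤ 64) {σ : Equiv.Perm GolayPt} (hσ : σ ∈ M24) {F3 F5 : ℕ}
    (h1 : σ • valS (oddY x c) (-3) = fs F3) (h2 : σ • valS (oddY x c) 5 = fs F5) : NEq x (profOdd F3 F5) := by
  obtain ⟨w, hw, hwc⟩ := (mem_supports_iff _).mp (M24_smul_mem hσ hd.hc)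
  refine ⟨σ, hσ, w, hw, ?_⟩
  rw [← hwc]
  funext q
  have hv : vecL (profOdd F3 F5) q = getI (profOdd F3 F5) (idx q) := rfl
  rw [hv]
  unfold profOdd
  rw [getI_range_map _ (idx_lt q)]
  have e1 : signedPerm σ (σ • c) x q = oddY x c (σ⁻¹ q) := by
    simp only [signedPerm, oddY, mem_smul_iff_inv]
    rfl
  rw [e1]
  have e3 : F3.testBit (idx q) = true ↔ oddY x c (σ⁻¹ q) = -3 := by
    rw [← mem_fs, ← h1, mem_smul_iff_inv, mem_valS]
  have e5 : F5.testBit (idx q) = true ↔ oddY x c (σ⁻¹ q) = 5 := by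
    rw [← mem_fs, ← h2, mem_smul_iff_inv, mem_valS]
  by_cases h3 : F3.testBit (idx q) = true
  · rw [if_pos h3]; exact e3.mp h3
  rw [if_neg h3]
  by_cases h5 : F5.testBit (idx q) = true
  · rw [if_pos h5]; exact e5.mp h5
  rw [if_neg h5]
  rcases odd_values hd hN (σ⁻¹ q) with h | h | h
  · exact h
  · exact absurd (e3.mpr h) h3
  · exact absurd (e5.mpr h) h5

/-- Moving two disjoint small sets to two given sets. -/
theorem M24_map_two {s t s' t' : Finset GolayPt} (hd : Disjoint s t) (hd' : Disjoint s' t') (h1 : s.card = s'.card)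
    (h2 : t.card = t'.card) (h5 : s.card + t.card ≤ 5) : ∃ σ ∈ M24, σ • s = s' ∧ σ • t = t' := by
  have hx : (s.toList ++ t.toList).Nodup := by
    rw [List.nodup_append']
    refine ⟨s.nodup_toList, t.nodup_toList, ?_⟩
    intro a ha hb
    exact Finset.disjoint_left.mp hd (Finset.mem_toList.mp ha) (Finset.mem_toList.mp hb)
  have hy : (s'.toList ++ t'.toList).Nodup := by
    rw [List.nodup_append']
    refine ⟨s'.nodup_toList, t'.nodup_toList, ?_⟩
    intro a ha hb
    exact Finset.disjoint_left.mp hd' (Finset.mem_toList.mp ha) (Finset.mem_toList.mp hb)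
  obtain ⟨σ, hσ, he⟩ := M24_map_list _ _ (by simp [h1, h2]) (by simpa using h5) hx hy
  rw [List.map_append] at he
  obtain ⟨e1, e2⟩ := List.append_inj he (by simp [h1])
  have key : ∀ u u' : Finset GolayPt, u.toList.map (fun a => σ a) = u'.toList → σ • u = u' := by
    intro u u' h
    ext q
    rw [Finset.mem_smul_finset, ← Finset.mem_toList (s := u'), ← h, List.mem_map]
    constructor
    · rintro ⟨a, ha, rfl⟩
      exact ⟨a, Finset.mem_toList.mpr ha, rfl⟩
    · rintro ⟨a, ha, rfl⟩
      exact ⟨a, Finset.mem_toList.mp ha, rfl⟩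
  exact ⟨σ, hσ, key _ _ e1, key _ _ e2⟩

end CfsgLib.Leech
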